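import Mathlib
import Cfsg.Agent.Lib.Helper22.GAlg
import Cfsg.Agent.Lib.Helper21.Osima
import Cfsg.Agent.Lib.Helper33.FRChar
import Cfsg.Agent.Lib.Helper4.CharExp2

/-!
# Piece KU-DEG of the Külshammer project (helper57, job S4648 KU-DEG)

`kuls_deg`: if the block algebra is generated modulo the local ideal by `N` elements over the
centre, then every irreducible character of the block has degree at most `√N`.
-/

set_option autoImplicit false

namespace Cfsg.Agent.Lib.Helper57.Kuls

open Cfsg Cfsg.Agent.Lib.Helper4 Cfsg.Agent.Lib.Helper21 Cfsg.Agent.Lib.Helper22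
open scoped ComplexConjugate

universe u

section Aux

variable {G : Type u} [Group G] [Fintype G]

/-- Right convolution by `b` as a linear map. -/
noncomputable def rconv (b : G → ℂ) : (G → ℂ) →ₗ[ℂ] (G → ℂ) where
  toFun x := conv x b
  map_add' x y := by
    funext g
    simp only [conv_apply, Pi.add_apply, add_mul, Finset.sum_add_distrib]
  map_smul' c x := by
    funext g
    simp only [conv_apply, Pi.smul_apply, smul_eq_mul, RingHom.id_apply, Finset.mul_sum,
      mul_assoc]

theorem rconv_apply (b x : G → ℂ) : rconv b x = conv x b := rfl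

theorem conv_single [DecidableEq G] (g : G) (b : G → ℂ) (x : G) :
    conv (Pi.single g 1) b x = b (g⁻¹ * x) := by
  rw [conv_apply, Finset.sum_eq_single g]
  · rw [Pi.single_eq_same, one_mul]
  · intro h _ hh
    rw [Pi.single_eq_of_ne hh, zero_mul]
  · intro h
    exact absurd (Finset.mem_univ g) h

theorem kuls_conv_smul_right (c : ℂ) (x b : G → ℂ) : conv x (c • b) = c • conv x b := by
  funext g
  simp only [conv_apply, Pi.smul_apply, smul_eq_mul, Finset.mul_sum]
  exact Finset.sum_congr rfl fun h _ => by ring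

theorem trace_rconv [DecidableEq G] (b : G → ℂ) :
    LinearMap.trace ℂ (G → ℂ) (rconv b) = (Fintype.card G : ℂ) * b 1 := by
  rw [LinearMap.trace_eq_matrix_trace ℂ (Pi.basisFun ℂ G), Matrix.trace]
  have h : ∀ g : G, Matrix.diag (LinearMap.toMatrix (Pi.basisFun ℂ G) (Pi.basisFun ℂ G)
      (rconv b)) g = b 1 := by
    intro g
    rw [Matrix.diag_apply, LinearMap.toMatrix_apply, Pi.basisFun_apply, Pi.basisFun_repr,
      rconv_apply, conv_single, inv_mul_cancel]
  rw [Finset.sum_congr rfl fun g _ => h g, Finset.sum_const, Finset.card_univ, nsmul_eq_mul]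

end Aux

/-- DEG -/
theorem kuls_deg {G : Type u} [Group G] [Fintype G] [DecidableEq G] {p : ℕ} [Fact p.Prime]
    {M : Ideal AlgInt}
    (hM : IsPModular p M) (B : Set (IrrCharacter G)) (hB : IsPBlock M B)
    (N : ℕ) (a : Fin N → G → ℂ) (ha : ∀ j g, MemLocalRing M (a j g))
    (hgen : ∀ g : G, ∃ z : Fin N → G → ℂ, (∀ j, IsClassFunction G (z j)) ∧
      (∀ j h, MemLocalRing M (z j h)) ∧
      ∀ h : G, MemLocalIdeal M
        (conv (Pi.single g 1) (blockCoeff B) h - ∑ j, conv (z j) (a j) h))
    (χ : IrrCharacter G) (hχ : χ ∈ B) : charDegree (χ : G → ℂ) ^ 2 ≤ N := by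
  classical
  set f : G → ℂ := fun u => conj ((χ : G → ℂ) u) with hf
  obtain ⟨n, hnpos, hn⟩ := irr_one_nat χ
  have hdeg : charDegree (χ : G → ℂ) = n := by
    rw [charDegree, hn]
    simp
  have hcard : (Nat.card G : ℂ) ≠ 0 := by
    exact_mod_cast (Nat.card_pos (α := G)).ne'
  have hnC : (n : ℂ) ≠ 0 := by exact_mod_cast hnpos.ne'
  -- `e_B * f = f`
  have hBf : conv (blockCoeff B) f = f := by
    rw [hf, Cfsg.Agent.Lib.Helper33.conv_conj_irr _ (blockCoeff_isClassFunction B) χ,
      omega_blockCoeff, if_pos hχ, one_smul]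
  have hfc : IsClassFunction G f := by
    intro g h
    simp only [hf]
    rw [isClassFunction_irr χ g h]
  -- `f * f = (|G| / χ 1) f`
  have hff : conv f f = ((Nat.card G : ℂ) / (n : ℂ)) • f := by
    have h1 := Cfsg.Agent.Lib.Helper33.conv_conj_irr f hfc χ
    rw [Cfsg.Agent.Lib.Helper33.omega_conj_eq, classInner_irr, if_pos rfl, mul_one, hn] at h1
    exact h1
  -- the idempotent
  set c : ℂ := (n : ℂ) / (Nat.card G : ℂ) with hc
  set e : G → ℂ := c • f with he
  have hee : conv e e = e := by
    have h1 : conv e e = (c * c) • conv f f := by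
      funext g
      simp only [he, conv_apply, Pi.smul_apply, smul_eq_mul, Finset.mul_sum]
      exact Finset.sum_congr rfl fun h _ => by ring
    rw [h1, hff, smul_smul, he]
    congr 1
    rw [hc]
    field_simp
  have hidem : IsIdempotentElem (rconv e) := by
    apply LinearMap.ext
    intro x
    show rconv e (rconv e x) = rconv e x
    rw [rconv_apply, rconv_apply, conv_assoc, hee]
  have htr := (LinearMap.IsIdempotentElem.isProj_range _ hidem).trace
  rw [trace_rconv] at htr
  have he1 : (Fintype.card G : ℂ) * e 1 = ((n ^ 2 : ℕ) : ℂ) := by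
    have h1 : e 1 = c * (n : ℂ) := by
      simp only [he, hf, Pi.smul_apply, smul_eq_mul, hn, map_natCast]
    rw [h1, hc, ← Nat.card_eq_fintype_card]
    push_cast
    field_simp
  have hrank : Module.finrank ℂ (LinearMap.range (rconv e)) = n ^ 2 := by
    have h1 : ((Module.finrank ℂ (LinearMap.range (rconv e)) : ℕ) : ℂ) = ((n ^ 2 : ℕ) : ℂ) := by
      rw [← htr, he1]
    exact_mod_cast h1
  -- the Nakayama step
  choose z hzc hzl hm using hgen
  set v : G → G → ℂ := fun g x => f (g⁻¹ * x) with hv
  have hvg : ∀ g, conv (Pi.single g 1) f = v g := by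
    intro g
    funext x
    rw [conv_single]
  set L : Submodule ℂ (G → ℂ) :=
    Submodule.span ℂ (Set.range fun j : Fin N => conv (a j) f) with hL
  set μ : Matrix G G ℂ := Matrix.of fun g h =>
    conv (Pi.single g 1) (blockCoeff B) h - ∑ j, conv (z g j) (a j) h with hμ
  have hμloc : ∀ g h, MemLocalIdeal M ((-μ) g h) := fun g h => locIdeal_neg (hm g h)
  have hdet := det_one_add_ne_zero hM (-μ) hμloc
  set A : Matrix G G ℂ := 1 + -μ with hA
  have hkey : ∀ g, ∑ h, A g h • v h ∈ L := by
    intro g
    have h1 : ∑ h, A g h • v h = v g - conv (μ g) f := by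
      funext x
      rw [Finset.sum_apply, Pi.sub_apply, conv_apply]
      have h2 : ∀ h, (A g h • v h) x = (if g = h then v h x else 0) - μ g h * f (h⁻¹ * x) := by
        intro h
        rw [Pi.smul_apply, smul_eq_mul, hA, Matrix.add_apply, Matrix.neg_apply,
          Matrix.one_apply]
        split_ifs <;> simp only [hv] <;> ring
      rw [Finset.sum_congr rfl fun h _ => h2 h, Finset.sum_sub_distrib,
        Finset.sum_ite_eq Finset.univ g, if_pos (Finset.mem_univ g)]
    have h2 : conv (μ g) f = v g - ∑ j, omega (χ : G → ℂ) (z g j) • conv (a j) f := by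
      have h3 : μ g = conv (Pi.single g 1) (blockCoeff B) - ∑ j, conv (z g j) (a j) := by
        funext h
        rw [Pi.sub_apply, Finset.sum_apply]
        rfl
      rw [h3, ← rconv_apply, map_sub, map_sum, rconv_apply, conv_assoc, hBf, hvg]
      congr 1
      refine Finset.sum_congr rfl fun j _ => ?_
      rw [rconv_apply, conv_comm_of_isClassFunction (z g j) (a j) (hzc g j), conv_assoc,
        Cfsg.Agent.Lib.Helper33.conv_conj_irr (z g j) (hzc g j) χ, kuls_conv_smul_right]
    rw [h1, h2, sub_sub_cancel]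
    exact Submodule.sum_mem _ fun j _ =>
      Submodule.smul_mem _ _ (Submodule.subset_span ⟨j, rfl⟩)
  have hvL : ∀ h, v h ∈ L := by
    intro h
    have hinv : A⁻¹ * A = 1 := Matrix.nonsing_inv_mul A (isUnit_iff_ne_zero.mpr hdet)
    have h1 : v h = ∑ g, A⁻¹ h g • ∑ g', A g g' • v g' := by
      simp_rw [Finset.smul_sum, smul_smul]
      rw [Finset.sum_comm]
      simp_rw [← Finset.sum_smul, ← Matrix.mul_apply, hinv, Matrix.one_apply, ite_smul, one_smul,
        zero_smul]
      rw [Finset.sum_ite_eq Finset.univ h, if_pos (Finset.mem_univ h)]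
    rw [h1]
    exact Submodule.sum_mem _ fun g _ => Submodule.smul_mem _ _ (hkey g)
  have hrange : LinearMap.range (rconv e) ≤ L := by
    rintro _ ⟨x, rfl⟩
    have h1 : rconv e x = c • ∑ h, x h • v h := by
      funext y
      rw [rconv_apply, he, kuls_conv_smul_right, Pi.smul_apply, Pi.smul_apply, conv_apply,
        Finset.sum_apply]
      rfl
    rw [h1]
    exact L.smul_mem _ (Submodule.sum_mem _ fun h _ => L.smul_mem _ (hvL h))
  have hfin : Module.finrank ℂ L ≤ N := by
    have h1 := finrank_range_le_card (R := ℂ) (fun j : Fin N => conv (a j) f)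
    rw [Fintype.card_fin] at h1
    exact h1
  have hle := Submodule.finrank_mono hrange
  rw [hdeg]
  omega

end Cfsg.Agent.Lib.Helper57.Kuls
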