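import Mathlib
import Cfsg.Prelude.Def_GeometricClasses
import Cfsg.Agent.Lib.Helper71.Asch0

set_option autoImplicit false

namespace Cfsg.Agent.Lib.Helper57.ASCOREA

open Matrix Cfsg.Geo Cfsg.Agent.Lib.Helper71.Asch
open scoped Kronecker

variable {n : ℕ} {F : Type*} [Field F]

/-- The linear maps of the elements of `N`. -/
def gens (N : Subgroup (GL (Fin n) F)) : Set (Module.End F (Fin n → F)) :=
  (fun x : GL (Fin n) F => Matrix.toLin' x.1) '' (N : Set (GL (Fin n) F))

/-- The enveloping algebra of `N`. -/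
def env (N : Subgroup (GL (Fin n) F)) : Subalgebra F (Module.End F (Fin n → F)) :=
  Algebra.adjoin F (gens N)

theorem gen_mem (N : Subgroup (GL (Fin n) F)) {x : GL (Fin n) F} (hx : x ∈ N) :
    Matrix.toLin' x.1 ∈ env N :=
  Algebra.subset_adjoin ⟨x, hx, rfl⟩

/-- The enveloping algebra of `N` as a type with its own instances. -/
def Env (N : Subgroup (GL (Fin n) F)) : Type _ := ↥(env N)

instance instRingEnv (N : Subgroup (GL (Fin n) F)) : Ring (Env N) := Subalgebra.toRing (env N)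

instance instAlgEnv (N : Subgroup (GL (Fin n) F)) : Algebra F (Env N) := Subalgebra.algebra (env N)

instance instModEnv (N : Subgroup (GL (Fin n) F)) : Module (Env N) (Fin n → F) :=
  Subalgebra.moduleLeft (env N)

instance instTowerEnv (N : Subgroup (GL (Fin n) F)) : IsScalarTower F (Env N) (Fin n → F) :=
  Subalgebra.isScalarTower_mid (env N)

theorem env_smul (N : Subgroup (GL (Fin n) F)) (a : Env N) (v : Fin n → F) : a • v = a.1 v := rfl

instance instArt (N : Subgroup (GL (Fin n) F)) : IsArtinian (Env N) (Fin n → F) :=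
  isArtinian_of_tower F inferInstance

instance instNoe (N : Subgroup (GL (Fin n) F)) : IsNoetherian (Env N) (Fin n → F) :=
  isNoetherian_of_tower F inferInstance

instance instFin (N : Subgroup (GL (Fin n) F)) : Module.Finite (Env N) (Fin n → F) :=
  Module.Finite.of_restrictScalars_finite F _ _

/-- An `N`-invariant subspace as a submodule over the enveloping algebra. -/
def toA (N : Subgroup (GL (Fin n) F)) (W : Submodule F (Fin n → F))
    (hW : ∀ x ∈ N, W.map (Matrix.toLin' x.1) ≤ W) : Submodule (Env N) (Fin n → F) :=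
  { W with
    smul_mem' := by
      rintro ⟨a, ha⟩ v hv
      show a v ∈ W
      induction ha using Algebra.adjoin_induction generalizing v with
      | mem a ha =>
        obtain ⟨x, hx, rfl⟩ := ha
        exact hW x hx ⟨v, hv, rfl⟩
      | algebraMap r =>
        rw [Module.algebraMap_end_apply]
        exact W.smul_mem r hv
      | add a b _ _ iha ihb => exact W.add_mem (iha hv) (ihb hv)
      | mul a b _ _ iha ihb => exact iha (ihb hv) }

theorem mem_toA (N : Subgroup (GL (Fin n) F)) (W : Submodule F (Fin n → F))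
    (hW : ∀ x ∈ N, W.map (Matrix.toLin' x.1) ≤ W) (v : Fin n → F) : v ∈ toA N W hW ↔ v ∈ W :=
  Iff.rfl

theorem restrict_toA (N : Subgroup (GL (Fin n) F)) (W : Submodule F (Fin n → F))
    (hW : ∀ x ∈ N, W.map (Matrix.toLin' x.1) ≤ W) : (toA N W hW).restrictScalars F = W := rfl

theorem restrict_inv (N : Subgroup (GL (Fin n) F)) (m : Submodule (Env N) (Fin n → F)) :
    ∀ x ∈ N, (m.restrictScalars F).map (Matrix.toLin' x.1) ≤ m.restrictScalars F := by
  rintro x hx _ ⟨v, hv, rfl⟩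
  exact m.smul_mem ⟨_, gen_mem N hx⟩ hv

theorem toA_restrict (N : Subgroup (GL (Fin n) F)) (m : Submodule (Env N) (Fin n → F)) :
    toA N (m.restrictScalars F) (restrict_inv N m) = m := rfl

/-! ### Normalising elements -/

/-- `g` normalises `N`. -/
def Nz (N : Subgroup (GL (Fin n) F)) (g : GL (Fin n) F) : Prop :=
  (∀ x ∈ N, g * x * g⁻¹ ∈ N) ∧ (∀ x ∈ N, g⁻¹ * x * g ∈ N)

theorem Nz.inv {N : Subgroup (GL (Fin n) F)} {g : GL (Fin n) F} (h : Nz N g) : Nz N g⁻¹ :=
  ⟨fun x hx => by rw [inv_inv]; exact h.2 x hx, fun x hx => by rw [inv_inv]; exact h.1 x hx⟩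

theorem nz_of_nrm {G N : Subgroup (GL (Fin n) F)} (hN : Nrm G N) {g : GL (Fin n) F} (hg : g ∈ G) :
    Nz N g :=
  ⟨fun x hx => hN g hg x hx, fun x hx => by
    have := hN g⁻¹ (G.inv_mem hg) x hx
    rwa [inv_inv] at this⟩

theorem lin_inv_lin (g : GL (Fin n) F) (v : Fin n → F) :
    Matrix.toLin' (g⁻¹ : GL (Fin n) F).1 (Matrix.toLin' g.1 v) = v := by
  rw [Matrix.toLin'_apply, Matrix.toLin'_apply, Matrix.mulVec_mulVec, ← Units.val_mul,
    inv_mul_cancel, Units.val_one, Matrix.one_mulVec]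

theorem lin_lin_inv (g : GL (Fin n) F) (v : Fin n → F) :
    Matrix.toLin' g.1 (Matrix.toLin' (g⁻¹ : GL (Fin n) F).1 v) = v := by
  rw [Matrix.toLin'_apply, Matrix.toLin'_apply, Matrix.mulVec_mulVec, ← Units.val_mul,
    mul_inv_cancel, Units.val_one, Matrix.one_mulVec]

theorem lin_mul (g h : GL (Fin n) F) (v : Fin n → F) :
    Matrix.toLin' (g * h : GL (Fin n) F).1 v = Matrix.toLin' g.1 (Matrix.toLin' h.1 v) := by
  rw [Matrix.toLin'_apply, Matrix.toLin'_apply, Matrix.toLin'_apply, Matrix.mulVec_mulVec,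
    Units.val_mul]

/-- Conjugation by a normalising element preserves the enveloping algebra. -/
theorem conj_mem (N : Subgroup (GL (Fin n) F)) (g : GL (Fin n) F) (hg : Nz N g)
    {a : Module.End F (Fin n → F)} (ha : a ∈ env N) :
    Matrix.toLin' g.1 * a * Matrix.toLin' (g⁻¹ : GL (Fin n) F).1 ∈ env N := by
  induction ha using Algebra.adjoin_induction with
  | mem a ha =>
    obtain ⟨x, hx, rfl⟩ := ha
    have : Matrix.toLin' g.1 * Matrix.toLin' x.1 * Matrix.toLin' (g⁻¹ : GL (Fin n) F).1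
        = Matrix.toLin' (g * x * g⁻¹ : GL (Fin n) F).1 := by
      apply LinearMap.ext
      intro v
      rw [lin_mul, lin_mul]; rfl
    rw [this]
    exact gen_mem N (hg.1 x hx)
  | algebraMap r =>
    have : Matrix.toLin' g.1 * algebraMap F (Module.End F (Fin n → F)) r
        * Matrix.toLin' (g⁻¹ : GL (Fin n) F).1 = algebraMap F (Module.End F (Fin n → F)) r := by
      apply LinearMap.ext
      intro v
      show Matrix.toLin' g.1 (algebraMap F (Module.End F (Fin n → F)) r
        (Matrix.toLin' (g⁻¹ : GL (Fin n) F).1 v)) = algebraMap F (Module.End F (Fin n → F)) r v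
      rw [Module.algebraMap_end_apply, Module.algebraMap_end_apply, map_smul, lin_lin_inv]
    rw [this]
    exact Subalgebra.algebraMap_mem _ r
  | add a b _ _ iha ihb =>
    rw [mul_add, add_mul]
    exact add_mem iha ihb
  | mul a b _ _ iha ihb =>
    have : Matrix.toLin' g.1 * (a * b) * Matrix.toLin' (g⁻¹ : GL (Fin n) F).1
        = (Matrix.toLin' g.1 * a * Matrix.toLin' (g⁻¹ : GL (Fin n) F).1)
          * (Matrix.toLin' g.1 * b * Matrix.toLin' (g⁻¹ : GL (Fin n) F).1) := by
      apply LinearMap.ext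
      intro v
      show Matrix.toLin' g.1 (a (b (Matrix.toLin' (g⁻¹ : GL (Fin n) F).1 v)))
        = Matrix.toLin' g.1 (a (Matrix.toLin' (g⁻¹ : GL (Fin n) F).1
            (Matrix.toLin' g.1 (b (Matrix.toLin' (g⁻¹ : GL (Fin n) F).1 v)))))
      rw [lin_inv_lin]
    rw [this]
    exact mul_mem iha ihb

theorem map_inv_of_nz (N : Subgroup (GL (Fin n) F)) (g : GL (Fin n) F) (hg : Nz N g)
    (W : Submodule F (Fin n → F)) (hW : ∀ x ∈ N, W.map (Matrix.toLin' x.1) ≤ W) :
    ∀ x ∈ N, (W.map (Matrix.toLin' g.1)).map (Matrix.toLin' x.1) ≤ W.map (Matrix.toLin' g.1) := by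
  rintro x hx _ ⟨_, ⟨v, hv, rfl⟩, rfl⟩
  refine ⟨Matrix.toLin' (g⁻¹ * x * g : GL (Fin n) F).1 v, hW _ (hg.2 x hx) ⟨v, hv, rfl⟩, ?_⟩
  rw [lin_mul, lin_mul, lin_lin_inv]

/-- The image of a submodule under a normalising element. -/
def gmap (N : Subgroup (GL (Fin n) F)) (g : GL (Fin n) F) (hg : Nz N g)
    (m : Submodule (Env N) (Fin n → F)) : Submodule (Env N) (Fin n → F) :=
  toA N ((m.restrictScalars F).map (Matrix.toLin' g.1)) (map_inv_of_nz N g hg _ (restrict_inv N m))

theorem mem_gmap (N : Subgroup (GL (Fin n) F)) (g : GL (Fin n) F) (hg : Nz N g)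
    (m : Submodule (Env N) (Fin n → F)) (w : Fin n → F) :
    w ∈ gmap N g hg m ↔ ∃ v ∈ m, Matrix.toLin' g.1 v = w := Iff.rfl

theorem gmap_mono (N : Subgroup (GL (Fin n) F)) (g : GL (Fin n) F) (hg : Nz N g)
    {m m' : Submodule (Env N) (Fin n → F)} (h : m ≤ m') : gmap N g hg m ≤ gmap N g hg m' := by
  rintro w ⟨v, hv, rfl⟩
  exact ⟨v, h hv, rfl⟩

theorem gmap_inv_gmap (N : Subgroup (GL (Fin n) F)) (g : GL (Fin n) F) (hg : Nz N g)
    (m : Submodule (Env N) (Fin n → F)) : gmap N g⁻¹ hg.inv (gmap N g hg m) = m := by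
  ext w
  constructor
  · rintro ⟨_, ⟨v, hv, rfl⟩, rfl⟩
    rw [lin_inv_lin]; exact hv
  · intro hw
    exact ⟨Matrix.toLin' g.1 w, ⟨w, hw, rfl⟩, lin_inv_lin g w⟩

theorem gmap_gmap_inv (N : Subgroup (GL (Fin n) F)) (g : GL (Fin n) F) (hg : Nz N g)
    (m : Submodule (Env N) (Fin n → F)) : gmap N g hg (gmap N g⁻¹ hg.inv m) = m := by
  ext w
  constructor
  · rintro ⟨_, ⟨v, hv, rfl⟩, rfl⟩
    rw [lin_lin_inv]; exact hv
  · intro hw
    exact ⟨Matrix.toLin' (g⁻¹ : GL (Fin n) F).1 w, ⟨w, hw, rfl⟩, lin_lin_inv g w⟩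

/-- The order isomorphism of the submodule lattice given by a normalising element. -/
def gIso (N : Subgroup (GL (Fin n) F)) (g : GL (Fin n) F) (hg : Nz N g) :
    Submodule (Env N) (Fin n → F) ≃o Submodule (Env N) (Fin n → F) where
  toFun := gmap N g hg
  invFun := gmap N g⁻¹ hg.inv
  left_inv := gmap_inv_gmap N g hg
  right_inv := gmap_gmap_inv N g hg
  map_rel_iff' := by
    intro m m'
    show gmap N g hg m ≤ gmap N g hg m' ↔ m ≤ m'
    constructor
    · intro h
      have := gmap_mono N g⁻¹ hg.inv h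
      rwa [gmap_inv_gmap, gmap_inv_gmap] at this
    · exact gmap_mono N g hg

theorem gIso_apply (N : Subgroup (GL (Fin n) F)) (g : GL (Fin n) F) (hg : Nz N g)
    (m : Submodule (Env N) (Fin n → F)) : gIso N g hg m = gmap N g hg m := rfl

theorem gmap_ne_bot (N : Subgroup (GL (Fin n) F)) (g : GL (Fin n) F) (hg : Nz N g)
    {m : Submodule (Env N) (Fin n → F)} (hm : m ≠ ⊥) : gmap N g hg m ≠ ⊥ := by
  intro h
  apply hm
  rw [← gmap_inv_gmap N g hg m, h]
  ext w
  constructor
  · rintro ⟨v, hv, rfl⟩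
    have hv0 : v = 0 := (Submodule.mem_bot (Env N)).mp hv
    rw [hv0, map_zero]; exact Submodule.zero_mem _
  · intro hw
    have hw0 : w = 0 := (Submodule.mem_bot (Env N)).mp hw
    rw [hw0]; exact Submodule.zero_mem _

/-! ### Semisimplicity -/

theorem semisimple (hn : 1 ≤ n) (G N : Subgroup (GL (Fin n) F))
    (hG : ActsIrreducibly (matrixSet G)) (hN : Nrm G N) :
    IsSemisimpleModule (Env N) (Fin n → F) := by
  apply IsSemisimpleModule.of_sSup_simples_eq_top
  obtain ⟨T, hT⟩ : ∃ T : Submodule (Env N) (Fin n → F),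
      T = sSup {m : Submodule (Env N) (Fin n → F) | IsSimpleModule (Env N) m} := ⟨_, rfl⟩
  rw [← hT]
  have hinv : ∀ s ∈ matrixSet G, (T.restrictScalars F).map (Matrix.toLin' s) ≤ T.restrictScalars F := by
    rintro _ ⟨g, hg, rfl⟩
    have hgz := nz_of_nrm hN hg
    have h1 : gmap N g hgz T ≤ T := by
      rw [← gIso_apply, hT, OrderIso.map_sSup]
      refine iSup₂_le fun m hm => le_sSup ?_
      rw [Set.mem_ofPred_eq, isSimpleModule_iff_isAtom] at hm ⊢
      exact (OrderIso.isAtom_iff _ _).mpr hm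
    intro w hw
    exact h1 hw
  have : Nontrivial (Fin n → F) := by
    have : Nonempty (Fin n) := ⟨⟨0, by omega⟩⟩
    infer_instance
  rcases hG _ hinv with h | h
  · exfalso
    obtain ⟨m, hm⟩ := IsAtomic.exists_atom (Submodule (Env N) (Fin n → F))
    have h2 : m ≤ T := by
      rw [hT]; exact le_sSup (isSimpleModule_iff_isAtom.mpr hm)
    have hT0 : T = ⊥ := (Submodule.restrictScalars_eq_bot_iff F (Env N) (Fin n → F)).mp h
    exact hm.1 (le_bot_iff.mp (hT0 ▸ h2))
  · exact (Submodule.restrictScalars_eq_top_iff F (Env N) (Fin n → F)).mp h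

end Cfsg.Agent.Lib.Helper57.ASCOREA
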