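import Mathlib
import Cfsg.Prelude.Def_GeometricClasses
import Cfsg.Agent.Lib.Helper71.Asch0
import Cfsg.Agent.Lib.Helper57.ASCOREA1

set_option autoImplicit false

namespace Cfsg.Agent.Lib.Helper57.ASCOREA

open Matrix Cfsg.Geo Cfsg.Agent.Lib.Helper71.Asch
open scoped Kronecker

variable {n : ℕ} {F : Type*} [Field F]

/-! ### Fully invariant submodules and isotypic components -/

/-- A matrix commuting with `N` gives a module endomorphism. -/
def commEnd (N : Subgroup (GL (Fin n) F)) (X : Matrix (Fin n) (Fin n) F)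
    (hX : ∀ x ∈ N, X * x.1 = x.1 * X) : Module.End (Env N) (Fin n → F) :=
  { toFun := fun v => Matrix.toLin' X v
    map_add' := fun u v => map_add _ u v
    map_smul' := by
      rintro ⟨a, ha⟩ v
      show Matrix.toLin' X (a v) = a (Matrix.toLin' X v)
      induction ha using Algebra.adjoin_induction generalizing v with
      | mem a ha =>
        obtain ⟨x, hx, rfl⟩ := ha
        rw [Matrix.toLin'_apply, Matrix.toLin'_apply, Matrix.toLin'_apply, Matrix.toLin'_apply,
          Matrix.mulVec_mulVec, Matrix.mulVec_mulVec, hX x hx]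
      | algebraMap r =>
        rw [Module.algebraMap_end_apply, Module.algebraMap_end_apply, map_smul]
      | add a b _ _ iha ihb =>
        rw [LinearMap.add_apply, LinearMap.add_apply, map_add, iha, ihb]
      | mul a b _ _ iha ihb =>
        rw [Module.End.mul_apply, Module.End.mul_apply, iha, ihb] }

theorem commEnd_apply (N : Subgroup (GL (Fin n) F)) (X : Matrix (Fin n) (Fin n) F)
    (hX : ∀ x ∈ N, X * x.1 = x.1 * X) (v : Fin n → F) : commEnd N X hX v = Matrix.toLin' X v := rfl

theorem gmap_fullyInvariant (N : Subgroup (GL (Fin n) F)) (g : GL (Fin n) F) (hg : Nz N g)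
    (m : Submodule (Env N) (Fin n → F)) (hm : m.IsFullyInvariant) :
    (gmap N g hg m).IsFullyInvariant := by
  intro f w hw
  obtain ⟨v, hv, rfl⟩ := hw
  let f' : Module.End (Env N) (Fin n → F) :=
    { toFun := fun u => Matrix.toLin' (g⁻¹ : GL (Fin n) F).1 (f (Matrix.toLin' g.1 u))
      map_add' := by
        intro u u'
        rw [map_add, map_add, map_add]
      map_smul' := by
        intro a u
        have h1 : Matrix.toLin' g.1 (a • u)
            = (⟨_, conj_mem N g hg a.2⟩ : Env N) • Matrix.toLin' g.1 u := by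
          show Matrix.toLin' g.1 (a.1 u) = Matrix.toLin' g.1 (a.1
            (Matrix.toLin' (g⁻¹ : GL (Fin n) F).1 (Matrix.toLin' g.1 u)))
          rw [lin_inv_lin]
        rw [h1, map_smul]
        show Matrix.toLin' (g⁻¹ : GL (Fin n) F).1 (Matrix.toLin' g.1 (a.1
            (Matrix.toLin' (g⁻¹ : GL (Fin n) F).1 (f (Matrix.toLin' g.1 u)))))
          = a.1 (Matrix.toLin' (g⁻¹ : GL (Fin n) F).1 (f (Matrix.toLin' g.1 u)))
        rw [lin_inv_lin] }
  have h2 : f' v ∈ m := hm f' hv
  refine ⟨f' v, h2, ?_⟩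
  show Matrix.toLin' g.1 (Matrix.toLin' (g⁻¹ : GL (Fin n) F).1 (f (Matrix.toLin' g.1 v)))
    = f (Matrix.toLin' g.1 v)
  rw [lin_lin_inv]

theorem iso_antichain (N : Subgroup (GL (Fin n) F)) {c c' : Submodule (Env N) (Fin n → F)}
    (hc : c ∈ isotypicComponents (Env N) (Fin n → F))
    (hc' : c' ∈ isotypicComponents (Env N) (Fin n → F)) (h : c' ≤ c) : c' = c := by
  by_contra hne
  have h1 := sSupIndep_isotypicComponents (Env N) (Fin n → F) hc'
  have h2 : c ≤ sSup (isotypicComponents (Env N) (Fin n → F) \ {c'}) :=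
    le_sSup ⟨hc, fun h3 => hne h3.symm⟩
  have h3 : c' = ⊥ := h1.eq_bot_of_le (h.trans h2)
  exact (bot_lt_isotypicComponents hc').ne' h3

theorem gmap_mem_iso (N : Subgroup (GL (Fin n) F)) [IsSemisimpleModule (Env N) (Fin n → F)]
    (g : GL (Fin n) F) (hg : Nz N g) {c : Submodule (Env N) (Fin n → F)}
    (hc : c ∈ isotypicComponents (Env N) (Fin n → F)) :
    gmap N g hg c ∈ isotypicComponents (Env N) (Fin n → F) := by
  have hfi := gmap_fullyInvariant N g hg c (.of_mem_isotypicComponents hc)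
  obtain ⟨s, hs, hs'⟩ := isFullyInvariant_iff_sSup_isotypicComponents.mp hfi
  have hne : gmap N g hg c ≠ ⊥ := gmap_ne_bot N g hg (bot_lt_isotypicComponents hc).ne'
  obtain ⟨c', hc'⟩ : s.Nonempty := by
    rw [Set.nonempty_iff_ne_empty]
    rintro rfl
    rw [sSup_empty] at hs'
    exact hne hs'
  have hle : c' ≤ gmap N g hg c := hs' ▸ le_sSup hc'
  have hfi2 := gmap_fullyInvariant N g⁻¹ hg.inv c' (.of_mem_isotypicComponents (hs hc'))
  obtain ⟨s2, hs2, hs2'⟩ := isFullyInvariant_iff_sSup_isotypicComponents.mp hfi2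
  have hne2 : gmap N g⁻¹ hg.inv c' ≠ ⊥ :=
    gmap_ne_bot N g⁻¹ hg.inv (bot_lt_isotypicComponents (hs hc')).ne'
  obtain ⟨c'', hc''⟩ : s2.Nonempty := by
    rw [Set.nonempty_iff_ne_empty]
    rintro rfl
    rw [sSup_empty] at hs2'
    exact hne2 hs2'
  have hle2 : c'' ≤ gmap N g⁻¹ hg.inv c' := hs2' ▸ le_sSup hc''
  have hle3 : gmap N g⁻¹ hg.inv c' ≤ c := by
    have := gmap_mono N g⁻¹ hg.inv hle
    rwa [gmap_inv_gmap] at this
  have heq : c'' = c := iso_antichain N hc (hs2 hc'') (hle2.trans hle3)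
  have h5 : gmap N g⁻¹ hg.inv c' = c := le_antisymm hle3 (heq ▸ hle2)
  have h6 : c' = gmap N g hg c := by rw [← h5, gmap_gmap_inv]
  rw [← h6]
  exact hs hc'

end Cfsg.Agent.Lib.Helper57.ASCOREA
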