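import Mathlib
import Cfsg.Prelude.Def_GeometricClasses
import Cfsg.Agent.Lib.Helper71.Asch0
import Cfsg.Agent.Lib.Helper57.ASCOREA2

set_option autoImplicit false

namespace Cfsg.Agent.Lib.Helper57.ASCOREA

open Matrix Cfsg.Geo Cfsg.Agent.Lib.Helper71.Asch
open scoped Kronecker

variable {n : ℕ} {F : Type*} [Field F]

theorem lin_injective (g : GL (Fin n) F) : Function.Injective (Matrix.toLin' g.1) :=
  Function.LeftInverse.injective (lin_inv_lin g)

theorem finrank_gmap (N : Subgroup (GL (Fin n) F)) (g : GL (Fin n) F) (hg : Nz N g)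
    (m : Submodule (Env N) (Fin n → F)) :
    Module.finrank F ((gmap N g hg m).restrictScalars F)
      = Module.finrank F (m.restrictScalars F) :=
  (LinearEquiv.finrank_eq
    (Submodule.equivMapOfInjective (Matrix.toLin' g.1) (lin_injective g) (m.restrictScalars F))).symm

/-- `G` is transitive on the isotypic components. -/
theorem iso_transitive (G N : Subgroup (GL (Fin n) F))
    (hG : ActsIrreducibly (matrixSet G)) (hN : Nrm G N) [IsSemisimpleModule (Env N) (Fin n → F)]
    {c₀ c : Submodule (Env N) (Fin n → F)}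
    (hc₀ : c₀ ∈ isotypicComponents (Env N) (Fin n → F))
    (hc : c ∈ isotypicComponents (Env N) (Fin n → F)) :
    ∃ (g : GL (Fin n) F) (hg : g ∈ G), c = gmap N g (nz_of_nrm hN hg) c₀ := by
  by_contra hcon
  push Not at hcon
  obtain ⟨T, hT⟩ : ∃ T : Submodule F (Fin n → F),
      T = ⨆ g : G, (c₀.restrictScalars F).map (Matrix.toLin' g.1.1) := ⟨_, rfl⟩
  have hinv : ∀ s ∈ matrixSet G, T.map (Matrix.toLin' s) ≤ T := by
    rintro _ ⟨h, hh, rfl⟩
    rw [hT, Submodule.map_iSup]
    refine iSup_le fun g => ?_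
    refine le_trans ?_ (le_iSup _ (⟨h * g.1, G.mul_mem hh g.2⟩ : G))
    rintro _ ⟨_, ⟨v, hv, rfl⟩, rfl⟩
    exact ⟨v, hv, lin_mul h g.1 v⟩
  have hc₀T : c₀.restrictScalars F ≤ T := by
    rw [hT]
    refine le_trans ?_ (le_iSup _ (⟨1, G.one_mem⟩ : G))
    intro v hv
    refine ⟨v, hv, ?_⟩
    show Matrix.toLin' (1 : GL (Fin n) F).1 v = v
    rw [Units.val_one, Matrix.toLin'_one]; rfl
  have hTtop : T = ⊤ := by
    rcases hG T hinv with h | h
    · exfalso
      rw [h, le_bot_iff] at hc₀T
      exact (bot_lt_isotypicComponents hc₀).ne'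
        ((Submodule.restrictScalars_eq_bot_iff F (Env N) (Fin n → F)).mp hc₀T)
    · exact h
  have h1 := sSupIndep_isotypicComponents (Env N) (Fin n → F) hc
  have h2 : T ≤ (sSup (isotypicComponents (Env N) (Fin n → F) \ {c})).restrictScalars F := by
    rw [hT]
    refine iSup_le fun g => ?_
    intro w hw
    have hw' : w ∈ gmap N g.1 (nz_of_nrm hN g.2) c₀ := hw
    have hmem : gmap N g.1 (nz_of_nrm hN g.2) c₀
        ∈ isotypicComponents (Env N) (Fin n → F) \ {c} :=
      ⟨gmap_mem_iso N g.1 _ hc₀, fun h3 => hcon g.1 g.2 h3.symm⟩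
    exact le_sSup hmem hw'
  rw [hTtop, top_le_iff] at h2
  have h3 : sSup (isotypicComponents (Env N) (Fin n → F) \ {c}) = ⊤ :=
    (Submodule.restrictScalars_eq_top_iff F (Env N) (Fin n → F)).mp h2
  rw [h3] at h1
  exact (bot_lt_isotypicComponents hc).ne' (h1.eq_bot_of_le le_top)

/-- The first alternative: at least two isotypic components. -/
theorem first_alt (G N : Subgroup (GL (Fin n) F))
    (hG : ActsIrreducibly (matrixSet G)) (hN : Nrm G N) [IsSemisimpleModule (Env N) (Fin n → F)]
    (c₀ : Submodule (Env N) (Fin n → F))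
    (hc₀ : c₀ ∈ isotypicComponents (Env N) (Fin n → F)) (hne : c₀ ≠ ⊤) :
    ∃ (t m : ℕ) (D : Fin t → Submodule F (Fin n → F)), IsMDecomposition m D ∧
      G ≤ decompositionStabilizer D ∧
      (∀ i, ∀ X : Matrix (Fin n) (Fin n) F, (∀ x ∈ N, X * x.1 = x.1 * X) →
        (D i).map (Matrix.toLin' X) ≤ D i) ∧
      (∀ i, ∀ x ∈ N, (D i).map (Matrix.toLin' x.1) ≤ D i) := by
  classical
  have hfin : Finite (isotypicComponents (Env N) (Fin n → F)) := inferInstance
  obtain ⟨ε⟩ : Nonempty (isotypicComponents (Env N) (Fin n → F)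
      ≃ Fin (Nat.card (isotypicComponents (Env N) (Fin n → F)))) := ⟨Finite.equivFin _⟩
  obtain ⟨t, ht⟩ : ∃ t, t = Nat.card (isotypicComponents (Env N) (Fin n → F)) := ⟨_, rfl⟩
  rw [← ht] at ε
  obtain ⟨A, hA⟩ : ∃ A : Fin t → Submodule (Env N) (Fin n → F), A = fun i => (ε.symm i).1 :=
    ⟨_, rfl⟩
  have hAmem : ∀ i, A i ∈ isotypicComponents (Env N) (Fin n → F) := fun i => by
    rw [hA]; exact (ε.symm i).2
  have hAsurj : ∀ c ∈ isotypicComponents (Env N) (Fin n → F), ∃ i, A i = c := fun c hc =>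
    ⟨ε ⟨c, hc⟩, by rw [hA]; simp⟩
  have hAinj : Function.Injective A := by
    intro i j hij
    rw [hA] at hij
    exact ε.symm.injective (Subtype.ext hij)
  refine ⟨t, Module.finrank F (c₀.restrictScalars F), fun i => (A i).restrictScalars F,
    ⟨?_, ?_, ?_, ?_, ?_⟩, ?_, ?_, ?_⟩
  · -- two_le
    obtain ⟨c₁, hc₁, hc₁'⟩ : ∃ c₁ ∈ isotypicComponents (Env N) (Fin n → F), c₁ ≠ c₀ := by
      by_contra hcon
      push Not at hcon
      apply hne
      rw [← top_le_iff, ← sSup_isotypicComponents (Env N) (Fin n → F)]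
      exact sSup_le fun c hc => (hcon c hc).le
    have hnt : Nontrivial (isotypicComponents (Env N) (Fin n → F)) :=
      ⟨⟨c₁, hc₁⟩, ⟨c₀, hc₀⟩, fun h => hc₁' (congrArg Subtype.val h)⟩
    have := Finite.one_lt_card_iff_nontrivial.mpr hnt
    omega
  · -- pos
    apply Nat.pos_of_ne_zero
    intro h0
    rw [Submodule.finrank_eq_zero] at h0
    exact (bot_lt_isotypicComponents hc₀).ne'
      ((Submodule.restrictScalars_eq_bot_iff F (Env N) (Fin n → F)).mp h0)
  · -- finrank_eq
    intro i
    obtain ⟨g, hg, hgc⟩ := iso_transitive G N hG hN hc₀ (hAmem i)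
    show Module.finrank F ((A i).restrictScalars F) = _
    rw [hgc, finrank_gmap]
  · -- indep
    have h1 : iSupIndep A := by
      have h2 := (sSupIndep_iff _).mp (sSupIndep_isotypicComponents (Env N) (Fin n → F))
      have h3 := h2.comp ε.symm.injective
      rw [hA]; exact h3
    intro i
    rw [Submodule.disjoint_def]
    intro x hx hx'
    have h4 := h1 i
    rw [Submodule.disjoint_def] at h4
    apply h4 x hx
    have h5 : (⨆ j, ⨆ (_ : j ≠ i), (A j).restrictScalars F)
        = (⨆ j, ⨆ (_ : j ≠ i), A j).restrictScalars F := by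
      simp only [Submodule.restrictScalars_iSup]
    rw [h5] at hx'
    exact hx'
  · -- iSup_eq_top
    have h1 : (⨆ i, A i) = ⊤ := by
      rw [← sSup_isotypicComponents (Env N) (Fin n → F), sSup_eq_iSup', hA]
      exact ε.symm.iSup_comp (g := fun c : isotypicComponents (Env N) (Fin n → F) => c.1)
    have h2 : (⨆ i, (A i).restrictScalars F) = (⨆ i, A i).restrictScalars F := by
      simp only [Submodule.restrictScalars_iSup]
    rw [h2, h1, Submodule.restrictScalars_top]
  · -- stabilizer
    intro g hg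
    have hgz := nz_of_nrm hN hg
    have hperm : ∀ i, ∃ j, A j = gmap N g hgz (A i) := fun i =>
      hAsurj _ (gmap_mem_iso N g hgz (hAmem i))
    choose σ hσ using hperm
    have hσinj : Function.Injective σ := by
      intro i j hij
      have h1 : gmap N g hgz (A i) = gmap N g hgz (A j) := by rw [← hσ i, ← hσ j, hij]
      have h2 := congrArg (gmap N g⁻¹ hgz.inv) h1
      rw [gmap_inv_gmap, gmap_inv_gmap] at h2
      exact hAinj h2
    refine ⟨Equiv.ofBijective σ (Finite.injective_iff_bijective.mp hσinj), fun i => ?_⟩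
    show Submodule.map (Matrix.toLin' g.1) ((A i).restrictScalars F)
      = (A (Equiv.ofBijective σ (Finite.injective_iff_bijective.mp hσinj) i)).restrictScalars F
    rw [Equiv.ofBijective_apply, hσ i]
    rfl
  · -- commutant
    intro i X hX
    rintro _ ⟨v, hv, rfl⟩
    have hfi := Submodule.IsFullyInvariant.of_mem_isotypicComponents (hAmem i)
    exact hfi (commEnd N X hX) hv
  · intro i
    exact restrict_inv N (A i)

end Cfsg.Agent.Lib.Helper57.ASCOREA
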