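import Mathlib
import Cfsg.Prelude.Def_GeometricClasses
import Cfsg.Agent.Lib.Helper71.Asch0
import Cfsg.Agent.Lib.Helper57.ASCOREA3

set_option autoImplicit false

namespace Cfsg.Agent.Lib.Helper57.ASCOREA

open Matrix Cfsg.Geo Cfsg.Agent.Lib.Helper71.Asch
open scoped Kronecker

variable {n : ℕ} {F : Type*} [Field F]

/-- The element of the enveloping algebra given by an element of `N`. -/
def elt (N : Subgroup (GL (Fin n) F)) (x : N) : Env N := ⟨Matrix.toLin' x.1.1, gen_mem N x.2⟩

theorem elt_smul (N : Subgroup (GL (Fin n) F)) (x : N) (v : Fin n → F) :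
    elt N x • v = x.1.1 *ᵥ v := rfl

/-- `x ↦ elt x` as a monoid homomorphism. -/
def eltHom (N : Subgroup (GL (Fin n) F)) : N →* Env N where
  toFun := elt N
  map_one' := by
    apply Subtype.ext
    show Matrix.toLin' ((1 : N) : GL (Fin n) F).1 = 1
    rw [Subgroup.coe_one, Units.val_one, Matrix.toLin'_one]; rfl
  map_mul' := by
    intro x y
    apply Subtype.ext
    show Matrix.toLin' ((x * y : N) : GL (Fin n) F).1 = Matrix.toLin' x.1.1 * Matrix.toLin' y.1.1
    rw [Subgroup.coe_mul, Units.val_mul, Matrix.toLin'_mul]; rfl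

/-- An element of the enveloping algebra from a linear map and a membership proof. -/
def mkE (N : Subgroup (GL (Fin n) F)) (a : Module.End F (Fin n → F)) (ha : a ∈ env N) : Env N :=
  ⟨a, ha⟩

theorem finite_sub (N : Subgroup (GL (Fin n) F)) (S : Submodule (Env N) (Fin n → F)) :
    Module.Finite F S :=
  Module.Finite.of_injective (S.subtype.restrictScalars F) Subtype.val_injective

/-- The second alternative: one isotypic component. -/
theorem second_alt (N : Subgroup (GL (Fin n) F)) (S : Submodule (Env N) (Fin n → F))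
    [IsSimpleModule (Env N) S] (k : ℕ) (Φ : (Fin n → F) ≃ₗ[Env N] (Fin k → S)) :
    ∃ (d k : ℕ) (e : Fin n ≃ Fin d × Fin k) (P : GL (Fin n) F) (R : Subgroup (GL (Fin d) F)),
      ActsIrreducibly (matrixSet R) ∧ (∀ x ∈ N, ∃ y ∈ R, x.1 = tmat e P y.1 1) ∧
      (∀ y ∈ R, ∃ x ∈ N, x.1 = tmat e P y.1 1) := by
  classical
  have hfinS : Module.Finite F S := finite_sub N S
  obtain ⟨d, hd⟩ : ∃ d, d = Module.finrank F S := ⟨_, rfl⟩
  obtain ⟨bS⟩ : Nonempty (Module.Basis (Fin d) F S) := by
    rw [hd]; exact ⟨Module.finBasis F S⟩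
  -- the representation on `S`
  let ψ : N →* Matrix (Fin d) (Fin d) F :=
    ((LinearMap.toMatrixAlgEquiv bS).toAlgHom.comp (Algebra.lsmul F F S)).toMonoidHom.comp
      (eltHom N)
  let ρ : N →* GL (Fin d) F := ψ.toHomUnits
  have hρ : ∀ (x : N) (s : S), (ρ x).1 *ᵥ bS.equivFun s = bS.equivFun (elt N x • s) := by
    intro x s
    have h1 : (ρ x).1 = LinearMap.toMatrix bS bS (Algebra.lsmul F F S (elt N x)) := rfl
    rw [h1, Module.Basis.equivFun_apply, Module.Basis.equivFun_apply,
      LinearMap.toMatrix_mulVec_repr]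
    rfl
  -- coordinates
  let Θ₀ : (Fin n → F) ≃ₗ[F] (Fin k × Fin d → F) :=
    (Φ.restrictScalars F).trans ((LinearEquiv.piCongrRight fun _ : Fin k => bS.equivFun).trans
      (LinearEquiv.curry F F (Fin k) (Fin d)).symm)
  have hcard : Fintype.card (Fin n) = Fintype.card (Fin d × Fin k) := by
    have h1 := LinearEquiv.finrank_eq Θ₀
    rw [Module.finrank_fin_fun, Module.finrank_fintype_fun_eq_card] at h1
    rw [Fintype.card_fin, h1, Fintype.card_prod, Fintype.card_prod, mul_comm]
  obtain ⟨e⟩ : Nonempty (Fin n ≃ Fin d × Fin k) := ⟨Fintype.equivOfCardEq hcard⟩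
  let Θ : (Fin n → F) ≃ₗ[F] (Fin n → F) :=
    Θ₀.trans (LinearEquiv.funCongrLeft F F (e.trans (Equiv.prodComm (Fin d) (Fin k))))
  have hΘ : ∀ (v : Fin n → F) (c : Fin n), Θ v c = bS.equivFun (Φ v (e c).2) (e c).1 :=
    fun v c => rfl
  let P : GL (Fin n) F :=
    ⟨LinearMap.toMatrix' Θ.symm.toLinearMap, LinearMap.toMatrix' Θ.toLinearMap,
      by rw [← LinearMap.toMatrix'_comp, LinearEquiv.comp_coe, LinearEquiv.self_trans_symm,
        LinearEquiv.refl_toLinearMap, LinearMap.toMatrix'_id],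
      by rw [← LinearMap.toMatrix'_comp, LinearEquiv.comp_coe, LinearEquiv.symm_trans_self,
        LinearEquiv.refl_toLinearMap, LinearMap.toMatrix'_id]⟩
  have key : ∀ x : N, x.1.1 = tmat e P (ρ x).1 1 := by
    intro x
    have h1 : ∀ v : Fin n → F, Θ (x.1.1 *ᵥ v)
        = (Matrix.reindex e.symm e.symm ((ρ x).1 ⊗ₖ (1 : Matrix (Fin k) (Fin k) F))) *ᵥ (Θ v) := by
      intro v
      funext c
      have h2 : Θ (x.1.1 *ᵥ v) c = ((ρ x).1 *ᵥ bS.equivFun (Φ v (e c).2)) (e c).1 := by
        rw [hΘ, ← elt_smul, map_smul, Pi.smul_apply, hρ]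
      rw [h2]
      simp only [Matrix.mulVec, dotProduct]
      rw [← e.symm.sum_comp (fun c' => (Matrix.reindex e.symm e.symm
        ((ρ x).1 ⊗ₖ (1 : Matrix (Fin k) (Fin k) F))) c c' * Θ v c')]
      simp only [Matrix.reindex_apply, Matrix.submatrix_apply, Equiv.symm_symm,
        Equiv.apply_symm_apply, Matrix.kroneckerMap_apply, hΘ]
      rw [Fintype.sum_prod_type]
      simp [Matrix.one_apply]
    unfold tmat
    apply Matrix.toLin'.injective
    apply LinearMap.ext
    intro v
    rw [Matrix.toLin'_apply, Matrix.toLin'_apply, ← Matrix.mulVec_mulVec, ← Matrix.mulVec_mulVec]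
    show x.1.1 *ᵥ v = LinearMap.toMatrix' Θ.symm.toLinearMap *ᵥ
      ((Matrix.reindex e.symm e.symm ((ρ x).1 ⊗ₖ (1 : Matrix (Fin k) (Fin k) F))) *ᵥ
        (LinearMap.toMatrix' Θ.toLinearMap *ᵥ v))
    rw [LinearMap.toMatrix'_mulVec, LinearMap.toMatrix'_mulVec]
    show x.1.1 *ᵥ v = Θ.symm ((Matrix.reindex e.symm e.symm
      ((ρ x).1 ⊗ₖ (1 : Matrix (Fin k) (Fin k) F))) *ᵥ (Θ v))
    rw [← h1, LinearEquiv.symm_apply_apply]
  refine ⟨d, k, e, P, ρ.range, ?_, ?_, ?_⟩
  · -- irreducibility
    intro W' hW'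
    have hstep : ∀ (a : Module.End F (Fin n → F)) (ha : a ∈ env N) (s : S),
        bS.equivFun s ∈ W' → bS.equivFun (mkE N a ha • s) ∈ W' := by
      intro a ha
      induction ha using Algebra.adjoin_induction with
      | mem a ha =>
        intro s hs
        obtain ⟨x, hx, rfl⟩ := ha
        have h1 := hρ ⟨x, hx⟩ s
        have h2 : mkE N (Matrix.toLin' x.1) (Algebra.subset_adjoin ⟨x, hx, rfl⟩) • s
            = elt N ⟨x, hx⟩ • s := rfl
        rw [h2, ← h1]
        exact hW' _ ⟨ρ ⟨x, hx⟩, ⟨⟨x, hx⟩, rfl⟩, rfl⟩ ⟨_, hs, rfl⟩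
      | algebraMap r =>
        intro s hs
        have h2 : mkE N (algebraMap F (Module.End F (Fin n → F)) r)
            (Subalgebra.algebraMap_mem _ r) • s = r • s := by
          apply Subtype.ext
          show algebraMap F (Module.End F (Fin n → F)) r s.1 = r • s.1
          rw [Module.algebraMap_end_apply]
        rw [h2, map_smul]
        exact W'.smul_mem r hs
      | add a b ha hb iha ihb =>
        intro s hs
        have h2 : mkE N (a + b) (add_mem ha hb) • s
            = mkE N a ha • s + mkE N b hb • s := Subtype.ext rfl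
        rw [h2, map_add]
        exact W'.add_mem (iha s hs) (ihb s hs)
      | mul a b ha hb iha ihb =>
        intro s hs
        have h2 : mkE N (a * b) (mul_mem ha hb) • s
            = mkE N a ha • (mkE N b hb • s) := Subtype.ext rfl
        rw [h2]
        exact iha _ (ihb s hs)
    let m' : Submodule (Env N) S :=
      { carrier := {s | bS.equivFun s ∈ W'}
        add_mem' := by
          intro s s' hs hs'
          show bS.equivFun (s + s') ∈ W'
          rw [map_add]; exact W'.add_mem hs hs'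
        zero_mem' := by
          show bS.equivFun 0 ∈ W'
          rw [map_zero]; exact W'.zero_mem
        smul_mem' := by
          rintro ⟨a, ha⟩ s hs
          exact hstep a ha s hs }
    rcases eq_bot_or_eq_top m' with h | h
    · left
      rw [eq_bot_iff]
      intro w hw
      have h1 : bS.equivFun.symm w ∈ m' := by
        show bS.equivFun (bS.equivFun.symm w) ∈ W'
        rw [LinearEquiv.apply_symm_apply]; exact hw
      rw [h, Submodule.mem_bot] at h1
      have h2 : w = bS.equivFun (bS.equivFun.symm w) := (LinearEquiv.apply_symm_apply _ w).symm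
      rw [h2, h1, map_zero]
      exact Submodule.zero_mem _
    · right
      rw [eq_top_iff]
      intro w _
      have h1 : bS.equivFun.symm w ∈ m' := by rw [h]; exact Submodule.mem_top
      have h2 : bS.equivFun (bS.equivFun.symm w) ∈ W' := h1
      rwa [LinearEquiv.apply_symm_apply] at h2
  · intro x hx
    exact ⟨ρ ⟨x, hx⟩, ⟨⟨x, hx⟩, rfl⟩, key ⟨x, hx⟩⟩
  · rintro y ⟨x, rfl⟩
    exact ⟨x.1, x.2, key x⟩

end Cfsg.Agent.Lib.Helper57.ASCOREA
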