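import Mathlib
import Cfsg.Prelude.Def_GeometricClasses
import Cfsg.Agent.Lib.Helper71.Asch0
import Cfsg.Agent.Lib.Helper57.ASCOREA4

set_option autoImplicit false

/-!
# S5630, piece COREA (for helper71): Clifford's theorem

For a subgroup `N` normalised by an irreducible group `G ≤ GL_n(F)`: either the isotypic
components of `F^n` as a module over the enveloping algebra of `N` form a decomposition
permuted by `G` (at least two components), or `N` has the homogeneous matrix form
`x = P (ρ(x) ⊗ 1) P⁻¹` with `ρ(N)` irreducible.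

The auxiliary files `ASCOREA1` … `ASCOREA4` (same namespace) contain: the enveloping algebra
`Env N` and its module structure, semisimplicity, the action of `G` on the isotypic components,
the first alternative (`first_alt`) and the second alternative (`second_alt`).
-/

namespace Cfsg.Agent.Lib.Helper57.ASCOREA

open Matrix Cfsg.Geo Cfsg.Agent.Lib.Helper71.Asch
open scoped Kronecker

variable {n : ℕ} {F : Type*} [Field F] [Fintype F]

/-- COREA: Clifford's theorem for a normal subgroup `N` of an irreducible group `G`. -/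
theorem coreA (hn : 1 ≤ n) (G N : Subgroup (GL (Fin n) F)) (hG : ActsIrreducibly (matrixSet G))
    (hNG : N ≤ G) (hN : Nrm G N) :
    (∃ (t m : ℕ) (D : Fin t → Submodule F (Fin n → F)), IsMDecomposition m D ∧
      G ≤ decompositionStabilizer D ∧
      (∀ i, ∀ X : Matrix (Fin n) (Fin n) F, (∀ x ∈ N, X * x.1 = x.1 * X) →
        (D i).map (Matrix.toLin' X) ≤ D i) ∧
      (∀ i, ∀ x ∈ N, (D i).map (Matrix.toLin' x.1) ≤ D i)) ∨
    (∃ (d k : ℕ) (e : Fin n ≃ Fin d × Fin k) (P : GL (Fin n) F) (R : Subgroup (GL (Fin d) F)),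
      ActsIrreducibly (matrixSet R) ∧ (∀ x ∈ N, ∃ y ∈ R, x.1 = tmat e P y.1 1) ∧
      (∀ y ∈ R, ∃ x ∈ N, x.1 = tmat e P y.1 1)) := by
  have hss : IsSemisimpleModule (Env N) (Fin n → F) := semisimple hn G N hG hN
  have hnt : Nontrivial (Fin n → F) := by
    have : Nonempty (Fin n) := ⟨⟨0, by omega⟩⟩
    infer_instance
  have hne : (isotypicComponents (Env N) (Fin n → F)).Nonempty := by
    by_contra h
    rw [Set.not_nonempty_iff_eq_empty] at h
    have h1 := sSup_isotypicComponents (Env N) (Fin n → F)
    rw [h, sSup_empty] at h1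
    exact bot_ne_top h1
  obtain ⟨c₀, hc₀⟩ := hne
  by_cases htop : c₀ = ⊤
  · right
    obtain ⟨S, hS, hS'⟩ := hc₀
    have hiso : IsIsotypicOfType (Env N) (Fin n → F) S :=
      isotypicComponent_eq_top_iff.mp (hS'.symm.trans htop)
    obtain ⟨k, ⟨Φ⟩⟩ := hiso.linearEquiv_fun
    exact second_alt N S k Φ
  · left
    exact first_alt G N hG hN c₀ hc₀ htop

end Cfsg.Agent.Lib.Helper57.ASCOREA
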