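import Mathlib

/-!
# Piece HB-STRUCT of S0633 (Hall–Higman Theorem B)

A `q`-group `Q` normalised by `x`, a `p`-element `y ∈ ⟨x⟩` acting nontrivially on `Q` but
trivially on every proper `x`-invariant subgroup: then `C_Q(y) ≤ Z(Q)`.
-/

set_option autoImplicit false

namespace Cfsg.Agent.Lib.Helper57.HBStruct

open scoped commutatorElement

theorem hb_struct {G : Type*} [Group G] [Finite G] (p q : ℕ) [Fact p.Prime] [Fact q.Prime]
    (hpq : p ≠ q) (Q : Subgroup G) (hQ : IsPGroup q Q) (x y : G)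
    (hx : x ∈ Subgroup.normalizer (Q : Set G))
    (hy : y ∈ Subgroup.zpowers x) (hyp : y ^ p = 1)
    (hmin : ∀ R : Subgroup G, R ≤ Q → R ≠ Q → x ∈ Subgroup.normalizer (R : Set G) →
      ∀ g ∈ R, y * g = g * y)
    (hnt : ∃ g ∈ Q, y * g ≠ g * y) :
    ∀ u ∈ Q, y * u = u * y → ∀ h ∈ Q, u * h = h * u := by
  classical
  have hyN : y ∈ Subgroup.normalizer (Q : Set G) := by
    obtain ⟨k, rfl⟩ := Subgroup.mem_zpowers_iff.mp hy
    exact (Subgroup.normalizer (Q : Set G)).zpow_mem hx k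
  have hxy : x * y = y * x := by
    obtain ⟨k, rfl⟩ := Subgroup.mem_zpowers_iff.mp hy
    exact ((Commute.refl x).zpow_right k).eq
  have hQmap : Q.map (MulAut.conj x) = Q := Subgroup.mem_normalizer_iff_map_conj_eq.mp hx
  have hYmap : (Subgroup.zpowers y).map (MulAut.conj x) = Subgroup.zpowers y := by
    rw [MonoidHom.map_zpowers]
    congr 1
    show x * y * x⁻¹ = y
    rw [hxy]
    group
  have hNnorm : x ∈ Subgroup.normalizer ((⁅Q, Subgroup.zpowers y⁆ : Subgroup G) : Set G) :=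
    Subgroup.mem_normalizer_iff_map_conj_eq.mpr (by rw [Subgroup.map_commutator, hQmap, hYmap])
  have hNle : ⁅Q, Subgroup.zpowers y⁆ ≤ Q := by
    rw [Subgroup.commutator_le]
    intro g hg z hz
    have hzN : z ∈ Subgroup.normalizer (Q : Set G) := by
      obtain ⟨k, rfl⟩ := Subgroup.mem_zpowers_iff.mp hz
      exact (Subgroup.normalizer (Q : Set G)).zpow_mem hyN k
    have e : ⁅g, z⁆ = g * (z * g⁻¹ * z⁻¹) := by
      rw [commutatorElement_def]
      group
    rw [e]
    exact Q.mul_mem hg ((Subgroup.mem_normalizer_iff.mp hzN g⁻¹).mp (Q.inv_mem hg))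
  -- (1) `⁅Q, Y⁆ = Q`
  have hNeq : ⁅Q, Subgroup.zpowers y⁆ = Q := by
    by_contra hne
    have hcent := hmin ⁅Q, Subgroup.zpowers y⁆ hNle hne hNnorm
    obtain ⟨g, hg, hgy⟩ := hnt
    apply hgy
    have hcN : ⁅g⁻¹, y⁆ ∈ ⁅Q, Subgroup.zpowers y⁆ :=
      Subgroup.commutator_mem_commutator (Q.inv_mem hg) (Subgroup.mem_zpowers y)
    have hcQ : ⁅g⁻¹, y⁆ ∈ Q := hNle hcN
    have hcy : y * ⁅g⁻¹, y⁆ = ⁅g⁻¹, y⁆ * y := hcent _ hcN
    have hconj : y * g * y⁻¹ = g * ⁅g⁻¹, y⁆ := by
      rw [commutatorElement_def]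
      group
    generalize ⁅g⁻¹, y⁆ = c at hcQ hcy hconj
    have hpow : ∀ k : ℕ, y ^ k * g * (y ^ k)⁻¹ = g * c ^ k := by
      intro k
      induction k with
      | zero => simp
      | succ k ih =>
        have hcyk : y * c ^ k * y⁻¹ = c ^ k := by
          have hc' : Commute y (c ^ k) := (show Commute y c from hcy).pow_right k
          rw [hc'.eq]
          group
        have e1 : y ^ (k + 1) * g * (y ^ (k + 1))⁻¹ = y * (y ^ k * g * (y ^ k)⁻¹) * y⁻¹ := by
          rw [pow_succ']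
          group
        have e2 : y * (g * c ^ k) * y⁻¹ = (y * g * y⁻¹) * (y * c ^ k * y⁻¹) := by group
        rw [e1, ih, e2, hconj, hcyk, pow_succ', mul_assoc]
    have hcp : c ^ p = 1 := by
      have h := hpow p
      rw [hyp] at h
      simpa using h
    obtain ⟨j, hj⟩ := hQ ⟨c, hcQ⟩
    have hcq : c ^ q ^ j = 1 := by
      have h2 : (((⟨c, hcQ⟩ : Q) ^ q ^ j : Q) : G) = ((1 : Q) : G) := congrArg Subtype.val hj
      rw [Subgroup.coe_pow, Subgroup.coe_one] at h2
      exact h2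
    have hc1 : c = 1 := by
      have h1 : orderOf c ∣ p := orderOf_dvd_of_pow_eq_one hcp
      have h2 : orderOf c ∣ q ^ j := orderOf_dvd_of_pow_eq_one hcq
      have hcop : Nat.Coprime p (q ^ j) :=
        Nat.Coprime.pow_right j ((Nat.coprime_primes Fact.out Fact.out).mpr hpq)
      have h3 := Nat.dvd_gcd h1 h2
      rw [hcop.gcd_eq_one] at h3
      exact orderOf_eq_one_iff.mp (Nat.dvd_one.mp h3)
    rw [hc1, mul_one] at hconj
    exact mul_inv_eq_iff_eq_mul.mp hconj
  -- (2) `y` centralises `⁅Q, Q⁆`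
  have hDle : ⁅Q, Q⁆ ≤ Q := Subgroup.commutator_le_self Q
  have hDne : ⁅Q, Q⁆ ≠ Q := by
    obtain ⟨g, hg, hgy⟩ := hnt
    have : Nontrivial Q := ⟨⟨⟨g, hg⟩, 1, fun h => hgy (by
      have hg1 : g = 1 := congrArg Subtype.val h
      rw [hg1, mul_one, one_mul])⟩⟩
    have : Group.IsNilpotent Q := hQ.isNilpotent
    have hlt := Group.IsSolvable.commutator_lt_top_of_nontrivial Q
    intro heq
    rw [← Subgroup.map_subtype_commutator] at heq
    have h2 : (commutator Q).map Q.subtype = (⊤ : Subgroup Q).map Q.subtype := by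
      rw [heq, ← MonoidHom.range_eq_map, Subgroup.range_subtype]
    exact hlt.ne (Subgroup.map_injective Q.subtype_injective h2)
  have hDnorm : x ∈ Subgroup.normalizer ((⁅Q, Q⁆ : Subgroup G) : Set G) :=
    Subgroup.mem_normalizer_iff_map_conj_eq.mpr (by rw [Subgroup.map_commutator, hQmap])
  have hDcent := hmin ⁅Q, Q⁆ hDle hDne hDnorm
  -- (3) three subgroups lemma
  intro u hu hyu h hh
  have h1 : ⁅⁅Subgroup.zpowers y, Q ⊓ Subgroup.centralizer {y}⁆, Q⁆ = ⊥ := by
    have h0 : ⁅Subgroup.zpowers y, Q ⊓ Subgroup.centralizer {y}⁆ = ⊥ := by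
      rw [Subgroup.commutator_eq_bot_iff_le_centralizer]
      intro z hz
      rw [Subgroup.mem_centralizer_iff]
      intro c hc
      obtain ⟨k, rfl⟩ := Subgroup.mem_zpowers_iff.mp hz
      have hcy : y * c = c * y := by
        have h' : c ∈ Subgroup.centralizer {y} := hc.2
        rw [Subgroup.mem_centralizer_iff] at h'
        exact h' y (Set.mem_singleton y)
      exact ((show Commute c y from hcy.symm).zpow_right k).eq
    rw [h0, Subgroup.commutator_bot_left]
  have h2 : ⁅⁅Q ⊓ Subgroup.centralizer {y}, Q⁆, Subgroup.zpowers y⁆ = ⊥ := by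
    rw [Subgroup.commutator_eq_bot_iff_le_centralizer]
    intro d hd
    have hdD : d ∈ ⁅Q, Q⁆ := Subgroup.commutator_mono inf_le_left le_rfl hd
    rw [Subgroup.mem_centralizer_iff]
    intro z hz
    obtain ⟨k, rfl⟩ := Subgroup.mem_zpowers_iff.mp hz
    exact ((show Commute y d from hDcent d hdD).zpow_left k).eq
  have h3 := Subgroup.commutator_commutator_eq_bot_of_rotate h1 h2
  rw [hNeq, Subgroup.commutator_eq_bot_iff_le_centralizer] at h3
  have h4 := h3 hh
  rw [Subgroup.mem_centralizer_iff] at h4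
  have hu2 : u ∈ Subgroup.centralizer {y} := by
    rw [Subgroup.mem_centralizer_iff]
    intro z hz
    rw [Set.mem_singleton_iff] at hz
    subst hz
    exact hyu
  exact h4 u ⟨hu, hu2⟩

end Cfsg.Agent.Lib.Helper57.HBStruct
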