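import Mathlib
import Cfsg.Prelude.Def_GeometricClasses
import Cfsg.Agent.Lib.Helper71.OK1
import Cfsg.Agent.Lib.Helper52.Siegel

/-!
# S5701 piece GEOM1 (helper57, job 590): perps and non-degenerate `L`-subspaces
-/

set_option autoImplicit false
set_option linter.unusedVariables false

namespace Cfsg.Agent.Lib.Helper57.OKGEOM1

open Matrix Cfsg.Agent.Lib.Helper71.SpK Cfsg.Agent.Lib.Helper71.OK

/-- `2 ≠ 0` in `L`. -/
theorem two_ne_zero_L {F : Type*} [Field F] {L : Type*} [Field L] [Algebra F L]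
    (h2 : (2 : F) ≠ 0) : (2 : L) ≠ 0 := by
  rw [← map_ofNat (algebraMap F L) 2]
  exact (map_ne_zero (algebraMap F L)).mpr h2

/-- Solving `A s² + C t² + E = 0` in a finite field of odd characteristic. -/
theorem exists_quad_sol {F : Type*} [Field F] [Finite F] {L : Type*} [Field L] [Algebra F L]
    [FiniteDimensional F L] (h2 : (2 : F) ≠ 0) {A C : L} (hA : A ≠ 0) (hC : C ≠ 0) (E : L) :
    ∃ s t : L, A * s ^ 2 + C * t ^ 2 + E = 0 := by
  have : Finite L := Module.finite_of_finite F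
  let _ := Fintype.ofFinite L
  have h2L : (2 : L) ≠ 0 := two_ne_zero_L h2
  have hchar : ringChar L ≠ 2 := by
    intro h
    have h3 := ringChar.Nat.cast_ringChar (R := L)
    rw [h] at h3
    exact h2L (by exact_mod_cast h3)
  have hodd := FiniteField.odd_card_of_char_ne_two hchar
  obtain ⟨s, t, hst⟩ := FiniteField.exists_root_sum_quadratic
    (f := Polynomial.C A * Polynomial.X ^ 2 + Polynomial.C 0 * Polynomial.X + Polynomial.C E)
    (g := Polynomial.C C * Polynomial.X ^ 2 + Polynomial.C 0 * Polynomial.X + Polynomial.C 0)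
    (Polynomial.degree_quadratic hA) (Polynomial.degree_quadratic hC) hodd
  refine ⟨s, t, ?_⟩
  simp only [Polynomial.eval_add, Polynomial.eval_mul, Polynomial.eval_C, Polynomial.eval_pow,
    Polynomial.eval_X] at hst
  linear_combination hst

/-! ## GEOM1 : perps, non-degeneracy, existence in non-degenerate `L`-subspaces -/

theorem finrank_perp_ge {ι : Type} [Fintype ι] [DecidableEq ι] {F : Type*} [Field F] [Finite F]
    {Q : QuadraticForm F (ι → F)} {L : Type*} [Field L] [Algebra F L] [FiniteDimensional F L]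
    (S : KO (QuadraticMap.polar ⇑Q) L) (h2 : (2 : F) ≠ 0)
    (hQ : (QuadraticMap.polarBilin Q).Nondegenerate)
    (hr : (Module.finrank F L).Prime) (hd : 4 * Module.finrank F L ≤ Fintype.card ι) (P : Submodule F (ι → F)) (a : ι → F) :
    Module.finrank F ↥P ≤ Module.finrank F ↥(S.perp P a) + Module.finrank F L := by
  set g : ↥P →ₗ[F] L := (S.Bl a).comp P.subtype with hg
  have h1 := LinearMap.finrank_range_add_finrank_ker g
  have h3 : Module.finrank F ↥(LinearMap.range g) ≤ Module.finrank F L := Submodule.finrank_le _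
  have h4 : Module.finrank F ↥(LinearMap.ker g) = Module.finrank F ↥(S.perp P a) := by
    rw [← Submodule.finrank_map_subtype_eq P (LinearMap.ker g), hg, LinearMap.ker_comp,
      Submodule.map_comap_subtype]
    rfl
  omega

theorem Nd_perp_nonsing {ι : Type} [Fintype ι] [DecidableEq ι] {F : Type*} [Field F] [Finite F]
    {Q : QuadraticForm F (ι → F)} {L : Type*} [Field L] [Algebra F L] [FiniteDimensional F L]
    (S : KO (QuadraticMap.polar ⇑Q) L) (h2 : (2 : F) ≠ 0)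
    (hQ : (QuadraticMap.polarBilin Q).Nondegenerate)
    (hr : (Module.finrank F L).Prime) (hd : 4 * Module.finrank F L ≤ Fintype.card ι) {P : Submodule F (ι → F)} (hP : S.Lsub P) (hN : S.Nd P)
    {a : ι → F} (haP : a ∈ P) (ha : S.B a a ≠ 0) : S.Nd (S.perp P a) := by
  intro x hx hx0
  rw [S.mem_perp] at hx
  obtain ⟨y, hyP, hxy⟩ := hN x hx.1 hx0
  refine ⟨y - S.φ (S.B y a * (S.B a a)⁻¹) *ᵥ a, ?_, ?_⟩
  · rw [S.mem_perp]
    refine ⟨P.sub_mem hyP (hP _ a haP), ?_⟩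
    rw [S.B_sub_left, S.B_act, mul_assoc, inv_mul_cancel₀ ha, mul_one, sub_self]
  · rw [S.B_sub_right, S.B_act_right, hx.2, mul_zero, sub_zero]
    exact hxy

theorem Nd_perp_hyp {ι : Type} [Fintype ι] [DecidableEq ι] {F : Type*} [Field F] [Finite F]
    {Q : QuadraticForm F (ι → F)} {L : Type*} [Field L] [Algebra F L] [FiniteDimensional F L]
    (S : KO (QuadraticMap.polar ⇑Q) L) (h2 : (2 : F) ≠ 0)
    (hQ : (QuadraticMap.polarBilin Q).Nondegenerate)
    (hr : (Module.finrank F L).Prime) (hd : 4 * Module.finrank F L ≤ Fintype.card ι) {P : Submodule F (ι → F)} (hP : S.Lsub P) (hN : S.Nd P)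
    {u y₀ : ι → F} (huP : u ∈ P) (hy₀P : y₀ ∈ P) (hu : S.B u u = 0) (hy₀ : S.B y₀ u ≠ 0) :
    S.Nd (S.perp (S.perp P u) y₀) := by
  intro x hx hx0
  rw [S.mem_perp, S.mem_perp] at hx
  obtain ⟨⟨hxP, hxu⟩, hxy₀⟩ := hx
  obtain ⟨y, hyP, hxy⟩ := hN x hxP hx0
  have huy : S.B u y₀ ≠ 0 := by
    rw [S.B_symm]
    exact hy₀
  set β' : L := S.B y u * (S.B y₀ u)⁻¹ with hβ'
  set α : L := (S.B y y₀ - β' * S.B y₀ y₀) * (S.B u y₀)⁻¹ with hα
  have hα' : α * S.B u y₀ = S.B y y₀ - β' * S.B y₀ y₀ := by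
    rw [hα, mul_assoc, inv_mul_cancel₀ huy, mul_one]
  have hβ'' : β' * S.B y₀ u = S.B y u := by
    rw [hβ', mul_assoc, inv_mul_cancel₀ hy₀, mul_one]
  refine ⟨y - S.φ α *ᵥ u - S.φ β' *ᵥ y₀, ?_, ?_⟩
  · rw [S.mem_perp, S.mem_perp]
    refine ⟨⟨P.sub_mem (P.sub_mem hyP (hP _ u huP)) (hP _ y₀ hy₀P), ?_⟩, ?_⟩
    · rw [S.B_sub_left, S.B_sub_left, S.B_act, S.B_act, hu, mul_zero, sub_zero, hβ'', sub_self]
    · rw [S.B_sub_left, S.B_sub_left, S.B_act, S.B_act, hα']
      ring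
  · rw [S.B_sub_right, S.B_sub_right, S.B_act_right, S.B_act_right, hxu, hxy₀, mul_zero, mul_zero,
      sub_zero, sub_zero]
    exact hxy

theorem exists_nonsing_of_Nd {ι : Type} [Fintype ι] [DecidableEq ι] {F : Type*} [Field F] [Finite F]
    {Q : QuadraticForm F (ι → F)} {L : Type*} [Field L] [Algebra F L] [FiniteDimensional F L]
    (S : KO (QuadraticMap.polar ⇑Q) L) (h2 : (2 : F) ≠ 0)
    (hQ : (QuadraticMap.polarBilin Q).Nondegenerate)
    (hr : (Module.finrank F L).Prime) (hd : 4 * Module.finrank F L ≤ Fintype.card ι) {P : Submodule F (ι → F)} (hN : S.Nd P) (hne : P ≠ ⊥) :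
    ∃ a ∈ P, S.B a a ≠ 0 := by
  obtain ⟨x, hxP, hx0⟩ := (Submodule.ne_bot_iff P).mp hne
  obtain ⟨y, hyP, hxy⟩ := hN x hxP hx0
  have h2L : (2 : L) ≠ 0 := two_ne_zero_L h2
  by_cases hxx : S.B x x = 0
  · by_cases hyy : S.B y y = 0
    · refine ⟨x + y, P.add_mem hxP hyP, ?_⟩
      rw [S.B_add, S.B_add_right, S.B_add_right, hxx, hyy, S.B_symm y x]
      intro h
      apply hxy
      have h3 : (2 : L) * S.B x y = 0 := by linear_combination h
      exact (mul_eq_zero.mp h3).resolve_left h2L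
    · exact ⟨y, hyP, hyy⟩
  · exact ⟨x, hxP, hxx⟩

theorem exists_norm_of_Nd {ι : Type} [Fintype ι] [DecidableEq ι] {F : Type*} [Field F] [Finite F]
    {Q : QuadraticForm F (ι → F)} {L : Type*} [Field L] [Algebra F L] [FiniteDimensional F L]
    (S : KO (QuadraticMap.polar ⇑Q) L) (h2 : (2 : F) ≠ 0)
    (hQ : (QuadraticMap.polarBilin Q).Nondegenerate)
    (hr : (Module.finrank F L).Prime) (hd : 4 * Module.finrank F L ≤ Fintype.card ι) {P : Submodule F (ι → F)} (hP : S.Lsub P) (hN : S.Nd P)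
    (hdim : Module.finrank F L < Module.finrank F ↥P) (μ : L) : ∃ z ∈ P, S.B z z = μ := by
  have hPne : P ≠ ⊥ := by
    rintro rfl
    rw [finrank_bot] at hdim
    omega
  obtain ⟨a, haP, ha⟩ := exists_nonsing_of_Nd S h2 hQ hr hd hN hPne
  have hN1 := Nd_perp_nonsing S h2 hQ hr hd hP hN haP ha
  have hf1 := finrank_perp_ge S h2 hQ hr hd P a
  have hP1ne : S.perp P a ≠ ⊥ := by
    intro h
    rw [h, finrank_bot] at hf1
    omega
  obtain ⟨c, hcP1, hc⟩ := exists_nonsing_of_Nd S h2 hQ hr hd hN1 hP1ne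
  rw [S.mem_perp] at hcP1
  obtain ⟨hcP, hca⟩ := hcP1
  have hac : S.B a c = 0 := by rw [S.B_symm]; exact hca
  obtain ⟨s, t, hst⟩ := exists_quad_sol (F := F) h2 ha hc (-μ)
  refine ⟨S.φ s *ᵥ a + S.φ t *ᵥ c, P.add_mem (hP s a haP) (hP t c hcP), ?_⟩
  simp only [S.B_add, S.B_act, S.B_add_right, S.B_act_right, hac, hca]
  linear_combination hst

theorem exists_sing_of_Nd {ι : Type} [Fintype ι] [DecidableEq ι] {F : Type*} [Field F] [Finite F]
    {Q : QuadraticForm F (ι → F)} {L : Type*} [Field L] [Algebra F L] [FiniteDimensional F L]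
    (S : KO (QuadraticMap.polar ⇑Q) L) (h2 : (2 : F) ≠ 0)
    (hQ : (QuadraticMap.polarBilin Q).Nondegenerate)
    (hr : (Module.finrank F L).Prime) (hd : 4 * Module.finrank F L ≤ Fintype.card ι) {P : Submodule F (ι → F)} (hP : S.Lsub P) (hN : S.Nd P)
    (hdim : 2 * Module.finrank F L < Module.finrank F ↥P) : ∃ z ∈ P, z ≠ 0 ∧ S.B z z = 0 := by
  have hPne : P ≠ ⊥ := by
    rintro rfl
    rw [finrank_bot] at hdim
    omega
  obtain ⟨a, haP, ha⟩ := exists_nonsing_of_Nd S h2 hQ hr hd hN hPne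
  have hP1 := S.Lsub_perp hP a
  have hN1 := Nd_perp_nonsing S h2 hQ hr hd hP hN haP ha
  have hf1 := finrank_perp_ge S h2 hQ hr hd P a
  have hP1ne : S.perp P a ≠ ⊥ := by
    intro h
    rw [h, finrank_bot] at hf1
    omega
  obtain ⟨c, hcP1, hc⟩ := exists_nonsing_of_Nd S h2 hQ hr hd hN1 hP1ne
  have hN2 := Nd_perp_nonsing S h2 hQ hr hd hP1 hN1 hcP1 hc
  have hf2 := finrank_perp_ge S h2 hQ hr hd (S.perp P a) c
  have hP2ne : S.perp (S.perp P a) c ≠ ⊥ := by
    intro h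
    rw [h, finrank_bot] at hf2
    omega
  obtain ⟨e, heP2, he⟩ := exists_nonsing_of_Nd S h2 hQ hr hd hN2 hP2ne
  rw [S.mem_perp] at hcP1
  obtain ⟨hcP, hca⟩ := hcP1
  rw [S.mem_perp, S.mem_perp] at heP2
  obtain ⟨⟨heP, hea⟩, hec⟩ := heP2
  have hac : S.B a c = 0 := by rw [S.B_symm]; exact hca
  have hae : S.B a e = 0 := by rw [S.B_symm]; exact hea
  have hce : S.B c e = 0 := by rw [S.B_symm]; exact hec
  obtain ⟨s, t, hst⟩ := exists_quad_sol (F := F) h2 ha hc (S.B e e)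
  refine ⟨S.φ s *ᵥ a + S.φ t *ᵥ c + e,
    P.add_mem (P.add_mem (hP s a haP) (hP t c hcP)) heP, ?_, ?_⟩
  · intro h0
    have h1 : S.B (S.φ s *ᵥ a + S.φ t *ᵥ c + e) e = S.B e e := by
      simp only [S.B_add, S.B_act, hae, hce]
      ring
    rw [h0, S.B_zero_left] at h1
    exact he h1.symm
  · simp only [S.B_add, S.B_act, S.B_add_right, S.B_act_right, hac, hca, hae, hea, hce, hec]
    linear_combination hst

theorem exists_hyp_of_Nd {ι : Type} [Fintype ι] [DecidableEq ι] {F : Type*} [Field F] [Finite F]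
    {Q : QuadraticForm F (ι → F)} {L : Type*} [Field L] [Algebra F L] [FiniteDimensional F L]
    (S : KO (QuadraticMap.polar ⇑Q) L) (h2 : (2 : F) ≠ 0)
    (hQ : (QuadraticMap.polarBilin Q).Nondegenerate)
    (hr : (Module.finrank F L).Prime) (hd : 4 * Module.finrank F L ≤ Fintype.card ι) {P : Submodule F (ι → F)} (hP : S.Lsub P) (hN : S.Nd P)
    {z : ι → F} (hzP : z ∈ P) (hz : z ≠ 0) (hzz : S.B z z = 0) :
    ∃ z₂ ∈ P, S.B z₂ z₂ = 0 ∧ S.B z z₂ = 1 := by
  obtain ⟨y, hyP, hzy⟩ := hN z hzP hz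
  have h2L : (2 : L) ≠ 0 := two_ne_zero_L h2
  set x : ι → F := S.φ (S.B z y)⁻¹ *ᵥ y with hx
  have hxP : x ∈ P := hP _ y hyP
  have hzx : S.B z x = 1 := by
    rw [hx, S.B_act_right, inv_mul_cancel₀ hzy]
  have hxz : S.B x z = 1 := by rw [S.B_symm]; exact hzx
  refine ⟨x - S.φ (2⁻¹ * S.B x x) *ᵥ z, P.sub_mem hxP (hP _ z hzP), ?_, ?_⟩
  · simp only [S.B_sub_left, S.B_sub_right, S.B_act, S.B_act_right, hzx, hxz, hzz]
    field_simp
    ring
  · rw [S.B_sub_right, hzx, S.B_act_right, hzz, mul_zero, sub_zero]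

end Cfsg.Agent.Lib.Helper57.OKGEOM1
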