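import Mathlib
import Cfsg.Prelude.Def_GeometricClasses
import Cfsg.Agent.Lib.Helper71.OK1
import Cfsg.Agent.Lib.Helper52.Siegel
import Cfsg.Agent.Lib.Helper57.OKGEOM1

/-!
# S5701 piece GEOM2 (helper57, job 591): derived existence lemmas
-/

set_option autoImplicit false
set_option linter.unusedVariables false

namespace Cfsg.Agent.Lib.Helper57.OKGEOM2

open Matrix Cfsg.Agent.Lib.Helper71.SpK Cfsg.Agent.Lib.Helper71.OK Cfsg.Agent.Lib.Helper57.OKGEOM1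

/-- `finrank ⊤ = card ι`. -/
theorem finrank_top_eq {ι : Type} [Fintype ι] {F : Type*} [Field F] :
    Module.finrank F ↥(⊤ : Submodule F (ι → F)) = Fintype.card ι := by
  rw [finrank_top, Module.finrank_fintype_fun_eq_card]

/-! ## GEOM2 : derived existence lemmas -/

theorem exists_norm {ι : Type} [Fintype ι] [DecidableEq ι] {F : Type*} [Field F] [Finite F]
    {Q : QuadraticForm F (ι → F)} {L : Type*} [Field L] [Algebra F L] [FiniteDimensional F L]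
    (S : KO (QuadraticMap.polar ⇑Q) L) (h2 : (2 : F) ≠ 0)
    (hQ : (QuadraticMap.polarBilin Q).Nondegenerate)
    (hr : (Module.finrank F L).Prime) (hd : 4 * Module.finrank F L ≤ Fintype.card ι) {u y₀ : ι → F} (hu : S.B u u = 0) (hy₀ : S.B y₀ u ≠ 0) (μ : L) :
    ∃ z, S.B z u = 0 ∧ S.B z y₀ = 0 ∧ S.B z z = μ := by
  have hrpos := hr.pos
  have hLs : S.Lsub (S.perp (S.perp ⊤ u) y₀) := S.Lsub_perp (S.Lsub_perp S.Lsub_top u) y₀
  have hNd : S.Nd (S.perp (S.perp ⊤ u) y₀) :=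
    Nd_perp_hyp S h2 hQ hr hd S.Lsub_top (S.Nd_top hQ) Submodule.mem_top Submodule.mem_top hu hy₀
  have hf1 := finrank_perp_ge S h2 hQ hr hd ⊤ u
  have hf2 := finrank_perp_ge S h2 hQ hr hd (S.perp ⊤ u) y₀
  rw [finrank_top_eq] at hf1
  obtain ⟨z, hz, hzz⟩ := exists_norm_of_Nd S h2 hQ hr hd hLs hNd (by omega) μ
  rw [S.mem_perp, S.mem_perp] at hz
  exact ⟨z, hz.1.2, hz.2, hzz⟩

theorem exists_orth_nonsing_pair {ι : Type} [Fintype ι] [DecidableEq ι] {F : Type*} [Field F] [Finite F]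
    {Q : QuadraticForm F (ι → F)} {L : Type*} [Field L] [Algebra F L] [FiniteDimensional F L]
    (S : KO (QuadraticMap.polar ⇑Q) L) (h2 : (2 : F) ≠ 0)
    (hQ : (QuadraticMap.polarBilin Q).Nondegenerate)
    (hr : (Module.finrank F L).Prime) (hd : 4 * Module.finrank F L ≤ Fintype.card ι) {u y₀ : ι → F} (hu : S.B u u = 0) (hy₀ : S.B y₀ u ≠ 0) :
    ∃ a c, S.B a u = 0 ∧ S.B a y₀ = 0 ∧ S.B c u = 0 ∧ S.B c y₀ = 0 ∧ S.B a c = 0 ∧
      S.B a a ≠ 0 ∧ S.B c c ≠ 0 := by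
  have hrpos := hr.pos
  have hLs : S.Lsub (S.perp (S.perp ⊤ u) y₀) := S.Lsub_perp (S.Lsub_perp S.Lsub_top u) y₀
  have hNd : S.Nd (S.perp (S.perp ⊤ u) y₀) :=
    Nd_perp_hyp S h2 hQ hr hd S.Lsub_top (S.Nd_top hQ) Submodule.mem_top Submodule.mem_top hu hy₀
  have hf1 := finrank_perp_ge S h2 hQ hr hd ⊤ u
  have hf2 := finrank_perp_ge S h2 hQ hr hd (S.perp ⊤ u) y₀
  rw [finrank_top_eq] at hf1
  have hne : S.perp (S.perp ⊤ u) y₀ ≠ ⊥ := by
    intro h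
    rw [h, finrank_bot] at hf2
    omega
  obtain ⟨a, haP, ha⟩ := exists_nonsing_of_Nd S h2 hQ hr hd hNd hne
  have hNd1 := Nd_perp_nonsing S h2 hQ hr hd hLs hNd haP ha
  have hf3 := finrank_perp_ge S h2 hQ hr hd (S.perp (S.perp ⊤ u) y₀) a
  have hne1 : S.perp (S.perp (S.perp ⊤ u) y₀) a ≠ ⊥ := by
    intro h
    rw [h, finrank_bot] at hf3
    omega
  obtain ⟨c, hcP, hc⟩ := exists_nonsing_of_Nd S h2 hQ hr hd hNd1 hne1
  rw [S.mem_perp, S.mem_perp] at haP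
  rw [S.mem_perp, S.mem_perp, S.mem_perp] at hcP
  refine ⟨a, c, haP.1.2, haP.2, hcP.1.1.2, hcP.1.2, ?_, ha, hc⟩
  rw [S.B_symm]
  exact hcP.2

theorem exists_sing_perp {ι : Type} [Fintype ι] [DecidableEq ι] {F : Type*} [Field F] [Finite F]
    {Q : QuadraticForm F (ι → F)} {L : Type*} [Field L] [Algebra F L] [FiniteDimensional F L]
    (S : KO (QuadraticMap.polar ⇑Q) L) (h2 : (2 : F) ≠ 0)
    (hQ : (QuadraticMap.polarBilin Q).Nondegenerate)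
    (hr : (Module.finrank F L).Prime) (hd : 4 * Module.finrank F L ≤ Fintype.card ι) {x₁ : ι → F} (hx₁ : S.B x₁ x₁ ≠ 0) :
    ∃ u, u ≠ 0 ∧ S.B u u = 0 ∧ S.B u x₁ = 0 := by
  have hrpos := hr.pos
  have hLs : S.Lsub (S.perp ⊤ x₁) := S.Lsub_perp S.Lsub_top x₁
  have hNd : S.Nd (S.perp ⊤ x₁) :=
    Nd_perp_nonsing S h2 hQ hr hd S.Lsub_top (S.Nd_top hQ) Submodule.mem_top hx₁
  have hf1 := finrank_perp_ge S h2 hQ hr hd ⊤ x₁
  rw [finrank_top_eq] at hf1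
  obtain ⟨z, hz, hz0, hzz⟩ := exists_sing_of_Nd S h2 hQ hr hd hLs hNd (by omega)
  rw [S.mem_perp] at hz
  exact ⟨z, hz0, hzz, hz.2⟩

theorem exists_sing {ι : Type} [Fintype ι] [DecidableEq ι] {F : Type*} [Field F] [Finite F]
    {Q : QuadraticForm F (ι → F)} {L : Type*} [Field L] [Algebra F L] [FiniteDimensional F L]
    (S : KO (QuadraticMap.polar ⇑Q) L) (h2 : (2 : F) ≠ 0)
    (hQ : (QuadraticMap.polarBilin Q).Nondegenerate)
    (hr : (Module.finrank F L).Prime) (hd : 4 * Module.finrank F L ≤ Fintype.card ι) : ∃ u : ι → F, u ≠ 0 ∧ S.B u u = 0 := by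
  have hrpos := hr.pos
  obtain ⟨z, -, hz0, hzz⟩ := exists_sing_of_Nd S h2 hQ hr hd (P := ⊤) S.Lsub_top (S.Nd_top hQ)
    (by rw [finrank_top_eq]; omega)
  exact ⟨z, hz0, hzz⟩

theorem exists_hyp {ι : Type} [Fintype ι] [DecidableEq ι] {F : Type*} [Field F] [Finite F]
    {Q : QuadraticForm F (ι → F)} {L : Type*} [Field L] [Algebra F L] [FiniteDimensional F L]
    (S : KO (QuadraticMap.polar ⇑Q) L) (h2 : (2 : F) ≠ 0)
    (hQ : (QuadraticMap.polarBilin Q).Nondegenerate)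
    (hr : (Module.finrank F L).Prime) (hd : 4 * Module.finrank F L ≤ Fintype.card ι) {u : ι → F} (hu : u ≠ 0) (huu : S.B u u = 0) :
    ∃ u', S.B u' u' = 0 ∧ S.B u u' = 1 := by
  obtain ⟨z₂, -, h1, h3⟩ := exists_hyp_of_Nd S h2 hQ hr hd (P := ⊤) S.Lsub_top (S.Nd_top hQ)
    Submodule.mem_top hu huu
  exact ⟨z₂, h1, h3⟩

theorem exists_nonsing_perp {ι : Type} [Fintype ι] [DecidableEq ι] {F : Type*} [Field F] [Finite F]
    {Q : QuadraticForm F (ι → F)} {L : Type*} [Field L] [Algebra F L] [FiniteDimensional F L]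
    (S : KO (QuadraticMap.polar ⇑Q) L) (h2 : (2 : F) ≠ 0)
    (hQ : (QuadraticMap.polarBilin Q).Nondegenerate)
    (hr : (Module.finrank F L).Prime) (hd : 4 * Module.finrank F L ≤ Fintype.card ι) {u : ι → F} (huu : S.B u u = 0) :
    ∃ w, S.B w u = 0 ∧ S.B w w ≠ 0 := by
  have hrpos := hr.pos
  have h2L : (2 : L) ≠ 0 := two_ne_zero_L h2
  have hf1 := finrank_perp_ge S h2 hQ hr hd ⊤ u
  rw [finrank_top_eq] at hf1
  have hline : Module.finrank F ↥(S.line u) ≤ Module.finrank F L :=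
    LinearMap.finrank_range_le (S.actL u)
  have hex : ∃ a, a ∈ S.perp ⊤ u ∧ a ∉ S.line u := by
    by_contra hcon
    push Not at hcon
    have hle : S.perp ⊤ u ≤ S.line u := fun a ha => hcon a ha
    have := Submodule.finrank_mono hle
    omega
  obtain ⟨a, haP, haL⟩ := hex
  rw [S.mem_perp] at haP
  have hau : S.B a u = 0 := haP.2
  obtain ⟨b, hub, hab⟩ := S.exists_dual hQ haL
  have hbu : S.B b u = 0 := by rw [S.B_symm]; exact hub
  by_cases haa : S.B a a = 0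
  · by_cases hbb : S.B b b = 0
    · refine ⟨a + b, ?_, ?_⟩
      · rw [S.B_add, hau, hbu, add_zero]
      · rw [S.B_add, S.B_add_right, S.B_add_right, haa, hbb, S.B_symm b a, hab]
        intro h
        apply h2L
        linear_combination h
    · exact ⟨b, hbu, hbb⟩
  · exact ⟨a, hau, haa⟩

theorem exists_hyp_perp {ι : Type} [Fintype ι] [DecidableEq ι] {F : Type*} [Field F] [Finite F]
    {Q : QuadraticForm F (ι → F)} {L : Type*} [Field L] [Algebra F L] [FiniteDimensional F L]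
    (S : KO (QuadraticMap.polar ⇑Q) L) (h2 : (2 : F) ≠ 0)
    (hQ : (QuadraticMap.polarBilin Q).Nondegenerate)
    (hr : (Module.finrank F L).Prime) (hd : 4 * Module.finrank F L ≤ Fintype.card ι) (h5 : 5 * Module.finrank F L ≤ Fintype.card ι) {v v₂ : ι → F}
    (hv : S.B v v = 0) (hv₂ : S.B v₂ v₂ = 0) (hvv₂ : S.B v v₂ = 1) :
    ∃ z z₂, S.B z z = 0 ∧ S.B z₂ z₂ = 0 ∧ S.B z z₂ = 1 ∧ S.B z v = 0 ∧ S.B z v₂ = 0 ∧
      S.B z₂ v = 0 ∧ S.B z₂ v₂ = 0 := by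
  have hrpos := hr.pos
  have hv₂v : S.B v₂ v ≠ 0 := by
    rw [S.B_symm, hvv₂]
    exact one_ne_zero
  have hLs : S.Lsub (S.perp (S.perp ⊤ v) v₂) := S.Lsub_perp (S.Lsub_perp S.Lsub_top v) v₂
  have hNd : S.Nd (S.perp (S.perp ⊤ v) v₂) :=
    Nd_perp_hyp S h2 hQ hr hd S.Lsub_top (S.Nd_top hQ) Submodule.mem_top Submodule.mem_top hv hv₂v
  have hf1 := finrank_perp_ge S h2 hQ hr hd ⊤ v
  have hf2 := finrank_perp_ge S h2 hQ hr hd (S.perp ⊤ v) v₂
  rw [finrank_top_eq] at hf1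
  obtain ⟨z, hzP, hz0, hzz⟩ := exists_sing_of_Nd S h2 hQ hr hd hLs hNd (by omega)
  obtain ⟨z₂, hz₂P, hz₂z₂, hzz₂⟩ := exists_hyp_of_Nd S h2 hQ hr hd hLs hNd hzP hz0 hzz
  rw [S.mem_perp, S.mem_perp] at hzP hz₂P
  exact ⟨z, z₂, hzz, hz₂z₂, hzz₂, hzP.1.2, hzP.2, hz₂P.1.2, hz₂P.2⟩

end Cfsg.Agent.Lib.Helper57.OKGEOM2
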