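import Mathlib
import Cfsg.Agent.Lib.Helper53.MinusDefs
import Cfsg.Agent.Lib.Helper53.OddFE
import Cfsg.Agent.Lib.Helper54.OrthInnMinus

/-!
# S2716 piece MF-COVER (job of helper53): odd characteristic, odd order,
`Inndiag(PΩ⁻) = Inn · C_Inndiag(φ)` for a standard field automorphism `φ`.  helper57.

Route: `h = simAut g` with `simSgn g = 1`.  Modulo a rational similarity `g₀` (multiplier a
non-square of the fixed field, sign one) the element `g` lies in the kernel of `simPsi`, hence is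
a scalar times a special isometry `s'`; modulo a rational element of `SO ∖ Ω` the isometry `s'`
lies in `Ω`.  So `g = z * ω * (rational)` with `z` scalar and `ω ∈ Ω`.
-/

set_option autoImplicit false
set_option linter.unusedSectionVars false
set_option linter.unusedVariables false

namespace Cfsg.Agent.Lib.Helper57.MFCOVER

open Module QuadraticMap Matrix
open Cfsg Cfsg.Agent.Lib.Helper51 Cfsg.Agent.Lib.Helper51.GammaO Cfsg.Agent.Lib.Helper52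
  Cfsg.Agent.Lib.Helper52.OA Cfsg.Agent.Lib.Helper51.OutSpin Cfsg.Agent.Lib.Helper53.OddF
  Cfsg.Agent.Lib.Helper53.MinusF Cfsg.Agent.Lib.Helper54

universe u v

theorem det_minusSimMat {F : Type*} [Field F] {m : ℕ} (a b c u₁ u₂ : F)
    (hu : u₁ ^ 2 + a * u₁ * u₂ + b * u₂ ^ 2 = c) :
    (minusSimMat (m := m) a b c u₁ u₂).det = c ^ (m + 1) := by
  subst hu
  unfold minusSimMat
  rw [Matrix.det_fromBlocks_zero₂₁, Matrix.det_diagonal, Fintype.prod_sum_type,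
    Matrix.det_fin_two_of]
  simp only [Sum.elim_inl, Sum.elim_inr, Finset.prod_const, Finset.card_univ, Fintype.card_fin,
    one_pow, mul_one]
  ring

/-- the abstract decomposition: `g = z * ω * (rational)` -/
theorem cover_core {ι : Type} [Fintype ι] [DecidableEq ι] {F₀ : Type v} [Field F₀]
    {F : Type u} [Field F] [Fintype F]
    (e : F₀ →+* F) (Q₀ : QuadraticForm F₀ (ι → F₀)) (Q : QuadraticForm F (ι → F))
    (hmap : ∀ v : ι → F₀, Q (fun i => e (v i)) = e (Q₀ v))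
    (hF : ringChar F ≠ 2) (hsep : PolarSep Q) (hv : ∃ v, Q v ≠ 0) (n : ℕ)
    (hn : Fintype.card ι = 2 * n)
    (gN : ↥(Geo.quadSimilarityGroup (F := F₀) ⇑Q₀))
    (hgN1 : ¬ IsSquare (simMul Q hv (simMapG e Q₀ Q hmap gN)))
    (hgN2 : simSgn Q hv n (simMapG e Q₀ Q hmap gN) = 1)
    (ρ₀ : ↥(isometryGroup F₀ ⇑Q₀))
    (hρ1 : detO Q (isoMapG e Q₀ Q hmap ρ₀) = 1)
    (hρ2 : isoMapG e Q₀ Q hmap ρ₀ ∉ commutator ↥(isometryGroup F ⇑Q))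
    (g : ↥(Geo.quadSimilarityGroup (F := F) ⇑Q)) (hg : simSgn Q hv n g = 1) :
    ∃ (ω : ↥(isometryGroup F ⇑Q)) (g₁ : ↥(Geo.quadSimilarityGroup (F := F₀) ⇑Q₀))
      (z : ↥(Geo.quadSimilarityGroup (F := F) ⇑Q)),
      ω ∈ commutator ↥(isometryGroup F ⇑Q) ∧
      (∃ c : F, ((z : GL ι F) : Matrix ι ι F) = c • 1) ∧
      g = z * isoSim Q ω * simMapG e Q₀ Q hmap g₁ := by
  have hA : ∃ g₀ : ↥(Geo.quadSimilarityGroup (F := F₀) ⇑Q₀),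
      simPsi Q hF hsep hv n hn (g * (simMapG e Q₀ Q hmap g₀)⁻¹) = 1 := by
    by_cases hsq : IsSquare (simMul Q hv g)
    · refine ⟨1, ?_⟩
      rw [map_one, inv_one, mul_one, simPsi_eq_one_iff]
      exact ⟨hsq, hg⟩
    · refine ⟨gN, ?_⟩
      have e1 : simPsi Q hF hsep hv n hn g =
          Multiplicative.ofAdd ((1 : ZMod 2), (0 : ZMod 2)) := by
        rw [simPsi_apply, sgnBit_of_ne _ (by rwa [FiniteField.unit_isSquare_iff hF] at hsq), hg,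
          sgnBit_one]
      have e2 : simPsi Q hF hsep hv n hn (simMapG e Q₀ Q hmap gN) =
          Multiplicative.ofAdd ((1 : ZMod 2), (0 : ZMod 2)) := by
        rw [simPsi_apply, sgnBit_of_ne _ (by rwa [FiniteField.unit_isSquare_iff hF] at hgN1),
          hgN2, sgnBit_one]
      rw [map_mul, map_inv, e1, e2, mul_inv_cancel]
  obtain ⟨g₀, hg₀⟩ := hA
  obtain ⟨z, s, hz, hs, hzs⟩ := simPsi_ker_decomp Q hF hsep hv n hn _ hg₀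
  obtain ⟨s', hs's, hs'det⟩ := (mem_special_sub_iff Q s).mp (Subgroup.mem_subgroupOf.mpr hs)
  have hC : ∃ (ω : ↥(isometryGroup F ⇑Q)) (ρ₁ : ↥(isometryGroup F₀ ⇑Q₀)),
      ω ∈ commutator ↥(isometryGroup F ⇑Q) ∧ s' = ω * isoMapG e Q₀ Q hmap ρ₁ := by
    by_cases hmem : s' ∈ commutator ↥(isometryGroup F ⇑Q)
    · exact ⟨s', 1, hmem, by rw [map_one, mul_one]⟩
    · refine ⟨s' * isoMapG e Q₀ Q hmap ρ₀, ρ₀⁻¹,
        mul_mem_commutator Q hF hsep _ _ hs'det hρ1 hmem hρ2, ?_⟩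
      rw [map_inv, mul_inv_cancel_right]
  obtain ⟨ω, ρ₁, hω, hs'eq⟩ := hC
  refine ⟨ω, isoSim Q₀ ρ₁ * g₀, z, hω, hz, ?_⟩
  have h1 : g = z * s * simMapG e Q₀ Q hmap g₀ := by
    rw [← hzs, inv_mul_cancel_right]
  have h2 : isoSim Q (isoMapG e Q₀ Q hmap ρ₁) = simMapG e Q₀ Q hmap (isoSim Q₀ ρ₁) :=
    Subtype.ext rfl
  rw [h1, ← hs's, hs'eq, isoSim_mul, h2, map_mul]
  simp only [mul_assoc]

section Minus

variable {F₀ : Type v} [Field F₀] [Fintype F₀] {F : Type u} [Field F] [Fintype F]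

theorem hab_down (e : F₀ →+* F) (a₀ b₀ : F₀)
    (hab : ∀ z₁ z₂ : F, z₁ ^ 2 + e a₀ * z₁ * z₂ + e b₀ * z₂ ^ 2 = 0 → z₁ = 0 ∧ z₂ = 0) :
    ∀ z₁ z₂ : F₀, z₁ ^ 2 + a₀ * z₁ * z₂ + b₀ * z₂ ^ 2 = 0 → z₁ = 0 ∧ z₂ = 0 := by
  intro z₁ z₂ h
  have h1 : e z₁ ^ 2 + e a₀ * e z₁ * e z₂ + e b₀ * e z₂ ^ 2 = 0 := by
    rw [← map_pow, ← map_mul, ← map_mul, ← map_pow, ← map_mul, ← map_add, ← map_add, h, map_zero]
  obtain ⟨h3, h4⟩ := hab (e z₁) (e z₂) h1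
  exact ⟨e.injective (by rw [h3, map_zero]), e.injective (by rw [h4, map_zero])⟩

/-- a rational similarity whose multiplier is a non-square of `F`, of sign one -/
theorem exists_gN (h2 : (2 : F) ≠ 0) {m : ℕ} (e : F₀ →+* F) (a₀ b₀ : F₀)
    (hab : ∀ z₁ z₂ : F, z₁ ^ 2 + e a₀ * z₁ * z₂ + e b₀ * z₂ ^ 2 = 0 → z₁ = 0 ∧ z₂ = 0)
    (δ₀ u₁ u₂ : F₀) (hδ : ¬ IsSquare (e δ₀)) (hδ0 : δ₀ ≠ 0)
    (hu : u₁ ^ 2 + a₀ * u₁ * u₂ + b₀ * u₂ ^ 2 = δ₀) :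
    ∃ gN : ↥(Geo.quadSimilarityGroup (F := F₀) ⇑(QMinus m F₀ a₀ b₀)),
      ¬ IsSquare (simMul (QMinus m F (e a₀) (e b₀)) (hv_minus (e a₀) (e b₀))
        (simMapG e (QMinus m F₀ a₀ b₀) (QMinus m F (e a₀) (e b₀)) (QMinus_map e m a₀ b₀) gN)) ∧
      simSgn (QMinus m F (e a₀) (e b₀)) (hv_minus (e a₀) (e b₀)) (m + 1)
        (simMapG e (QMinus m F₀ a₀ b₀) (QMinus m F (e a₀) (e b₀)) (QMinus_map e m a₀ b₀) gN)
          = 1 := by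
  have h2₀ : (2 : F₀) ≠ 0 := two_ne_zero_down e h2
  have hab₀ := hab_down e a₀ b₀ hab
  have hsep₀ := polarSep_minus (m := m) h2₀ a₀ b₀ hab₀
  have hval : (simMul (QMinus m F (e a₀) (e b₀)) (hv_minus (e a₀) (e b₀))
      (simMapG e (QMinus m F₀ a₀ b₀) (QMinus m F (e a₀) (e b₀)) (QMinus_map e m a₀ b₀)
        (simOfMatrix (QMinus m F₀ a₀ b₀) hsep₀ (minusSimMat (m := m) a₀ b₀ δ₀ u₁ u₂) δ₀ hδ0
          (minus_scale_sim a₀ b₀ δ₀ u₁ u₂ hu))) : F) = e δ₀ :=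
    simMul_eq _ _ _ (e δ₀) (fun w => sim_upG e (QMinus m F₀ a₀ b₀) (QMinus m F (e a₀) (e b₀))
      (QMinus_map e m a₀ b₀) _ δ₀ (minus_scale_sim a₀ b₀ δ₀ u₁ u₂ hu) w)
  refine ⟨simOfMatrix (QMinus m F₀ a₀ b₀) hsep₀ (minusSimMat (m := m) a₀ b₀ δ₀ u₁ u₂) δ₀ hδ0
    (minus_scale_sim a₀ b₀ δ₀ u₁ u₂ hu), ?_, ?_⟩
  · rintro ⟨r', hr'⟩
    apply hδ
    refine ⟨(r' : F), ?_⟩
    rw [← hval, hr', Units.val_mul]
  · rw [simSgn_apply, mul_inv_eq_one]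
    apply Units.ext
    rw [Matrix.GeneralLinearGroup.val_det_apply, Units.val_pow_eq_pow_val, hval]
    show ((minusSimMat (m := m) a₀ b₀ δ₀ u₁ u₂).map e).det = e δ₀ ^ (m + 1)
    rw [← RingHom.mapMatrix_apply, ← RingHom.map_det, det_minusSimMat a₀ b₀ δ₀ u₁ u₂ hu, map_pow]

/-- a rational special isometry outside `Ω` -/
theorem exists_rho (h2 : (2 : F) ≠ 0) {m : ℕ} (e : F₀ →+* F) (a₀ b₀ : F₀)
    (δ₀ u₁ u₂ : F₀) (hδ : ¬ IsSquare (e δ₀)) (hδ0 : δ₀ ≠ 0)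
    (hu : u₁ ^ 2 + a₀ * u₁ * u₂ + b₀ * u₂ ^ 2 = δ₀) :
    ∃ ρ₀ : ↥(isometryGroup F₀ ⇑(QMinus m F₀ a₀ b₀)),
      detO (QMinus m F (e a₀) (e b₀))
        (isoMapG e (QMinus m F₀ a₀ b₀) (QMinus m F (e a₀) (e b₀)) (QMinus_map e m a₀ b₀) ρ₀) = 1 ∧
      isoMapG e (QMinus m F₀ a₀ b₀) (QMinus m F (e a₀) (e b₀)) (QMinus_map e m a₀ b₀) ρ₀ ∉
        commutator ↥(isometryGroup F ⇑(QMinus m F (e a₀) (e b₀))) := by
  have hF : ringChar F ≠ 2 := ringChar_ne_two h2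
  have hQu : QMinus m F₀ a₀ b₀ (planeVec m 1 0) = 1 := by
    rw [Q_planeVec]; ring
  have hQw : QMinus m F₀ a₀ b₀ (planeVec m u₁ u₂) = δ₀ := by
    rw [Q_planeVec, hu]
  have hu0 : QMinus m F₀ a₀ b₀ (planeVec m 1 0) ≠ 0 := by
    rw [hQu]; exact one_ne_zero
  have hw0 : QMinus m F₀ a₀ b₀ (planeVec m u₁ u₂) ≠ 0 := by
    rw [hQw]; exact hδ0
  have hQu' : QMinus m F (e a₀) (e b₀) (fun i => e (planeVec m (1 : F₀) 0 i)) = 1 := by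
    rw [QMinus_map, hQu, map_one]
  have hQw' : QMinus m F (e a₀) (e b₀) (fun i => e (planeVec m u₁ u₂ i)) = e δ₀ := by
    rw [QMinus_map, hQw]
  have hu0' : QMinus m F (e a₀) (e b₀) (fun i => e (planeVec m (1 : F₀) 0 i)) ≠ 0 := by
    rw [hQu']; exact one_ne_zero
  have hw0' : QMinus m F (e a₀) (e b₀) (fun i => e (planeVec m u₁ u₂ i)) ≠ 0 := by
    rw [hQw']
    intro h0
    exact hδ0 (e.injective (by rw [h0, map_zero]))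
  have hρeq : isoMapG e (QMinus m F₀ a₀ b₀) (QMinus m F (e a₀) (e b₀)) (QMinus_map e m a₀ b₀)
      (refl (QMinus m F₀ a₀ b₀) (planeVec m 1 0) hu0 *
        refl (QMinus m F₀ a₀ b₀) (planeVec m u₁ u₂) hw0) =
      refl (QMinus m F (e a₀) (e b₀)) _ hu0' * refl (QMinus m F (e a₀) (e b₀)) _ hw0' := by
    apply isometry_ext
    rw [isoMapG_coe, coe_mul', coe_refl, coe_refl, coe_mul', coe_refl, coe_refl, Matrix.map_mul,
      reflMat_mapG e _ _ (QMinus_map e m a₀ b₀), reflMat_mapG e _ _ (QMinus_map e m a₀ b₀)]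
  obtain ⟨hρ1, hρ2⟩ := exists_special_not_commutator (QMinus m F (e a₀) (e b₀)) hF _ _ hu0' hw0'
    (by rw [hQu']; exact ⟨1, by rw [mul_one]⟩) (by rw [hQw']; exact hδ)
  rw [← hρeq] at hρ1 hρ2
  exact ⟨_, hρ1, hρ2⟩

theorem cover_minus (h2 : (2 : F) ≠ 0) {m : ℕ} (e : F₀ →+* F) (a₀ b₀ : F₀)
    (hab : ∀ z₁ z₂ : F, z₁ ^ 2 + e a₀ * z₁ * z₂ + e b₀ * z₂ ^ 2 = 0 → z₁ = 0 ∧ z₂ = 0)
    (σ : F ≃+* F) (r : ℕ) (hrodd : Odd r) (hr : orderOf σ = r)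
    (he : ∀ x : F, σ x = x ↔ x ∈ Set.range e)
    (g : ↥(Geo.quadSimilarityGroup (F := F) ⇑(QMinus m F (e a₀) (e b₀))))
    (hg : simSgn (QMinus m F (e a₀) (e b₀)) (hv_minus (e a₀) (e b₀)) (m + 1) g = 1) :
    ∃ (ω : ↥(isometryGroup F ⇑(QMinus m F (e a₀) (e b₀))))
      (g₁ : ↥(Geo.quadSimilarityGroup (F := F₀) ⇑(QMinus m F₀ a₀ b₀)))
      (z : ↥(Geo.quadSimilarityGroup (F := F) ⇑(QMinus m F (e a₀) (e b₀)))),
      ω ∈ commutator ↥(isometryGroup F ⇑(QMinus m F (e a₀) (e b₀))) ∧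
      (∃ c : F, ((z : GL ((Fin m ⊕ Fin m) ⊕ Fin 2) F) :
        Matrix ((Fin m ⊕ Fin m) ⊕ Fin 2) ((Fin m ⊕ Fin m) ⊕ Fin 2) F) = c • 1) ∧
      g = z * isoSim (QMinus m F (e a₀) (e b₀)) ω *
        simMapG e (QMinus m F₀ a₀ b₀) (QMinus m F (e a₀) (e b₀)) (QMinus_map e m a₀ b₀) g₁ := by
  have hF : ringChar F ≠ 2 := ringChar_ne_two h2
  have h2₀ : (2 : F₀) ≠ 0 := two_ne_zero_down e h2
  have hF₀ : ringChar F₀ ≠ 2 := ringChar_ne_two h2₀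
  have hab₀ := hab_down e a₀ b₀ hab
  have hsep := polarSep_minus (m := m) h2 (e a₀) (e b₀) hab
  have hσr : σ ^ r = 1 := by
    rw [← hr]
    exact pow_orderOf_eq_one σ
  obtain ⟨δ₀, hδ₀⟩ := FiniteField.exists_nonsquare hF₀
  have hδ : ¬ IsSquare (e δ₀) := not_isSquare_up e h2 σ r hrodd hσr he δ₀ hδ₀
  have hδ0 : δ₀ ≠ 0 := by
    rintro rfl
    exact hδ₀ ⟨0, by rw [mul_zero]⟩
  obtain ⟨u₁, u₂, hu⟩ := exists_norm hF₀ a₀ b₀ hab₀ δ₀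
  obtain ⟨gN, hgN1, hgN2⟩ := exists_gN (m := m) h2 e a₀ b₀ hab δ₀ u₁ u₂ hδ hδ0 hu
  obtain ⟨ρ₀, hρ1, hρ2⟩ := exists_rho (m := m) h2 e a₀ b₀ δ₀ u₁ u₂ hδ hδ0 hu
  exact cover_core e _ _ (QMinus_map e m a₀ b₀) hF hsep (hv_minus (e a₀) (e b₀)) (m + 1)
    card_minus gN hgN1 hgN2 ρ₀ hρ1 hρ2 g hg

set_option maxHeartbeats 1600000 in
/-- the cover statement with the form as a parameter (for the cast) -/
theorem cover_gen (h2 : (2 : F) ≠ 0) {m : ℕ} (hm : 3 ≤ m) (e : F₀ →+* F) (a₀ b₀ : F₀)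
    (hab : ∀ z₁ z₂ : F, z₁ ^ 2 + e a₀ * z₁ * z₂ + e b₀ * z₂ ^ 2 = 0 → z₁ = 0 ∧ z₂ = 0)
    (σ : F ≃+* F) (r : ℕ) (hrodd : Odd r) (hr : orderOf σ = r)
    (he : ∀ x : F, σ x = x ↔ x ∈ Set.range e)
    (Q' : ((Fin m ⊕ Fin m) ⊕ Fin 2 → F) → F) (hQ' : ⇑(QMinus m F (e a₀) (e b₀)) = Q')
    (φ : MulAut (Cfsg.POmega F Q')) (hφ : Cfsg.IsFieldAutPOmegaOf Q' σ φ) :
    ∀ h ∈ inndiagOfMinus m (e a₀) (e b₀) Q',
      ∃ k ∈ Cfsg.Inn (Cfsg.POmega F Q'),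
      ∃ c ∈ inndiagOfMinus m (e a₀) (e b₀) Q' ⊓ Subgroup.centralizer {φ}, h = k * c := by
  subst hQ'
  intro h hh
  have hF : ringChar F ≠ 2 := ringChar_ne_two h2
  have hsep := polarSep_minus (m := m) h2 (e a₀) (e b₀) hab
  have hIn : inndiagOfMinus m (e a₀) (e b₀) ⇑(QMinus m F (e a₀) (e b₀)) =
      ((simSgn (QMinus m F (e a₀) (e b₀)) (hv_minus (e a₀) (e b₀)) (m + 1)).ker).map
        (simAut ⇑(QMinus m F (e a₀) (e b₀))) := by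
    unfold inndiagOfMinus
    exact inndiagMinus_eq hF (e a₀) (e b₀) hab
  rw [hIn] at hh ⊢
  obtain ⟨g, hgker, rfl⟩ := hh
  have hg1 : simSgn (QMinus m F (e a₀) (e b₀)) (hv_minus (e a₀) (e b₀)) (m + 1) g = 1 :=
    MonoidHom.mem_ker.mp hgker
  obtain ⟨ω, g₁, z, hω, ⟨c, hz⟩, hgeq⟩ := cover_minus h2 e a₀ b₀ hab σ r hrodd hr he g hg1
  obtain ⟨gc, hgc⟩ : ∃ gc : ↥(Geo.quadSimilarityGroup (F := F) ⇑(QMinus m F (e a₀) (e b₀))),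
      gc = simMapG e (QMinus m F₀ a₀ b₀) (QMinus m F (e a₀) (e b₀)) (QMinus_map e m a₀ b₀) g₁ :=
    ⟨_, rfl⟩
  have hmt : ((gc : GL ((Fin m ⊕ Fin m) ⊕ Fin 2) F) :
      Matrix ((Fin m ⊕ Fin m) ⊕ Fin 2) ((Fin m ⊕ Fin m) ⊕ Fin 2) F) =
      ((g₁ : GL ((Fin m ⊕ Fin m) ⊕ Fin 2) F₀) :
        Matrix ((Fin m ⊕ Fin m) ⊕ Fin 2) ((Fin m ⊕ Fin m) ⊕ Fin 2) F₀).map e := by
    rw [hgc]
    rfl
  rw [← hgc] at hgeq
  have hz1 : simAut ⇑(QMinus m F (e a₀) (e b₀)) z = 1 :=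
    simAut_of_scalar (QMinus m F (e a₀) (e b₀)) z c hz
  have hzs : simSgn (QMinus m F (e a₀) (e b₀)) (hv_minus (e a₀) (e b₀)) (m + 1) z = 1 :=
    simSgn_of_scalar (QMinus m F (e a₀) (e b₀)) _ (m + 1) card_minus z c hz
  have hgcs : simSgn (QMinus m F (e a₀) (e b₀)) (hv_minus (e a₀) (e b₀)) (m + 1) gc = 1 := by
    have h1 := hg1
    rw [hgeq, map_mul, map_mul, hzs, one_mul, simSgn_isoSim,
      detO_of_mem_commutator (QMinus m F (e a₀) (e b₀)) ω hω, one_mul] at h1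
    exact h1
  refine ⟨simAut ⇑(QMinus m F (e a₀) (e b₀)) (isoSim (QMinus m F (e a₀) (e b₀)) ω), ?_,
    simAut ⇑(QMinus m F (e a₀) (e b₀)) gc, Subgroup.mem_inf.mpr ⟨?_, ?_⟩, ?_⟩
  · rw [inn_eq]
    exact ⟨isoSim (QMinus m F (e a₀) (e b₀)) ω,
      (mem_omega_sub_iff (QMinus m F (e a₀) (e b₀)) _).mpr ⟨ω, rfl, hω⟩, rfl⟩
  · exact ⟨gc, MonoidHom.mem_ker.mpr hgcs, rfl⟩
  · rw [Subgroup.mem_centralizer_iff]
    intro x hx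
    rw [Set.mem_singleton_iff] at hx
    rw [hx]
    have hσ : (SemidirectProduct.inr (σ : RingAut F) : SGL ((Fin m ⊕ Fin m) ⊕ Fin 2) F) ∈
        GO ⇑(QMinus m F (e a₀) (e b₀)) :=
      inr_mem_minus m (e a₀) (e b₀) σ ((he _).2 ⟨a₀, rfl⟩) ((he _).2 ⟨b₀, rfl⟩)
    have hφeq := (field_iffS (QMinus m F (e a₀) (e b₀)) σ hσ φ).mp hφ
    have hn : 7 ≤ Fintype.card ((Fin m ⊕ Fin m) ⊕ Fin 2) := by
      rw [card_minus]
      omega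
    rw [hφeq, ← iotaO_eq_simAut (QMinus m F (e a₀) (e b₀)) gc]
    refine ((comm_iffS (QMinus m F (e a₀) (e b₀))
      (nondeg_of_polarSep (QMinus m F (e a₀) (e b₀)) hsep) hn σ hσ gc).mpr
        ⟨1, one_ne_zero, ?_⟩).symm
    rw [one_smul, hmt, Matrix.map_map]
    ext i j
    simp only [Matrix.map_apply, Function.comp_apply]
    exact (he _).2 ⟨_, rfl⟩
  · have h3 : simAut ⇑(QMinus m F (e a₀) (e b₀)) g =
        simAut ⇑(QMinus m F (e a₀) (e b₀)) z *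
          simAut ⇑(QMinus m F (e a₀) (e b₀)) (isoSim (QMinus m F (e a₀) (e b₀)) ω) *
            simAut ⇑(QMinus m F (e a₀) (e b₀)) gc := by
      rw [hgeq, map_mul, map_mul]
    rw [h3, hz1, one_mul]

end Minus

/-- MF-COVER -/
theorem cover_odd {F₀ : Type v} [Field F₀] [Fintype F₀] {F : Type u} [Field F] [Fintype F]
    (h2 : (2 : F) ≠ 0) {m : ℕ} (hm : 3 ≤ m) (e : F₀ →+* F) (a₀ b₀ : F₀)
    (hab : ∀ z₁ z₂ : F, z₁ ^ 2 + e a₀ * z₁ * z₂ + e b₀ * z₂ ^ 2 = 0 → z₁ = 0 ∧ z₂ = 0)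
    (σ : F ≃+* F) (r : ℕ) (hrodd : Odd r) (hr : orderOf σ = r)
    (he : ∀ x : F, σ x = x ↔ x ∈ Set.range e)
    (φ : MulAut (Cfsg.POmega F (Cfsg.quadFormMinus m F (e a₀) (e b₀))))
    (hφ : Cfsg.IsFieldAutPOmegaOf (Cfsg.quadFormMinus m F (e a₀) (e b₀)) σ φ) :
    ∀ h ∈ Cfsg.inndiagPOmegaMinus m F (e a₀) (e b₀),
      ∃ k ∈ Cfsg.Inn (Cfsg.POmega F (Cfsg.quadFormMinus m F (e a₀) (e b₀))),
      ∃ c ∈ Cfsg.inndiagPOmegaMinus m F (e a₀) (e b₀) ⊓ Subgroup.centralizer {φ}, h = k * c := by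
  have hI : inndiagOfMinus m (e a₀) (e b₀) (Cfsg.quadFormMinus m F (e a₀) (e b₀)) =
      Cfsg.inndiagPOmegaMinus m F (e a₀) (e b₀) := rfl
  have key := cover_gen h2 hm e a₀ b₀ hab σ r hrodd hr he
    (Cfsg.quadFormMinus m F (e a₀) (e b₀)) (coe_QMinus m F (e a₀) (e b₀)) φ hφ
  rw [hI] at key
  exact key

end Cfsg.Agent.Lib.Helper57.MFCOVER
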