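import Mathlib
import Cfsg.Agent.Lib.Helper26.GrossDefs
import Cfsg.Agent.Lib.Helper26.FpfBasic
import Cfsg.Agent.Lib.Helper30.Basic

/-!
# Piece T-CENT of S3793 (Shult–Gross): `GrossAutStmt p → GrossCentStmt p`
-/

set_option autoImplicit false

open scoped commutatorElement

universe u

namespace Cfsg.Agent.Lib.Helper57.GrossCent

open Cfsg.Agent.Lib.Helper26

section general

variable {X : Type*} [Group X]

theorem mulAut_pow_apply (τ : MulAut X) (k : ℕ) (x : X) : (τ ^ k) x = (⇑τ)^[k] x := by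
  induction k generalizing x with
  | zero => rfl
  | succ k ih => rw [pow_succ, MulAut.mul_apply, ih, Function.iterate_succ_apply]

theorem mulAut_iterate_eq_id (τ : MulAut X) {k : ℕ} (h : τ ^ k = 1) : (⇑τ)^[k] = id := by
  funext x
  rw [← mulAut_pow_apply, h]
  rfl

theorem mulAut_pow_eq_one (τ : MulAut X) {k : ℕ} (h : (⇑τ)^[k] = id) : τ ^ k = 1 := by
  ext x
  rw [mulAut_pow_apply, h]
  rfl

/-- A fixed-point-free automorphism of `p`-power order: `p ∤ |X|`. -/
theorem fpf_not_dvd_card [Finite X] {p : ℕ} (hp : p.Prime) (τ : MulAut X) (m : ℕ)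
    (hτ : τ ^ p ^ m = 1) (hfpf : ∀ x : X, τ x = x → x = 1) : ¬ p ∣ Nat.card X := by
  have : Fact p.Prime := ⟨hp⟩
  have hP : IsPGroup p (Subgroup.zpowers τ) := by
    rintro ⟨y, hy⟩
    obtain ⟨j, rfl⟩ := Subgroup.mem_zpowers_iff.mp hy
    refine ⟨m, Subtype.ext ?_⟩
    show (τ ^ j) ^ p ^ m = 1
    rw [← zpow_natCast, ← zpow_mul, mul_comm, zpow_mul, zpow_natCast, hτ, one_zpow]
  have h1 := hP.card_modEq_card_fixedPoints X
  have hfix : MulAction.fixedPoints (Subgroup.zpowers τ) X = {1} := by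
    ext x
    rw [MulAction.mem_fixedPoints, Set.mem_singleton_iff]
    constructor
    · intro h
      exact hfpf x (h ⟨τ, Subgroup.mem_zpowers τ⟩)
    · rintro rfl ⟨y, hy⟩
      exact map_one y
  rw [hfix, Nat.card_coe_set_eq, Set.ncard_singleton] at h1
  intro hdvd
  have h3 : (Nat.card X) % p = 0 := Nat.mod_eq_zero_of_dvd hdvd
  have h4 : (1 : ℕ) % p = 1 := Nat.mod_eq_of_lt hp.one_lt
  unfold Nat.ModEq at h1
  rw [h3, h4] at h1
  exact absurd h1 (by norm_num)

theorem eq_one_of_pow_prime_pow [Finite X] {p : ℕ} (hp : p.Prime) (hX : ¬ p ∣ Nat.card X)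
    {c : X} {j : ℕ} (hc : c ^ p ^ j = 1) : c = 1 := by
  have h1 : orderOf c ∣ p ^ j := orderOf_dvd_of_pow_eq_one hc
  obtain ⟨i, -, hi⟩ := (Nat.dvd_prime_pow hp).mp h1
  rcases Nat.eq_zero_or_pos i with h0 | h0
  · rw [h0, pow_zero] at hi
    exact orderOf_eq_one_iff.mp hi
  · exfalso
    apply hX
    have h2 : p ∣ orderOf c := by
      rw [hi]
      exact dvd_pow_self p h0.ne'
    exact h2.trans (orderOf_dvd_natCard c)

/-- Step (3). -/
theorem fix_of_fix_sub [Finite X] {p : ℕ} (hp : p.Prime) (hX : ¬ p ∣ Nat.card X)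
    (τ : MulAut X) (hτ : τ ^ p = 1) (S : Subgroup X) (hS : ∀ h : X, h⁻¹ * τ h ∈ S)
    (hfix : ∀ y ∈ S, τ y = y) (h : X) : τ h = h := by
  have hcfix : τ (h⁻¹ * τ h) = h⁻¹ * τ h := hfix _ (hS h)
  have hτh : τ h = h * (h⁻¹ * τ h) := by group
  generalize h⁻¹ * τ h = c at hcfix hτh
  have hpow : ∀ i : ℕ, (τ ^ i) h = h * c ^ i := by
    intro i
    induction i with
    | zero => simp
    | succ i ih =>
      rw [pow_succ', MulAut.mul_apply, ih, map_mul, map_pow, hcfix, hτh, pow_succ', mul_assoc]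
  have h1 := hpow p
  rw [hτ, MulAut.one_apply] at h1
  have hc1 : c ^ p = 1 := by
    have h2 : h * c ^ p = h * 1 := by rw [mul_one]; exact h1.symm
    exact mul_left_cancel h2
  have hc : c = 1 := eq_one_of_pow_prime_pow hp hX (j := 1) (by rw [pow_one]; exact hc1)
  rw [hτh, hc, mul_one]

/-- Step (4): reduction to elements of prime power order. -/
theorem fix_of_fix_primary [Finite X] (τ : MulAut X) (S : Subgroup X)
    (hprim : ∀ q : ℕ, q.Prime → ∀ y ∈ S, (∃ j : ℕ, y ^ q ^ j = 1) → τ y = y) :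
    ∀ y ∈ S, τ y = y := by
  have key : ∀ m : ℕ, ∀ y ∈ S, orderOf y = m → τ y = y := by
    intro m
    induction m using Nat.strong_induction_on with
    | _ m ih =>
      intro y hy hm
      by_cases h1 : m = 1
      · rw [h1] at hm
        rw [orderOf_eq_one_iff.mp hm, map_one]
      have hm0 : m ≠ 0 := by
        rw [← hm]
        exact (orderOf_pos y).ne'
      obtain ⟨q, hq, hqm⟩ := Nat.exists_prime_and_dvd h1
      obtain ⟨e, m', hm', hmeq⟩ := Nat.exists_eq_pow_mul_and_not_dvd hm0 q hq.ne_one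
      have he : e ≠ 0 := by
        rintro rfl
        rw [pow_zero, one_mul] at hmeq
        exact hm' (hmeq ▸ hqm)
      have hm'0 : m' ≠ 0 := by
        rintro rfl
        rw [mul_zero] at hmeq
        exact hm0 hmeq
      have ho1 : orderOf (y ^ q ^ e) = m' := by
        rw [orderOf_pow_of_dvd (pow_ne_zero e hq.ne_zero)
          (by rw [hm, hmeq]; exact dvd_mul_right _ _), hm, hmeq,
          Nat.mul_div_cancel_left _ (pow_pos hq.pos e)]
      have hlt : m' < m := by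
        have h2 : 2 ≤ q ^ e := le_trans hq.two_le (Nat.le_self_pow he q)
        have h3 : 0 < m' := Nat.pos_of_ne_zero hm'0
        rw [hmeq]
        nlinarith
      have hf1 : τ (y ^ q ^ e) = y ^ q ^ e := ih m' hlt _ (S.pow_mem hy _) ho1
      have hf2 : τ (y ^ m') = y ^ m' := hprim q hq _ (S.pow_mem hy _)
        ⟨e, by rw [← pow_mul, mul_comm, ← hmeq, ← hm, pow_orderOf_eq_one]⟩
      have hcop : IsCoprime ((q ^ e : ℕ) : ℤ) (m' : ℤ) := by
        rw [Nat.isCoprime_iff_coprime]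
        exact Nat.Coprime.pow_left e ((Nat.Prime.coprime_iff_not_dvd hq).mpr hm')
      obtain ⟨a, b, hab⟩ := hcop
      have hab' : ((q ^ e : ℕ) : ℤ) * a + (m' : ℤ) * b = 1 := by
        rw [mul_comm _ a, mul_comm _ b]
        exact hab
      have hy' : y = (y ^ q ^ e) ^ a * (y ^ m') ^ b := by
        rw [← zpow_natCast y (q ^ e), ← zpow_natCast y m', ← zpow_mul, ← zpow_mul, ← zpow_add,
          hab', zpow_one]
      rw [hy', map_mul, map_zpow, map_zpow, hf1, hf2]
  intro y hy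
  exact key _ y hy rfl

/-- The centraliser of a normal subgroup is normal. -/
theorem centralizer_normal (S : Subgroup X) [hS : S.Normal] :
    (Subgroup.centralizer (S : Set X)).Normal := by
  constructor
  intro x hx g
  rw [Subgroup.mem_centralizer_iff] at hx ⊢
  intro s hs
  have h1 := hx (g⁻¹ * s * g⁻¹⁻¹) (hS.conj_mem s hs g⁻¹)
  have e1 : s * (g * x * g⁻¹) = g * ((g⁻¹ * s * g⁻¹⁻¹) * x) * g⁻¹ := by group
  have e2 : g * (x * (g⁻¹ * s * g⁻¹⁻¹)) * g⁻¹ = g * x * g⁻¹ * s := by group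
  rw [e1, h1, e2]

/-- The centraliser of an invariant subgroup is invariant. -/
theorem centralizer_invariant (τ : MulAut X) (S : Subgroup X)
    (hS : S.map (τ : X →* X) = S) :
    ∀ x ∈ Subgroup.centralizer (S : Set X), τ x ∈ Subgroup.centralizer (S : Set X) := by
  intro x hx
  rw [Subgroup.mem_centralizer_iff] at hx ⊢
  intro s hs
  obtain ⟨s', hs', rfl⟩ := exists_of_map_eq hS hs
  rw [← map_mul, ← map_mul, hx s' hs']

end general

section main

variable {G : Type u} [Group G] [Finite G]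

/-- Step (1a): a minimal invariant normal subgroup of a solvable group is abelian. -/
theorem min_inv_abelian (hG : Group.IsSolvable G) (σ : MulAut G)
    (N : Subgroup G) [hNn : N.Normal] (hN0 : N ≠ ⊥) (hσN : ∀ x ∈ N, σ x ∈ N)
    (hmin : ∀ N₀ : Subgroup G, N₀.Normal → N₀ ≤ N → (∀ x ∈ N₀, σ x ∈ N₀) → N₀ = ⊥ ∨ N₀ = N) :
    ∀ x ∈ N, ∀ y ∈ N, x * y = y * x := by
  have hmap : N.map (σ : G →* G) = N := map_eq_of_forall_mem σ N hσN
  have hD : ⁅N, N⁆ = ⊥ := by
    have hDle : ⁅N, N⁆ ≤ N := Subgroup.commutator_le_self N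
    have hDne : ⁅N, N⁆ ≠ N := by
      have : Nontrivial N := (Subgroup.nontrivial_iff_ne_bot N).mpr hN0
      have hlt := Group.IsSolvable.commutator_lt_top_of_nontrivial N
      intro heq
      rw [← Subgroup.map_subtype_commutator] at heq
      have h2 : (commutator N).map N.subtype = (⊤ : Subgroup N).map N.subtype := by
        rw [heq, ← MonoidHom.range_eq_map, Subgroup.range_subtype]
      exact hlt.ne (Subgroup.map_injective N.subtype_injective h2)
    have hDinv : ∀ x ∈ ⁅N, N⁆, σ x ∈ ⁅N, N⁆ := by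
      intro x hx
      have h1 : (σ : G →* G) x ∈ (⁅N, N⁆).map (σ : G →* G) := Subgroup.mem_map_of_mem _ hx
      rw [Subgroup.map_commutator, hmap] at h1
      exact h1
    rcases hmin ⁅N, N⁆ inferInstance hDle hDinv with h | h
    · exact h
    · exact absurd h hDne
  rw [Subgroup.commutator_eq_bot_iff_le_centralizer] at hD
  intro x hx y hy
  have h1 := hD hy
  rw [Subgroup.mem_centralizer_iff] at h1
  exact h1 x hx

/-- Step (1b): a minimal invariant normal abelian subgroup has prime exponent. -/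
theorem min_inv_exponent (σ : MulAut G)
    (N : Subgroup G) [hNn : N.Normal] (hN0 : N ≠ ⊥) (hσN : ∀ x ∈ N, σ x ∈ N)
    (hmin : ∀ N₀ : Subgroup G, N₀.Normal → N₀ ≤ N → (∀ x ∈ N₀, σ x ∈ N₀) → N₀ = ⊥ ∨ N₀ = N)
    (hab : ∀ x ∈ N, ∀ y ∈ N, x * y = y * x) :
    ∃ r : ℕ, r.Prime ∧ r ∣ Nat.card N ∧ ∀ x ∈ N, x ^ r = 1 := by
  have hcard : Nat.card N ≠ 1 := fun h => hN0 (Subgroup.card_eq_one.mp h)
  obtain ⟨r, hr, hrN⟩ := Nat.exists_prime_and_dvd hcard
  refine ⟨r, hr, hrN, ?_⟩
  let Ω : Subgroup G :=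
    { carrier := {x | x ∈ N ∧ x ^ r = 1}
      mul_mem' := by
        rintro a b ⟨ha, ha'⟩ ⟨hb, hb'⟩
        refine ⟨N.mul_mem ha hb, ?_⟩
        rw [(show Commute a b from hab a ha b hb).mul_pow, ha', hb', one_mul]
      one_mem' := ⟨N.one_mem, one_pow r⟩
      inv_mem' := by
        rintro a ⟨ha, ha'⟩
        exact ⟨N.inv_mem ha, by rw [inv_pow, ha', inv_one]⟩ }
  have hΩmem : ∀ x, x ∈ Ω ↔ x ∈ N ∧ x ^ r = 1 := fun x => Iff.rfl
  have hΩn : Ω.Normal := by
    constructor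
    intro x hx g
    rw [hΩmem] at hx ⊢
    exact ⟨hNn.conj_mem x hx.1 g, by rw [conj_pow, hx.2, mul_one, mul_inv_cancel]⟩
  have hΩle : Ω ≤ N := fun x hx => ((hΩmem x).mp hx).1
  have hΩinv : ∀ x ∈ Ω, σ x ∈ Ω := by
    intro x hx
    rw [hΩmem] at hx ⊢
    exact ⟨hσN x hx.1, by rw [← map_pow, hx.2, map_one]⟩
  have hΩne : Ω ≠ ⊥ := by
    have : Fact r.Prime := ⟨hr⟩
    obtain ⟨x, hx⟩ := exists_prime_orderOf_dvd_card' (G := N) r hrN
    intro h
    have hxΩ : (x : G) ∈ Ω := by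
      rw [hΩmem]
      refine ⟨x.2, ?_⟩
      rw [← Subgroup.coe_pow, ← hx, pow_orderOf_eq_one]
      rfl
    rw [h, Subgroup.mem_bot] at hxΩ
    have hx1 : x = 1 := Subtype.ext hxΩ
    rw [hx1, orderOf_one] at hx
    exact hr.one_lt.ne hx
  rcases hmin Ω hΩn hΩle hΩinv with h | h
  · exact absurd h hΩne
  · intro x hx
    rw [← h] at hx
    exact ((hΩmem x).mp hx).2

theorem conjNormal_eq_one_iff (N : Subgroup G) [N.Normal] (g : G) :
    (MulAut.conjNormal g : MulAut N) = 1 ↔ g ∈ Subgroup.centralizer (N : Set G) := by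
  rw [Subgroup.mem_centralizer_iff]
  constructor
  · intro h x hx
    have h1 := congrArg (fun f : MulAut N => ((f ⟨x, hx⟩ : N) : G)) h
    simp only [MulAut.conjNormal_apply, MulAut.one_apply] at h1
    exact (mul_inv_eq_iff_eq_mul.mp h1).symm
  · intro h
    ext x
    rw [MulAut.conjNormal_apply, MulAut.one_apply, mul_inv_eq_iff_eq_mul]
    exact (h x x.2).symm

theorem res_mul_conj (σ : MulAut G) (N : Subgroup G) [N.Normal]
    (hmap : N.map (σ : G →* G) = N) (g : G) :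
    (resAut σ N hmap : MulAut N) * MulAut.conjNormal g
      = MulAut.conjNormal (σ g) * (resAut σ N hmap : MulAut N) := by
  ext x
  simp only [MulAut.mul_apply, MulAut.conjNormal_apply, resAut_coe, map_mul, map_inv]

theorem res_pow_coe (σ : MulAut G) (N : Subgroup G) (hmap : N.map (σ : G →* G) = N) (k : ℕ)
    (x : N) : ((((resAut σ N hmap : MulAut N) ^ k) x : N) : G) = (σ ^ k) (x : G) := by
  rw [mulAut_pow_apply, mulAut_pow_apply, resAut_iterate]

theorem res_pow_mul_conj (σ : MulAut G) (N : Subgroup G) [N.Normal]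
    (hmap : N.map (σ : G →* G) = N) (k : ℕ) (g : G) :
    (resAut σ N hmap : MulAut N) ^ k * MulAut.conjNormal g
      = MulAut.conjNormal ((σ ^ k) g) * (resAut σ N hmap : MulAut N) ^ k := by
  induction k with
  | zero => simp
  | succ k ih =>
    rw [pow_succ', mul_assoc, ih, ← mul_assoc, res_mul_conj, mul_assoc, pow_succ' σ,
      MulAut.mul_apply]

theorem quot_pow_mk (σ : MulAut G) (C : Subgroup G) [C.Normal]
    (hC : C.map (σ : G →* G) = C) (k : ℕ) (g : G) :
    ((quotAut σ C hC : MulAut (G ⧸ C)) ^ k) (QuotientGroup.mk g)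
      = QuotientGroup.mk ((σ ^ k) g) := by
  rw [mulAut_pow_apply, mulAut_pow_apply, quotAut_iterate]

/-- Steps (5) and (6): the `q`-part of `F(G/C)` is centralised by `ψ`. -/
theorem fix_qpart {p : ℕ} (hp : p.Prime) (hK : GrossAutStmt.{u} p)
    (σ : MulAut G) (n : ℕ) (hσ : σ ^ p ^ (n + 1) = 1) (hfpf : ∀ g : G, σ g = g → g = 1)
    (N : Subgroup G) [hNn : N.Normal] (hσN : ∀ x ∈ N, σ x ∈ N)
    (hmin : ∀ N₀ : Subgroup G, N₀.Normal → N₀ ≤ N → (∀ x ∈ N₀, σ x ∈ N₀) → N₀ = ⊥ ∨ N₀ = N)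
    (hab : ∀ x ∈ N, ∀ y ∈ N, x * y = y * x) (r : ℕ) (hr : r.Prime) (hrN : r ∣ Nat.card N)
    (hexp : ∀ x ∈ N, x ^ r = 1)
    (C : Subgroup G) (hCdef : C = Subgroup.centralizer (N : Set G)) [hCn : C.Normal]
    (hC : C.map (σ : G →* G) = C)
    (q : ℕ) (hq : q.Prime) (O : Subgroup (G ⧸ C)) (hOn : O.Normal)
    (hOmap : O.map ((quotAut σ C hC : G ⧸ C ≃* G ⧸ C) : G ⧸ C →* G ⧸ C) = O)
    (hOq : IsPGroup q O) :
    ∀ y ∈ O, ((quotAut σ C hC : MulAut (G ⧸ C)) ^ p ^ n) y = y := by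
  intro y hy
  have hpG : ¬ p ∣ Nat.card G := fpf_not_dvd_card hp σ (n + 1) hσ hfpf
  have hpH : ¬ p ∣ Nat.card (G ⧸ C) := fun h =>
    hpG (h.trans (Subgroup.card_quotient_dvd_card C))
  have hmapN : N.map (σ : G →* G) = N := map_eq_of_forall_mem σ N hσN
  have hρ1 : ∀ g' : G, (MulAut.conjNormal g' : MulAut N) = 1 ↔ g' ∈ C := fun g' => by
    rw [hCdef]
    exact conjNormal_eq_one_iff N g'
  -- the preimage of `O`
  have hÕn : (O.comap (QuotientGroup.mk' C)).Normal := hOn.comap _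
  have hÕσ : ∀ g' ∈ O.comap (QuotientGroup.mk' C), σ g' ∈ O.comap (QuotientGroup.mk' C) := by
    intro g' hg'
    exact mem_of_map_eq hOmap (show QuotientGroup.mk' C g' ∈ O from hg')
  have hOpow : ∀ g' ∈ O.comap (QuotientGroup.mk' C), ∃ j : ℕ, g' ^ q ^ j ∈ C := by
    intro g' hg'
    obtain ⟨j, hj⟩ := hOq ⟨QuotientGroup.mk' C g', hg'⟩
    refine ⟨j, ?_⟩
    have h2 : (((⟨QuotientGroup.mk' C g', hg'⟩ : O) ^ q ^ j : O) : G ⧸ C) = ((1 : O) : G ⧸ C) :=
      congrArg Subtype.val hj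
    rw [Subgroup.coe_pow, Subgroup.coe_one, ← map_pow] at h2
    exact (QuotientGroup.eq_one_iff _).mp h2
  have hQ_pgroup : IsPGroup q ((O.comap (QuotientGroup.mk' C)).map
      (MulAut.conjNormal : G →* MulAut N)) := by
    rintro ⟨x, hx⟩
    obtain ⟨g', hg', rfl⟩ := hx
    obtain ⟨j, hj⟩ := hOpow g' hg'
    refine ⟨j, Subtype.ext ?_⟩
    show (MulAut.conjNormal g' : MulAut N) ^ q ^ j = 1
    rw [← map_pow, hρ1]
    exact hj
  obtain ⟨g, rfl⟩ := QuotientGroup.mk_surjective y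
  have hgÕ : g ∈ O.comap (QuotientGroup.mk' C) := hy
  by_cases hgC : g ∈ C
  · have h1 : (QuotientGroup.mk g : G ⧸ C) = 1 := (QuotientGroup.eq_one_iff g).mpr hgC
    rw [h1, map_one]
  -- `q ≠ p`
  have hqp : q ≠ p := by
    rintro rfl
    apply hgC
    obtain ⟨j, hj⟩ := hOpow g hgÕ
    have hj' : (QuotientGroup.mk g : G ⧸ C) ^ q ^ j = 1 := by
      rw [← QuotientGroup.mk_pow]
      exact (QuotientGroup.eq_one_iff _).mpr hj
    exact (QuotientGroup.eq_one_iff g).mp (eq_one_of_pow_prime_pow hp hpH hj')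
  -- `q ≠ r`
  have hqr : q ≠ r := by
    rintro rfl
    apply hgC
    have : Fact q.Prime := ⟨hq⟩
    have h1fix : (1 : N) ∈ MulAction.fixedPoints ((O.comap (QuotientGroup.mk' C)).map
        (MulAut.conjNormal : G →* MulAut N)) N := by
      rintro ⟨x, hx⟩
      exact map_one x
    obtain ⟨b, hb, hb1⟩ :=
      hQ_pgroup.exists_fixed_point_of_prime_dvd_card_of_fixed_point N hrN h1fix
    have hN₀ : N ⊓ Subgroup.centralizer ((O.comap (QuotientGroup.mk' C) : Subgroup G) : Set G)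
        = N := by
      have hÕmap : (O.comap (QuotientGroup.mk' C)).map (σ : G →* G)
          = O.comap (QuotientGroup.mk' C) := map_eq_of_forall_mem σ _ hÕσ
      have hcn := centralizer_normal (O.comap (QuotientGroup.mk' C))
      rcases hmin (N ⊓ Subgroup.centralizer ((O.comap (QuotientGroup.mk' C) : Subgroup G) : Set G))
        inferInstance inf_le_left
        (fun x hx => ⟨hσN x hx.1, centralizer_invariant σ _ hÕmap x hx.2⟩) with h | h
      · exfalso
        have hbmem : (b : G) ∈ N ⊓ Subgroup.centralizer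
            ((O.comap (QuotientGroup.mk' C) : Subgroup G) : Set G) := by
          refine Subgroup.mem_inf.mpr ⟨b.2, ?_⟩
          rw [Subgroup.mem_centralizer_iff]
          intro g' hg'
          have h3 := hb ⟨MulAut.conjNormal g', Subgroup.mem_map_of_mem _ hg'⟩
          have h2 : ((MulAut.conjNormal g' b : N) : G) = b := congrArg Subtype.val h3
          rw [MulAut.conjNormal_apply] at h2
          exact mul_inv_eq_iff_eq_mul.mp h2
        rw [h, Subgroup.mem_bot] at hbmem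
        exact hb1 (Subtype.ext hbmem.symm)
      · exact h
    rw [hCdef, Subgroup.mem_centralizer_iff]
    intro x hx
    have hx' : x ∈ Subgroup.centralizer ((O.comap (QuotientGroup.mk' C) : Subgroup G) : Set G) := by
      rw [← hN₀] at hx
      exact hx.2
    rw [Subgroup.mem_centralizer_iff] at hx'
    exact (hx' g hgÕ).symm
  have hpr : p ≠ r := by
    rintro rfl
    exact hpG (hrN.trans (Subgroup.card_subgroup_dvd_card N))
  -- apply the key proposition
  have hcomm := hK N (fun x y => Subtype.ext (hab x x.2 y y.2)) r q n hr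
    (fun x => Subtype.ext (by rw [Subgroup.coe_pow]; exact hexp x x.2)) hq hqp hqr hpr
    ((O.comap (QuotientGroup.mk' C)).map (MulAut.conjNormal : G →* MulAut N))
    (resAut σ N hmapN) hQ_pgroup
    (by
      ext x
      rw [res_pow_coe, hσ]
      rfl)
    (by
      rintro _ ⟨g', hg', rfl⟩
      rw [res_mul_conj, mul_inv_cancel_right]
      exact Subgroup.mem_map_of_mem _ (hÕσ g' hg'))
    (by
      rintro _ ⟨g', hg', rfl⟩ h
      rw [res_mul_conj] at h
      have h1 : (MulAut.conjNormal (σ g') : MulAut N) = MulAut.conjNormal g' := mul_right_cancel h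
      have h2 : (MulAut.conjNormal (g'⁻¹ * σ g') : MulAut N) = 1 := by
        rw [map_mul, map_inv, h1, inv_mul_cancel]
      rw [hρ1] at h2
      have h3 : quotAut σ C hC (QuotientGroup.mk g') = QuotientGroup.mk g' := by
        rw [quotAut_mk]
        exact (QuotientGroup.eq.mpr h2).symm
      have h4 := quotAut_fpf σ C hC hfpf _ h3
      exact (hρ1 g').mpr ((QuotientGroup.eq_one_iff g').mp h4))
    (resAut_fpf σ N hmapN hfpf)
    (MulAut.conjNormal g) (Subgroup.mem_map_of_mem _ hgÕ)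
  rw [res_pow_mul_conj] at hcomm
  have h1 : (MulAut.conjNormal ((σ ^ p ^ n) g) : MulAut N) = MulAut.conjNormal g :=
    mul_right_cancel hcomm
  have h2 : (MulAut.conjNormal (g⁻¹ * (σ ^ p ^ n) g) : MulAut N) = 1 := by
    rw [map_mul, map_inv, h1, inv_mul_cancel]
  rw [hρ1] at h2
  rw [quot_pow_mk]
  exact (QuotientGroup.eq.mpr h2).symm

/-- **Piece T-CENT of S3793.** -/
theorem gross_cent_of_aut {p : ℕ} (hp : p.Prime) (hK : GrossAutStmt.{u} p) :
    GrossCentStmt.{u} p := by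
  intro G _ _ hG σ n hσ hfpf ih N hNn hN0 hσN hmin g
  have hab := min_inv_abelian hG σ N hN0 hσN hmin
  obtain ⟨r, hr, hrN, hexp⟩ := min_inv_exponent σ N hN0 hσN hmin hab
  have hmapN : N.map (σ : G →* G) = N := map_eq_of_forall_mem σ N hσN
  have hCn : (Subgroup.centralizer (N : Set G)).Normal := centralizer_normal N
  have hC : (Subgroup.centralizer (N : Set G)).map (σ : G →* G)
      = Subgroup.centralizer (N : Set G) :=
    map_eq_of_forall_mem σ _ (centralizer_invariant σ N hmapN)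
  obtain ⟨C, hCdef⟩ : ∃ C : Subgroup G, C = Subgroup.centralizer (N : Set G) := ⟨_, rfl⟩
  rw [← hCdef] at hCn hC ⊢
  have hNC : N ≤ C := by
    intro x hx
    rw [hCdef, Subgroup.mem_centralizer_iff]
    intro y hy
    exact hab y hy x hx
  have hpG : ¬ p ∣ Nat.card G := fpf_not_dvd_card hp σ (n + 1) hσ hfpf
  have hpH : ¬ p ∣ Nat.card (G ⧸ C) := fun h =>
    hpG (h.trans (Subgroup.card_quotient_dvd_card C))
  have hσ' : (quotAut σ C hC : MulAut (G ⧸ C)) ^ p ^ (n + 1) = 1 :=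
    mulAut_pow_eq_one _ (quotAut_pow σ C hC (mulAut_iterate_eq_id σ hσ))
  have hfpf' : ∀ h : G ⧸ C, (quotAut σ C hC : MulAut (G ⧸ C)) h = h → h = 1 :=
    quotAut_fpf σ C hC hfpf
  have hcard : Nat.card (G ⧸ C) < Nat.card G := by
    rw [Subgroup.card_eq_card_quotient_mul_card_subgroup C]
    have h1 : 1 < Nat.card C :=
      C.one_lt_card_iff_ne_bot.mpr (fun h => hN0 (le_bot_iff.mp (h ▸ hNC)))
    have h2 : 0 < Nat.card (G ⧸ C) := Nat.card_pos
    nlinarith
  have hF := ih (G ⧸ C) hcard inferInstance (quotAut σ C hC) hσ' hfpf'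
  have hFfix : ∀ y ∈ Cfsg.fittingSubgroup (G ⧸ C),
      ((quotAut σ C hC : MulAut (G ⧸ C)) ^ p ^ n) y = y := by
    apply fix_of_fix_primary
    intro q hq y hy hyq
    have : Fact q.Prime := ⟨hq⟩
    obtain ⟨O, hO⟩ := exists_tPart (Cfsg.fittingSubgroup (G ⧸ C))
      Cfsg.Agent.Lib.Helper30.fitting_nilpotent q
    have hFn : (Cfsg.fittingSubgroup (G ⧸ C)).Normal := Cfsg.Agent.Lib.Helper30.fitting_normal
    have hOn : O.Normal := tPart_normal hO
    have hFmap : (Cfsg.fittingSubgroup (G ⧸ C)).map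
        ((quotAut σ C hC : G ⧸ C ≃* G ⧸ C) : G ⧸ C →* G ⧸ C) = Cfsg.fittingSubgroup (G ⧸ C) :=
      Cfsg.Agent.Lib.Helper30.fitting_map_equiv (quotAut σ C hC)
    have hOmap := tPart_map (quotAut σ C hC) hFmap hO
    exact fix_qpart hp hK σ n hσ hfpf N hσN hmin hab r hr hrN hexp C hCdef hC q hq O hOn
      hOmap (tPart_isPGroup hO) y ((hO y).mpr ⟨hy, hyq⟩)
  have hτp : ((quotAut σ C hC : MulAut (G ⧸ C)) ^ p ^ n) ^ p = 1 := by
    rw [← pow_mul, ← pow_succ]
    exact hσ'
  have hfix := fix_of_fix_sub hp hpH ((quotAut σ C hC : MulAut (G ⧸ C)) ^ p ^ n) hτp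
    (Cfsg.fittingSubgroup (G ⧸ C)) hF hFfix (QuotientGroup.mk g)
  rw [quot_pow_mk] at hfix
  exact QuotientGroup.eq.mp hfix.symm

end main

end Cfsg.Agent.Lib.Helper57.GrossCent
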