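import Cfsg.Agent.Lib.Helper27.ChevDyn
import Cfsg.Prelude.Def_ChevAutomorphisms
import Cfsg.Agent.Lib.Helper24.ChevCard
import Cfsg.Agent.Lib.Helper24.ChevGL

/-!
# Piece PT2 of the Chevalley automorphism project (helper57, job S2156 PT2)

`pieceT_ex`: every tuple `s : Fin D.rank → Fˣ` is realised by an element `h` of the diagonal
subgroup, acting on the root elements by `x_r(a) ↦ x_r((∏ j, s j ^ A_{j r}) a)`.
-/

set_option autoImplicit false

namespace Cfsg.Agent.Lib.Helper57.ChevDynP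

open Cfsg.Lie Cfsg.Agent.Lib.Helper27.ChevDyn Cfsg.Agent.Lib.Helper24

variable {F : Type*} [Field F] (D : ChevalleyDatum)

/-- The matrix of the chosen root element `xg D r a`. -/
theorem pt2_xg_val (hD : D ∈ lst) (r : ℕ) (a : F) :
    (((xg D r a : ↥(D.group F)) : GL D.Idx F) : Matrix D.Idx D.Idx F) = D.x F r a := by
  have hD' : D ∈ chevList := hD
  have hex : ∃ g : ↥(D.group F), ((g : GL D.Idx F) : Matrix D.Idx D.Idx F) = D.x F r a :=
    ⟨⟨xGL D hD' r a, xGL_mem_group D hD' r a⟩, xGL_val D hD' r a⟩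
  unfold xg
  rw [dif_pos hex]
  exact hex.choose_spec

/-- PT2: every such character is realised in `H` -/
theorem pieceT_ex (hD : D ∈ lst) (s : Fin D.rank → Fˣ) :
    ∃ h : ↥(D.group F), h ∈ Hg F D ∧ ∀ r, r < D.nroots → ∀ a : F,
      h * xg D r a * h⁻¹ =
        xg D r (((∏ j : Fin D.rank, s j ^ D.cartan j r : Fˣ) : F) * a) := by
  have hD' : D ∈ chevList := hD
  have hmemH : phi D s ∈ D.diagonalSubgroup F := by
    rw [← phi_range D hD']
    exact ⟨s, rfl⟩
  have hmemG : phi D s ∈ D.group F := diagonalSubgroup_le_group D hD' hmemH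
  obtain ⟨d, hd, hval⟩ := diagonalSubgroup_le_gradedTorus D hD' hmemH
  refine ⟨⟨phi D s, hmemG⟩, ?_, ?_⟩
  · exact Subgroup.mem_subgroupOf.mpr hmemH
  · intro r hr a
    have hdr : d r = ((∏ j : Fin D.rank, s j ^ D.cartan j r : Fˣ) : F) := by
      rw [← tprod_cext]
      have h1 : torus F D d = torus F D (tprod D (cext D s)) := by rw [← hval, phi_val]
      have h2 := congrFun (congrFun h1 (Sum.inr ⟨r, hr⟩)) (Sum.inr ⟨r, hr⟩)
      unfold torus at h2
      rw [Matrix.diagonal_apply_eq, Matrix.diagonal_apply_eq] at h2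
      exact h2
    rw [mul_inv_eq_iff_eq_mul]
    apply Subtype.ext
    apply Units.ext
    rw [Subgroup.coe_mul, Subgroup.coe_mul, Units.val_mul, Units.val_mul, pt2_xg_val D hD,
      pt2_xg_val D hD]
    show ((phi D s : GL D.Idx F) : Matrix D.Idx D.Idx F) * D.x F r a =
      D.x F r (((∏ j : Fin D.rank, s j ^ D.cartan j r : Fˣ) : F) * a) *
        ((phi D s : GL D.Idx F) : Matrix D.Idx D.Idx F)
    rw [hval, ← hdr]
    exact torus_mul_x D d hd r hr a

end Cfsg.Agent.Lib.Helper57.ChevDynP
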