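import Mathlib
import Cfsg.Prelude.Def_KGroupFacts
import Cfsg.Agent.Lib.Helper70.SchurLocal
import Cfsg.Agent.Lib.Helper35.J3MIDX2

set_option autoImplicit false

open scoped commutatorElement

universe u v

/-!
# S2041, piece J3M-ASM2 (for helper37), part a

`case_one` and the assembly `two_aux` for a stem extension whose kernel is `{1, z}`, with the
statement of J3M-CORE2 (`two_core`, for this `Γ` and `z`) as a hypothesis. The file
`J3MASM2.lean` plugs in the landed `two_core` and `exists_stem_ker_two`.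
-/

namespace Cfsg.Agent.Lib.Helper57.J3MASM2

theorem case_one {Γ : Type u} [Group Γ] (z a b c : Γ) (hzc : ∀ g : Γ, z * g = g * z)
    (ha : a * a = z) (hb : b * b = z) (hc : c * c = z) (hab : a * b * (a * b) = z)
    (hac : a * c * (a * c) = z) (hbc : b * c * (b * c) = z) (habc : a * b * c * (a * b * c) = z) :
    z = 1 := by
  have swap : ∀ p q : Γ, p * p = z → q * q = z → p * q * (p * q) = z → z * (q * p) = p * q := by
    intro p q hp hq hpq
    have h1 : p * (p * q * (p * q)) * q = p * z * q := by rw [hpq]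
    have h2 : p * (p * q * (p * q)) * q = (p * p) * (q * p) * (q * q) := by simp only [mul_assoc]
    rw [h2, hp, hq] at h1
    have h3 : p * z * q = z * (p * q) := by rw [← hzc p, mul_assoc]
    rw [h3, mul_assoc] at h1
    have h4 := mul_left_cancel h1
    rw [hzc]; exact h4
  have hba := swap a b ha hb hab
  have hca := swap a c ha hc hac
  have hcb := swap b c hb hc hbc
  -- z * z * z * (a b c a b c) = a a b b c c
  have key : z * (z * (z * (a * b * c * (a * b * c)))) = (a * a) * (b * b) * (c * c) := by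
    calc z * (z * (z * (a * b * c * (a * b * c))))
        = z * (z * (a * b * (z * (c * a)) * b * c)) := by
          congr 2
          rw [hzc (c * a)]
          simp only [mul_assoc]
          rw [← mul_assoc a, ← mul_assoc (a * b), ← mul_assoc (a * b * c), ← mul_assoc z, hzc]
          simp only [mul_assoc]
      _ = z * (z * (a * b * (a * c) * b * c)) := by rw [hca]
      _ = z * (a * (z * (b * a)) * c * b * c) := by
          congr 1
          rw [← mul_assoc a z, ← hzc a]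
          simp only [mul_assoc]
      _ = z * (a * (a * b) * c * b * c) := by rw [hba]
      _ = a * a * b * (z * (c * b)) * c := by
          rw [← mul_assoc (a * a * b) z, ← hzc (a * a * b)]
          simp only [mul_assoc]
      _ = a * a * b * (b * c) * c := by rw [hcb]
      _ = (a * a) * (b * b) * (c * c) := by simp only [mul_assoc]
  rw [habc, ha, hb, hc] at key
  -- z * (z * (z * z)) = z * z * z
  have h5 : z * (z * (z * z)) = z * (z * (z * 1)) := by rw [key]; simp only [mul_assoc, mul_one]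
  exact mul_left_cancel (mul_left_cancel (mul_left_cancel h5))

theorem xor16_self : ∀ i : Fin 16, i ^^^ i = 0 := by decide
theorem xor16_comm : ∀ i j : Fin 16, i ^^^ j = j ^^^ i := by decide
theorem xor16_eq_zero : ∀ i j : Fin 16, i ^^^ j = 0 → i = j := by decide

theorem e_facts {G : Type v} [Group G] (e : Fin 16 → G) (he1 : ∀ i, e i = 1 → i = 0)
    (hmul : ∀ i j, e i * e j = e (i ^^^ j)) :
    e 0 = 1 ∧ (∀ i, e i * e i = 1) ∧ Function.Injective e ∧ (∀ i j, e i * e j = e j * e i) := by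
  have h0 : e 0 = 1 := by
    have h := hmul 0 0
    rw [xor16_self] at h
    exact mul_eq_left.mp h
  have hsq : ∀ i, e i * e i = 1 := fun i => by rw [hmul, xor16_self, h0]
  refine ⟨h0, hsq, ?_, ?_⟩
  · intro i j hij
    apply xor16_eq_zero
    apply he1
    rw [← hmul, hij, hsq]
  · intro i j
    rw [hmul, hmul, xor16_comm]

theorem two_aux {Γ : Type u} {G : Type v} [Group Γ] [Group G] [Finite Γ] (σ : Γ →* G)
    (hσ : Cfsg.IsStemExtension σ) (z : Γ) (hz1 : z ≠ 1) (hzz : z * z = 1)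
    (hker : ∀ k : Γ, k ∈ σ.ker ↔ (k = 1 ∨ k = z))
    (hcore : ∀ (F₁ F₂ : Subgroup Γ) (c x : Γ) (_ : z ∈ F₁) (_ : z ∈ F₂)
      (_ : ∀ g ∈ F₁, g * g = 1) (_ : ∀ g ∈ F₂, g * g = 1)
      (_ : ∀ g ∈ F₁, x * g * x⁻¹ ∈ F₂) (_ : ∀ g ∈ F₂, x * g * x⁻¹ ∈ F₁)
      (_ : ∀ g ∈ F₁, ∀ f ∈ F₂, f * g * f⁻¹ ∈ F₁)
      (_ : x * x ∈ F₁ ⊔ F₂)
      (_ : ∀ w ∈ F₁, w ∈ F₂ → ∃ g ∈ F₁, ∃ f ∈ F₂,
        w = g * f * g⁻¹ * f⁻¹ ∨ w = z * (g * f * g⁻¹ * f⁻¹))
      (_ : ∀ g ∈ F₁, c * g * c⁻¹ ∈ F₁)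
      (_ : ∀ g ∈ F₁, (c * c * c) * g = g * (c * c * c))
      (_ : ∀ g ∈ F₁, g * (c * g * c⁻¹) * (c * (c * g * c⁻¹) * c⁻¹) = 1 ∨
        g * (c * g * c⁻¹) * (c * (c * g * c⁻¹) * c⁻¹) = z)
      (_ : ∀ f ∈ F₂, c * f * c⁻¹ * f⁻¹ ∈ F₁),
      z ∉ ⁅F₁ ⊔ F₂ ⊔ Subgroup.zpowers x, F₁ ⊔ F₂ ⊔ Subgroup.zpowers x⁆)
    (m : ℕ) (hG : Nat.card G = 2 ^ 7 * m) (hm : ¬ 2 ∣ m)
    (hconj : ∀ g h : G, g ≠ 1 → g * g = 1 → h ≠ 1 → h * h = 1 → ∃ k : G, k * g * k⁻¹ = h)
    (e : Fin 16 → G) (c x : G) (γ ρ τ : Fin 16 → Fin 16) (ν : Fin 16 → Fin 16 → Fin 16)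
    (p q : Fin 16)
    (he1 : ∀ i, e i = 1 → i = 0)
    (hmul : ∀ i j, e i * e j = e (i ^^^ j))
    (hc3 : c * c * c = 1)
    (hc : ∀ i, c * e i * c⁻¹ = e (γ i))
    (hfpf : ∀ i, i ^^^ γ i ^^^ γ (γ i) = 0)
    (hx2 : ∀ i, (x * x) * e i * (x * x)⁻¹ = e (ρ i))
    (hν : ∀ j i, (x * e j * x⁻¹) * e i * (x * e j * x⁻¹)⁻¹ = e (ν j i))
    (hxx : x * x = e p * (x * e q * x⁻¹))
    (hτ : ∀ j, c * (x * e j * x⁻¹) * c⁻¹ * (x * e j * x⁻¹)⁻¹ = e (τ j))
    (hZ : ∀ i, (∃ j, ν j i ≠ i) ∨ (∃ k l, i = k ^^^ ν l k))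
    (hZc : (Finset.univ.filter (fun i : Fin 16 => ∀ j, ν j i = i)).card ≤ 4) : False := by
  classical
  obtain ⟨hsurj, hcen, hcomm⟩ := hσ
  have : Finite G := Finite.of_surjective σ hsurj
  obtain ⟨he0, hesq, heinj, hecomm⟩ := e_facts e he1 hmul
  have hzk : z ∈ σ.ker := (hker z).mpr (Or.inr rfl)
  have hσz : σ z = 1 := hzk
  have hzc : z ∈ Subgroup.center Γ := hcen hzk
  have hzcomm : ∀ g : Γ, g * z = z * g := fun g => Subgroup.mem_center_iff.mp hzc g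
  have hk2 : ∀ w : Γ, σ w = 1 → w = 1 ∨ w = z := fun w hw => (hker w).mp hw
  have hkc : ∀ w : Γ, σ w = 1 → ∀ g : Γ, g * w = w * g := fun w hw g =>
    Subgroup.mem_center_iff.mp (hcen hw) g
  have hlift : ∀ a b : Γ, σ a = σ b → a = b ∨ a = z * b := by
    intro a b hab
    have h : σ (a * b⁻¹) = 1 := by rw [map_mul, map_inv, hab, mul_inv_cancel]
    rcases hk2 _ h with h | h
    · left; exact mul_inv_eq_one.mp h
    · right; exact mul_inv_eq_iff_eq_mul.mp h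
  have hinv0 : ∀ i : Fin 16, i ≠ 0 → e i ≠ 1 := fun i hi h => hi (he1 i h)
  obtain ⟨a₀, ha₀⟩ := hsurj (e 1)
  have hs₀ : σ (a₀ * a₀) = 1 := by rw [map_mul, ha₀, hesq]
  have hsq : ∀ b : Γ, σ b ≠ 1 → σ b * σ b = 1 → b * b = a₀ * a₀ := by
    intro b hb1 hb2
    obtain ⟨k, hk⟩ := hconj (e 1) (σ b) (hinv0 1 (by decide)) (hesq 1) hb1 hb2
    obtain ⟨k', hk'⟩ := hsurj k
    have h1 : σ b = σ (k' * a₀ * k'⁻¹) := by rw [map_mul, map_mul, map_inv, hk', ha₀, hk]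
    have hconjsq : (k' * a₀ * k'⁻¹) * (k' * a₀ * k'⁻¹) = a₀ * a₀ := by
      have : (k' * a₀ * k'⁻¹) * (k' * a₀ * k'⁻¹) = k' * (a₀ * a₀) * k'⁻¹ := by group
      rw [this, hkc _ hs₀ k', mul_inv_cancel_right]
    rcases hlift _ _ h1 with h | h
    · rw [h, hconjsq]
    · rw [h]
      have : z * (k' * a₀ * k'⁻¹) * (z * (k' * a₀ * k'⁻¹))
          = (z * z) * ((k' * a₀ * k'⁻¹) * (k' * a₀ * k'⁻¹)) := by
        rw [mul_assoc, ← mul_assoc (k' * a₀ * k'⁻¹) z, hzcomm]; simp only [mul_assoc]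
      rw [this, hzz, one_mul, hconjsq]
  rcases hk2 _ hs₀ with hs | hs
  swap
  · apply hz1
    obtain ⟨a, ha⟩ := hsurj (e 1)
    obtain ⟨b, hb⟩ := hsurj (e 2)
    obtain ⟨c', hc'⟩ := hsurj (e 4)
    rw [hs] at hsq
    have hsq' : ∀ (w : Γ) (i : Fin 16), σ w = e i → i ≠ 0 → w * w = z := fun w i hw hi =>
      hsq w (by rw [hw]; exact hinv0 i hi) (by rw [hw]; exact hesq i)
    exact case_one z a b c' (fun g => (hzcomm g).symm) (hsq' a 1 ha (by decide))
      (hsq' b 2 hb (by decide)) (hsq' c' 4 hc' (by decide))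
      (hsq' (a * b) (1 ^^^ 2) (by rw [map_mul, ha, hb, hmul]) (by decide))
      (hsq' (a * c') (1 ^^^ 4) (by rw [map_mul, ha, hc', hmul]) (by decide))
      (hsq' (b * c') (2 ^^^ 4) (by rw [map_mul, hb, hc', hmul]) (by decide))
      (hsq' (a * b * c') (1 ^^^ 2 ^^^ 4) (by rw [map_mul, map_mul, ha, hb, hc', hmul, hmul])
        (by decide))
  rw [hs] at hsq
  have hsq1 : ∀ b : Γ, σ b * σ b = 1 → b * b = 1 := by
    intro b hb
    by_cases hb1 : σ b = 1
    · rcases hk2 b hb1 with h | h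
      · rw [h, one_mul]
      · rw [h, hzz]
    · exact hsq b hb1 hb
  obtain ⟨E₁, hE₁⟩ : ∃ E₁ : Subgroup G, ∀ g, g ∈ E₁ ↔ ∃ i, e i = g :=
    ⟨{ carrier := Set.range e
       mul_mem' := by
         rintro _ _ ⟨i, rfl⟩ ⟨j, rfl⟩
         exact ⟨i ^^^ j, (hmul i j).symm⟩
       one_mem' := ⟨0, he0⟩
       inv_mem' := by
         rintro _ ⟨i, rfl⟩
         exact ⟨i, (inv_eq_of_mul_eq_one_right (hesq i)).symm⟩ }, fun g => Iff.rfl⟩
  obtain ⟨E₂, hE₂⟩ : ∃ E₂ : Subgroup G, ∀ g, g ∈ E₂ ↔ ∃ j, x * e j * x⁻¹ = g := by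
    refine ⟨E₁.map (MulAut.conj x).toMonoidHom, fun g => ?_⟩
    rw [Subgroup.mem_map]
    constructor
    · rintro ⟨y, hy, rfl⟩
      obtain ⟨j, rfl⟩ := (hE₁ y).mp hy
      exact ⟨j, rfl⟩
    · rintro ⟨j, rfl⟩
      exact ⟨e j, (hE₁ _).mpr ⟨j, rfl⟩, rfl⟩
  have hE₁mem : ∀ i, e i ∈ E₁ := fun i => (hE₁ _).mpr ⟨i, rfl⟩
  have hE₂mem : ∀ j, x * e j * x⁻¹ ∈ E₂ := fun j => (hE₂ _).mpr ⟨j, rfl⟩
  obtain ⟨c', hc'⟩ := hsurj c
  obtain ⟨x', hx'⟩ := hsurj x
  have hF₁ : ∀ g : Γ, g ∈ E₁.comap σ ↔ ∃ i, e i = σ g := fun g => by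
    rw [Subgroup.mem_comap, hE₁]
  have hF₂ : ∀ g : Γ, g ∈ E₂.comap σ ↔ ∃ j, x * e j * x⁻¹ = σ g := fun g => by
    rw [Subgroup.mem_comap, hE₂]
  have hkerF₁ : σ.ker ≤ E₁.comap σ := fun w hw => by
    rw [Subgroup.mem_comap, MonoidHom.mem_ker.mp hw]; exact E₁.one_mem
  have hE₂sq : ∀ j, (x * e j * x⁻¹) * (x * e j * x⁻¹) = 1 := by
    intro j
    have : (x * e j * x⁻¹) * (x * e j * x⁻¹) = x * (e j * e j) * x⁻¹ := by group
    rw [this, hesq, mul_one, mul_inv_cancel]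
  have hE₂comm : ∀ j l,
      (x * e j * x⁻¹) * (x * e l * x⁻¹) = (x * e l * x⁻¹) * (x * e j * x⁻¹) := by
    intro j l
    have h1 : (x * e j * x⁻¹) * (x * e l * x⁻¹) = x * (e j * e l) * x⁻¹ := by group
    have h2 : (x * e l * x⁻¹) * (x * e j * x⁻¹) = x * (e l * e j) * x⁻¹ := by group
    rw [h1, h2, hecomm]
  have hcore' := hcore (E₁.comap σ) (E₂.comap σ) c' x'
    (by rw [Subgroup.mem_comap, hσz]; exact E₁.one_mem)
    (by rw [Subgroup.mem_comap, hσz]; exact E₂.one_mem)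
    (by
      intro g hg
      obtain ⟨i, hi⟩ := (hF₁ g).mp hg
      apply hsq1; rw [← hi]; exact hesq i)
    (by
      intro g hg
      obtain ⟨j, hj⟩ := (hF₂ g).mp hg
      apply hsq1; rw [← hj]; exact hE₂sq j)
    (by
      intro g hg
      obtain ⟨i, hi⟩ := (hF₁ g).mp hg
      rw [hF₂]
      exact ⟨i, by rw [map_mul, map_mul, map_inv, hx', hi]⟩)
    (by
      intro g hg
      obtain ⟨j, hj⟩ := (hF₂ g).mp hg
      rw [hF₁]
      refine ⟨ρ j, ?_⟩
      rw [map_mul, map_mul, map_inv, hx', ← hj, ← hx2]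
      group)
    (by
      intro g hg f hf
      obtain ⟨i, hi⟩ := (hF₁ g).mp hg
      obtain ⟨j, hj⟩ := (hF₂ f).mp hf
      rw [hF₁]
      exact ⟨ν j i, by rw [map_mul, map_mul, map_inv, ← hi, ← hj, hν]⟩)
    (by
      obtain ⟨g, hg⟩ := hsurj (e p)
      obtain ⟨f, hf⟩ := hsurj (x * e q * x⁻¹)
      have hgF : g ∈ E₁.comap σ := (hF₁ g).mpr ⟨p, hg.symm⟩
      have hfF : f ∈ E₂.comap σ := (hF₂ f).mpr ⟨q, hf.symm⟩
      have h : σ (x' * x') = σ (g * f) := by rw [map_mul, map_mul, hx', hg, hf, hxx]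
      have hgf : g * f ∈ E₁.comap σ ⊔ E₂.comap σ :=
        Subgroup.mul_mem _ (Subgroup.mem_sup_left hgF) (Subgroup.mem_sup_right hfF)
      rcases hlift _ _ h with h | h
      · rw [h]; exact hgf
      · rw [h]
        exact Subgroup.mul_mem _ (Subgroup.mem_sup_left (hkerF₁ hzk)) hgf)
    (by
      intro w hw1 hw2
      obtain ⟨i, hi⟩ := (hF₁ w).mp hw1
      obtain ⟨j', hj'⟩ := (hF₂ w).mp hw2
      have hfix : ∀ j, ν j i = i := by
        intro j
        apply heinj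
        rw [← hν, hi, ← hj', hE₂comm, mul_inv_cancel_right]
      rcases hZ i with ⟨j, hj⟩ | ⟨k, l, hkl⟩
      · exact absurd (hfix j) hj
      · obtain ⟨g, hg⟩ := hsurj (e k)
        obtain ⟨f, hf⟩ := hsurj (x * e l * x⁻¹)
        refine ⟨g, (hF₁ g).mpr ⟨k, hg.symm⟩, f, (hF₂ f).mpr ⟨l, hf.symm⟩, ?_⟩
        apply hlift
        rw [← hi, hkl, ← hmul, ← hν, map_mul, map_mul, map_mul, map_inv, map_inv, hg, hf,
          inv_eq_of_mul_eq_one_right (hesq k)]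
        simp only [mul_assoc])
    (by
      intro g hg
      obtain ⟨i, hi⟩ := (hF₁ g).mp hg
      rw [hF₁]
      exact ⟨γ i, by rw [map_mul, map_mul, map_inv, hc', ← hi, hc]⟩)
    (by
      intro g _
      have : σ (c' * c' * c') = 1 := by rw [map_mul, map_mul, hc', hc3]
      exact (hkc _ this g).symm)
    (by
      intro g hg
      obtain ⟨i, hi⟩ := (hF₁ g).mp hg
      apply hk2
      simp only [map_mul, map_inv, hc', ← hi, hc, hmul, hfpf, he0])
    (by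
      intro f hf
      obtain ⟨j, hj⟩ := (hF₂ f).mp hf
      rw [hF₁]
      exact ⟨τ j, by rw [map_mul, map_mul, map_mul, map_inv, map_inv, hc', ← hj, hτ]⟩)
  have hidx := Cfsg.Agent.Lib.Helper35.J3MIDX2.sylow_index E₁ E₂ x m hG hm
    (by
      have : Nat.card E₁ = Nat.card (Fin 16) := by
        refine (Nat.card_congr (Equiv.ofBijective
          (fun i : Fin 16 => (⟨e i, hE₁mem i⟩ : E₁)) ⟨?_, ?_⟩)).symm
        · intro i j hij
          exact heinj (congrArg Subtype.val hij)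
        · rintro ⟨g, hg⟩
          obtain ⟨i, rfl⟩ := (hE₁ g).mp hg
          exact ⟨i, rfl⟩
      rw [this, Nat.card_fin])
    (by
      intro g hg
      obtain ⟨i, rfl⟩ := (hE₁ g).mp hg
      exact hE₂mem i)
    (by
      intro g hg
      obtain ⟨j, rfl⟩ := (hE₂ g).mp hg
      rw [hE₁]
      refine ⟨ρ j, ?_⟩
      rw [← hx2]; group)
    (by
      intro g hg f hf
      obtain ⟨i, rfl⟩ := (hE₁ g).mp hg
      obtain ⟨j, rfl⟩ := (hE₂ f).mp hf
      rw [hν]; exact hE₁mem _)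
    (by
      rw [hxx]
      exact Subgroup.mul_mem _ (Subgroup.mem_sup_left (hE₁mem p))
        (Subgroup.mem_sup_right (hE₂mem q)))
    (by
      have hsub : ((E₁ ⊓ E₂ : Subgroup G) : Set G) ⊆
          ↑(Finset.image e (Finset.univ.filter (fun i : Fin 16 => ∀ j, ν j i = i))) := by
        intro g hg
        obtain ⟨hg1, hg2⟩ := Subgroup.mem_inf.mp hg
        obtain ⟨i, rfl⟩ := (hE₁ g).mp hg1
        obtain ⟨j', hj'⟩ := (hE₂ _).mp hg2
        rw [Finset.mem_coe, Finset.mem_image]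
        refine ⟨i, ?_, rfl⟩
        rw [Finset.mem_filter]
        refine ⟨Finset.mem_univ _, fun j => ?_⟩
        apply heinj
        rw [← hν, ← hj', hE₂comm, mul_inv_cancel_right]
      calc Nat.card ↥(E₁ ⊓ E₂) = Set.ncard ((E₁ ⊓ E₂ : Subgroup G) : Set G) := rfl
        _ ≤ Set.ncard (↑(Finset.image e
              (Finset.univ.filter (fun i : Fin 16 => ∀ j, ν j i = i))) : Set G) :=
            Set.ncard_le_ncard hsub (Finset.finite_toSet _)
        _ = (Finset.image e (Finset.univ.filter (fun i : Fin 16 => ∀ j, ν j i = i))).card :=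
            Set.ncard_coe_finset _
        _ ≤ (Finset.univ.filter (fun i : Fin 16 => ∀ j, ν j i = i)).card :=
            Finset.card_image_le
        _ ≤ 4 := hZc)
  have htr := Cfsg.Agent.Lib.Helper70.pow_index_mem_commutator_comap σ hsurj hcen hcomm
    (E₁ ⊔ E₂ ⊔ Subgroup.zpowers x) hzk
  have hodd : z ^ (E₁ ⊔ E₂ ⊔ Subgroup.zpowers x).index = z := by
    have h2 : (E₁ ⊔ E₂ ⊔ Subgroup.zpowers x).index % 2 = 1 := by omega
    rw [← Nat.div_add_mod (E₁ ⊔ E₂ ⊔ Subgroup.zpowers x).index 2, h2, pow_add, pow_mul,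
      pow_two, hzz, one_pow, one_mul, pow_one]
  rw [hodd] at htr
  have hcomap : (E₁ ⊔ E₂ ⊔ Subgroup.zpowers x).comap σ
      = E₁.comap σ ⊔ E₂.comap σ ⊔ Subgroup.zpowers x' := by
    rw [← Subgroup.comap_sup_eq σ _ _ hsurj, ← Subgroup.comap_sup_eq σ _ _ hsurj]
    have hzp : (Subgroup.zpowers x).comap σ = Subgroup.zpowers x' ⊔ σ.ker := by
      rw [← hx', ← MonoidHom.map_zpowers, Subgroup.comap_map_eq]
    rw [hzp]
    apply le_antisymm
    · refine sup_le le_sup_left (sup_le le_sup_right ?_)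
      exact hkerF₁.trans (le_sup_left.trans le_sup_left)
    · exact sup_le le_sup_left (le_sup_left.trans le_sup_right)
  rw [hcomap] at htr
  exact hcore' htr

end Cfsg.Agent.Lib.Helper57.J3MASM2
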