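import Mathlib
import Cfsg.Prelude.Def_KGroupFacts
import Cfsg.Agent.Lib.Helper70.SchurLocal
import Cfsg.Agent.Lib.Helper77.J3MCORE2
import Cfsg.Agent.Lib.Helper35.J3MIDX2
import Cfsg.Agent.Lib.Helper67.J3MRED2
import Cfsg.Agent.Lib.Helper57.J3MASM2a

set_option autoImplicit false

open scoped commutatorElement

universe u v

/-!
# S2041, piece J3M-ASM2 (for helper37): the prime 2

`two_part`: from the table-level hypotheses, 2 does not divide the order of the kernel of any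
finite stem extension. `case_one` (and the assembly `two_aux`) are in `J3MASM2a.lean`, in the
same namespace.
-/

namespace Cfsg.Agent.Lib.Helper57.J3MASM2

theorem two_part {Γ : Type u} {G : Type v} [Group Γ] [Group G] [Finite Γ] (σ : Γ →* G)
    (hσ : Cfsg.IsStemExtension σ) (m : ℕ) (hG : Nat.card G = 2 ^ 7 * m) (hm : ¬ 2 ∣ m)
    (hconj : ∀ g h : G, g ≠ 1 → g * g = 1 → h ≠ 1 → h * h = 1 → ∃ k : G, k * g * k⁻¹ = h)
    (e : Fin 16 → G) (c x : G) (γ ρ τ : Fin 16 → Fin 16) (ν : Fin 16 → Fin 16 → Fin 16)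
    (p q : Fin 16)
    (he1 : ∀ i, e i = 1 → i = 0)
    (hmul : ∀ i j, e i * e j = e (i ^^^ j))
    (hc3 : c * c * c = 1)
    (hc : ∀ i, c * e i * c⁻¹ = e (γ i))
    (hfpf : ∀ i, i ^^^ γ i ^^^ γ (γ i) = 0)
    (hx2 : ∀ i, (x * x) * e i * (x * x)⁻¹ = e (ρ i))
    (hν : ∀ j i, (x * e j * x⁻¹) * e i * (x * e j * x⁻¹)⁻¹ = e (ν j i))
    (hxx : x * x = e p * (x * e q * x⁻¹))
    (hτ : ∀ j, c * (x * e j * x⁻¹) * c⁻¹ * (x * e j * x⁻¹)⁻¹ = e (τ j))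
    (hZ : ∀ i, (∃ j, ν j i ≠ i) ∨ (∃ k l, i = k ^^^ ν l k))
    (hZc : (Finset.univ.filter (fun i : Fin 16 => ∀ j, ν j i = i)).card ≤ 4) :
    ¬ 2 ∣ Nat.card σ.ker := by
  intro h2
  obtain ⟨Γ₁, _, _, σ₁, z, hσ₁, hz1, hzz, hker⟩ :=
    Cfsg.Agent.Lib.Helper67.J3MRED2.exists_stem_ker_two σ hσ h2
  exact two_aux σ₁ hσ₁ z hz1 hzz hker
    (fun F₁ F₂ c x => Cfsg.Agent.Lib.Helper77.J3MCORE2.two_core z
      (hσ₁.2.1 ((hker z).mpr (Or.inr rfl))) hz1 F₁ F₂ c x)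
    m hG hm hconj e c x γ ρ τ ν p q he1 hmul hc3 hc hfpf hx2 hν hxx hτ hZ hZc

end Cfsg.Agent.Lib.Helper57.J3MASM2
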