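import Mathlib
import Cfsg.Agent.Lib.Helper40.PLenDefs
import Cfsg.Agent.Lib.Helper14.QuadCore
import Cfsg.Agent.Lib.Helper40.HallHigman

set_option autoImplicit false

/-! S3789 piece Q1 (job of helper40): a quadratically acting element centralizes, on an
invariant subgroup `U`, every `q`-subgroup it normalizes (`q ≠ p`; abelian on `U` if `q = 2`).
helper57. -/

namespace Cfsg.Agent.Lib.Helper57

open Cfsg Cfsg.Agent.Lib.Helper40.PLen

universe u

/-- Step 1: the statement inside `MulAut B`. -/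
theorem q1_core {B : Type u} [CommGroup B] [Finite B] {p : ℕ} [Fact p.Prime] (hp2 : p ≠ 2)
    (hB : ∀ v : B, v ^ p = 1) (E' : Subgroup (MulAut B)) (q : ℕ) (hq : q.Prime) (hqp : q ≠ p)
    (hE : IsPGroup q E') (a' : MulAut B) (hnorm : ∀ e ∈ E', a' * e * a'⁻¹ ∈ E')
    (hquad : ∀ v : B, a' (a' v / v) = a' v / v)
    (hcomm : q = 2 → ∀ e₁ ∈ E', ∀ e₂ ∈ E', e₁ * e₂ = e₂ * e₁) :
    ∀ e ∈ E', a' * e = e * a' := by
  classical
  have hp : p.Prime := Fact.out
  have hfin : Finite (MulAut B) := inferInstance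
  set Γ : Subgroup (MulAut B) := E' ⊔ Subgroup.zpowers a' with hΓ
  have hEΓ : E' ≤ Γ := le_sup_left
  have haΓ : a' ∈ Γ := (le_sup_right : Subgroup.zpowers a' ≤ Γ) (Subgroup.mem_zpowers a')
  let θ : ↥Γ →* MulAut B := Γ.subtype
  have hθ : ∀ g : ↥Γ, θ g = 1 → g = 1 := fun g hg => Subtype.ext hg
  let a'' : ↥Γ := ⟨a', haΓ⟩
  have ha'' : ∀ v : B, θ a'' (θ a'' v / v) = θ a'' v / v := hquad
  have hap : a'' ^ p = 1 := Cfsg.Agent.Lib.Helper14.quad_pow_p hB θ hθ a'' ha''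
  -- `E'` is normal in `Γ`
  have haN : a' ∈ Subgroup.normalizer (E' : Set (MulAut B)) :=
    Subgroup.mem_normalizer_fintype (fun n hn => hnorm n hn)
  have hΓN : Γ ≤ Subgroup.normalizer (E' : Set (MulAut B)) := by
    rw [hΓ]
    refine sup_le Subgroup.le_normalizer ?_
    rw [Subgroup.zpowers_le]
    exact haN
  have hE''n : (E'.subgroupOf Γ).Normal := Subgroup.normal_subgroupOf_of_le_normalizer hΓN
  -- every `p`-th power lies in `E'`
  have hpow : ∀ g : ↥Γ, (QuotientGroup.mk' (E'.subgroupOf Γ) g) ^ p = 1 := by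
    intro g
    set mk := QuotientGroup.mk' (E'.subgroupOf Γ) with hmk
    set K : Subgroup ↥Γ := (Subgroup.zpowers (mk a'')).comap mk with hK
    have h1 : Γ ≤ K.map Γ.subtype := by
      refine sup_le (a := E') (b := Subgroup.zpowers a') ?_ ?_
      · intro e he
        refine ⟨⟨e, hEΓ he⟩, ?_, rfl⟩
        change mk ⟨e, hEΓ he⟩ ∈ Subgroup.zpowers (mk a'')
        have : mk ⟨e, hEΓ he⟩ = 1 := by
          rw [hmk, QuotientGroup.mk'_apply, QuotientGroup.eq_one_iff]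
          exact he
        rw [this]
        exact one_mem _
      · rw [Subgroup.zpowers_le]
        exact ⟨a'', Subgroup.mem_zpowers (mk a''), rfl⟩
    obtain ⟨k, hk, hkg⟩ := h1 g.2
    have hkg' : k = g := Subtype.ext hkg
    rw [hkg'] at hk
    obtain ⟨i, hi⟩ := Subgroup.mem_zpowers_iff.mp hk
    rw [← hi, ← zpow_natCast, ← zpow_mul, mul_comm, zpow_mul, zpow_natCast, ← map_pow, hap,
      map_one, one_zpow]
  -- elements of `2`-power order lie in `E'`
  have h2E : ∀ (t : ↥Γ) (k : ℕ), t ^ 2 ^ k = 1 → (t : MulAut B) ∈ E' := by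
    intro t k htk
    have h1 : (QuotientGroup.mk' (E'.subgroupOf Γ) t) ^ 2 ^ k = 1 := by
      rw [← map_pow, htk, map_one]
    have h2 := pow_gcd_eq_one.mpr ⟨h1, hpow t⟩
    have hcop : Nat.Coprime (2 ^ k) p := by
      apply Nat.Coprime.pow_left
      exact (Nat.coprime_primes Nat.prime_two hp).mpr (Ne.symm hp2)
    rw [hcop, pow_one, QuotientGroup.mk'_apply, QuotientGroup.eq_one_iff] at h2
    exact h2
  obtain ⟨T⟩ := (inferInstance : Nonempty (Sylow 2 ↥Γ))
  have hT : ∀ x ∈ T, ∀ y ∈ T, x * y = y * x := by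
    intro x hx y hy
    obtain ⟨kx, hkx⟩ := T.isPGroup' ⟨x, hx⟩
    obtain ⟨ky, hky⟩ := T.isPGroup' ⟨y, hy⟩
    have hkx' : x ^ 2 ^ kx = 1 := by
      have := congrArg Subtype.val hkx
      simpa using this
    have hky' : y ^ 2 ^ ky = 1 := by
      have := congrArg Subtype.val hky
      simpa using this
    have hxE := h2E x kx hkx'
    have hyE := h2E y ky hky'
    by_cases hq2 : q = 2
    · exact Subtype.ext (hcomm hq2 _ hxE _ hyE)
    · have hx1 : x = 1 := by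
        obtain ⟨m, hm⟩ := hE ⟨x, hxE⟩
        have hm' : (x : MulAut B) ^ q ^ m = 1 := by
          have := congrArg Subtype.val hm
          simpa using this
        have hkx'' : (x : MulAut B) ^ 2 ^ kx = 1 := by
          have := congrArg Subtype.val hkx'
          simpa using this
        have h3 := pow_gcd_eq_one.mpr ⟨hm', hkx''⟩
        have hcop : Nat.Coprime (q ^ m) (2 ^ kx) := by
          apply Nat.Coprime.pow
          exact (Nat.coprime_primes hq Nat.prime_two).mpr hq2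
        rw [hcop, pow_one] at h3
        exact Subtype.ext h3
      rw [hx1, one_mul, mul_one]
  have haN' : a'' ∈ pCore p ↥Γ :=
    Cfsg.Agent.Lib.Helper14.quad_mem_pCore hp2 hB θ hθ a'' ha'' T hT
  have hNn : (pCore p ↥Γ).Normal := Cfsg.Agent.Lib.Helper40.pCore_normal' p
  have hNp : IsPGroup p ↥(pCore p ↥Γ) := Cfsg.Agent.Lib.Helper40.pCore_isPGroup' p
  intro e he
  set e'' : ↥Γ := ⟨e, hEΓ he⟩ with he''
  have hc : a'' * e'' * a''⁻¹ * e''⁻¹ ∈ pCore p ↥Γ := by
    have h1 : e'' * a''⁻¹ * e''⁻¹ ∈ pCore p ↥Γ := hNn.conj_mem _ (inv_mem haN') e''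
    have h2 := mul_mem haN' h1
    have h3 : a'' * (e'' * a''⁻¹ * e''⁻¹) = a'' * e'' * a''⁻¹ * e''⁻¹ := by group
    rw [h3] at h2
    exact h2
  have hcE : a' * e * a'⁻¹ * e⁻¹ ∈ E' := mul_mem (hnorm e he) (inv_mem he)
  obtain ⟨k, hk⟩ := hNp ⟨_, hc⟩
  have hk' : (a' * e * a'⁻¹ * e⁻¹) ^ p ^ k = 1 := by
    have := congrArg (fun z : ↥(pCore p ↥Γ) => ((z : ↥Γ) : MulAut B)) hk
    simpa using this
  obtain ⟨m, hm⟩ := hE ⟨_, hcE⟩
  have hm' : (a' * e * a'⁻¹ * e⁻¹) ^ q ^ m = 1 := by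
    have := congrArg Subtype.val hm
    simpa using this
  have h3 := pow_gcd_eq_one.mpr ⟨hk', hm'⟩
  have hcop : Nat.Coprime (p ^ k) (q ^ m) := by
    apply Nat.Coprime.pow
    exact (Nat.coprime_primes hp hq).mpr (Ne.symm hqp)
  rw [hcop, pow_one] at h3
  have h4 : a' * e * a'⁻¹ * e⁻¹ * (e * a') = e * a' := by rw [h3, one_mul]
  rw [← h4]
  group

section restriction

variable {A : Type u} [CommGroup A] {H : Type u} [Group H]

/-- The elements of `H` that map `U` onto itself. -/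
def q1Stab (θ : H →* MulAut A) (U : Subgroup A) : Subgroup H where
  carrier := {g | (∀ u ∈ U, θ g u ∈ U) ∧ (∀ u ∈ U, θ g⁻¹ u ∈ U)}
  one_mem' := by
    refine ⟨fun u hu => ?_, fun u hu => ?_⟩
    · rw [map_one]; exact hu
    · rw [inv_one, map_one]; exact hu
  mul_mem' := by
    rintro g h ⟨hg1, hg2⟩ ⟨hh1, hh2⟩
    refine ⟨fun u hu => ?_, fun u hu => ?_⟩
    · rw [map_mul]; exact hg1 _ (hh1 u hu)
    · rw [mul_inv_rev, map_mul]; exact hh2 _ (hg2 u hu)
  inv_mem' := by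
    rintro g ⟨hg1, hg2⟩
    refine ⟨hg2, ?_⟩
    rw [inv_inv]
    exact hg1

theorem q1_inv_apply (θ : H →* MulAut A) (g : H) (v : A) : θ g⁻¹ (θ g v) = v := by
  have : θ g⁻¹ * θ g = 1 := by rw [← map_mul, inv_mul_cancel, map_one]
  exact congrArg (fun f : MulAut A => f v) this

theorem q1_apply_inv (θ : H →* MulAut A) (g : H) (v : A) : θ g (θ g⁻¹ v) = v := by
  have : θ g * θ g⁻¹ = 1 := by rw [← map_mul, mul_inv_cancel, map_one]
  exact congrArg (fun f : MulAut A => f v) this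

/-- The restriction homomorphism from the stabilizer of `U` to `MulAut U`. -/
def q1Res (θ : H →* MulAut A) (U : Subgroup A) : ↥(q1Stab θ U) →* MulAut ↥U where
  toFun g :=
    { toFun := fun u => ⟨θ (g : H) (u : A), g.2.1 _ u.2⟩
      invFun := fun u => ⟨θ (g : H)⁻¹ (u : A), g.2.2 _ u.2⟩
      left_inv := fun u => Subtype.ext (q1_inv_apply θ (g : H) (u : A))
      right_inv := fun u => Subtype.ext (q1_apply_inv θ (g : H) (u : A))
      map_mul' := fun u v => Subtype.ext (map_mul (θ (g : H)) (u : A) (v : A)) }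
  map_one' := by
    ext u
    change θ ((1 : ↥(q1Stab θ U)) : H) (u : A) = (u : A)
    rw [Subgroup.coe_one, map_one]
    rfl
  map_mul' := by
    intro g h
    ext u
    change θ ((g * h : ↥(q1Stab θ U)) : H) (u : A) = θ (g : H) (θ (h : H) (u : A))
    rw [Subgroup.coe_mul, map_mul]
    rfl

theorem q1Res_coe (θ : H →* MulAut A) (U : Subgroup A) (g : ↥(q1Stab θ U)) (u : ↥U) :
    ((q1Res θ U g u : ↥U) : A) = θ (g : H) (u : A) := rfl

end restriction

theorem q1_holds (p : ℕ) [Fact p.Prime] (hp2 : p ≠ 2) : Q1Stmt.{u} p := by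
  intro A _ _ H _ _ θ U E q a hA hq hqp hE hnorm haU hEU hquad hcomm
  -- `a` and `E` lie in the stabilizer of `U`
  have hpowU : ∀ n : ℕ, ∀ u ∈ U, θ (a ^ n) u ∈ U := by
    intro n
    induction n with
    | zero => intro u hu; rw [pow_zero, map_one]; exact hu
    | succ n ih => intro u hu; rw [pow_succ', map_mul]; exact haU _ (ih u hu)
  have hainv : a⁻¹ = a ^ (orderOf a - 1) := by
    have h1 : 0 < orderOf a := orderOf_pos a
    have h2 : a * a ^ (orderOf a - 1) = 1 := by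
      rw [← pow_succ', Nat.sub_add_cancel h1, pow_orderOf_eq_one]
    exact inv_eq_of_mul_eq_one_right h2
  have haSt : a ∈ q1Stab θ U := by
    refine ⟨haU, ?_⟩
    rw [hainv]
    exact hpowU _
  have hESt : E ≤ q1Stab θ U := fun e he => ⟨hEU e he, hEU e⁻¹ (inv_mem he)⟩
  set res := q1Res θ U with hres
  set a' : MulAut ↥U := res ⟨a, haSt⟩ with ha'
  set E' : Subgroup (MulAut ↥U) := (E.subgroupOf (q1Stab θ U)).map res with hE'
  have hE'q : IsPGroup q E' := (hE.comap_subtype (K := q1Stab θ U)).map res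
  have hUp : ∀ v : ↥U, v ^ p = 1 := fun v => Subtype.ext (by
    rw [Subgroup.coe_pow, hA]; rfl)
  have hnorm' : ∀ e ∈ E', a' * e * a'⁻¹ ∈ E' := by
    rintro e ⟨s, hs, rfl⟩
    refine ⟨⟨a, haSt⟩ * s * ⟨a, haSt⟩⁻¹, ?_, ?_⟩
    · exact hnorm _ hs
    · rw [map_mul, map_mul, map_inv]
  have hquad' : ∀ v : ↥U, a' (a' v / v) = a' v / v := fun v => Subtype.ext (hquad v.1 v.2)
  have hcomm' : q = 2 → ∀ e₁ ∈ E', ∀ e₂ ∈ E', e₁ * e₂ = e₂ * e₁ := by
    rintro hq2 e₁ ⟨s₁, hs₁, rfl⟩ e₂ ⟨s₂, hs₂, rfl⟩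
    ext v
    exact hcomm hq2 _ hs₁ _ hs₂ v.1 v.2
  have key := q1_core hp2 hUp E' q hq hqp hE'q a' hnorm' hquad' hcomm'
  intro e he u hu
  have h1 : res ⟨e, hESt he⟩ ∈ E' := ⟨⟨e, hESt he⟩, he, rfl⟩
  have h2 := key _ h1
  have h3 := congrArg (fun f : MulAut ↥U => ((f ⟨u, hu⟩ : ↥U) : A)) h2
  exact h3

end Cfsg.Agent.Lib.Helper57
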