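import Mathlib
import Cfsg.Prelude.Def_GeometricClasses
import Cfsg.Prelude.Def_LieClassical

/-! Project OMP (helper71), piece O3b: the members of a decomposition permuted by an irreducible
group of isometries are pairwise isometric. -/

set_option autoImplicit false

namespace Cfsg.Agent.Lib.Helper57.OMPO3b

open Matrix Cfsg.Geo

variable {n : ℕ} {F : Type*} [Field F] [Fintype F]

/-- O3b: the members of a decomposition permuted by an irreducible group of isometries are
pairwise isometric. -/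
theorem O3b (Q : (Fin n → F) → F) (H : Subgroup (GL (Fin n) F))
    (hfix : FixesQuadForm (matrixSet H) Q) (hirr : ActsIrreducibly (matrixSet H)) {t m : ℕ}
    (D : Fin t → Submodule F (Fin n → F)) (hD : IsMDecomposition m D)
    (hHD : H ≤ decompositionStabilizer D) :
    ∀ i j, AreIsometricFor Q (D i) (D j) := by
  intro i j
  have hne : ∀ k, D k ≠ ⊥ := by
    intro k hbot
    have h1 := hD.finrank_eq k
    rw [hbot, finrank_bot] at h1
    have h2 := hD.pos
    omega
  -- the orbit of `i`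
  have hiO : ∃ g ∈ H, (D i).map (Matrix.toLin' (g : Matrix (Fin n) (Fin n) F)) = D i :=
    ⟨1, H.one_mem, by simp⟩
  have hinv : ∀ s ∈ matrixSet H,
      (⨆ k, ⨆ (_ : ∃ g ∈ H, (D i).map (Matrix.toLin' (g : Matrix (Fin n) (Fin n) F)) = D k),
        D k).map (Matrix.toLin' s) ≤
      ⨆ k, ⨆ (_ : ∃ g ∈ H, (D i).map (Matrix.toLin' (g : Matrix (Fin n) (Fin n) F)) = D k),
        D k := by
    rintro s ⟨g, hg, rfl⟩
    obtain ⟨σ, hσ⟩ := hHD hg
    simp only [Submodule.map_iSup]
    apply iSup_le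
    intro k
    apply iSup_le
    rintro ⟨g', hg', hk⟩
    rw [hσ k]
    have hmem : ∃ g'' ∈ H,
        (D i).map (Matrix.toLin' (g'' : Matrix (Fin n) (Fin n) F)) = D (σ k) := by
      refine ⟨g * g', H.mul_mem hg hg', ?_⟩
      rw [Units.val_mul, Matrix.toLin'_mul, Submodule.map_comp, hk, hσ]
    exact le_iSup₂ (f := fun k
      (_ : ∃ g ∈ H, (D i).map (Matrix.toLin' (g : Matrix (Fin n) (Fin n) F)) = D k) => D k)
      (σ k) hmem
  have hWtop : (⨆ k, ⨆ (_ : ∃ g ∈ H,
      (D i).map (Matrix.toLin' (g : Matrix (Fin n) (Fin n) F)) = D k), D k) = ⊤ := by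
    rcases hirr _ hinv with h | h
    · exfalso
      have hle : D i ≤ ⨆ k, ⨆ (_ : ∃ g ∈ H,
          (D i).map (Matrix.toLin' (g : Matrix (Fin n) (Fin n) F)) = D k), D k :=
        le_iSup₂ (f := fun k
          (_ : ∃ g ∈ H, (D i).map (Matrix.toLin' (g : Matrix (Fin n) (Fin n) F)) = D k) => D k)
          i hiO
      rw [h] at hle
      exact hne i (le_bot_iff.mp hle)
    · exact h
  have hjO : ∃ g ∈ H, (D i).map (Matrix.toLin' (g : Matrix (Fin n) (Fin n) F)) = D j := by
    by_contra hj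
    have hle : (⨆ k, ⨆ (_ : ∃ g ∈ H,
        (D i).map (Matrix.toLin' (g : Matrix (Fin n) (Fin n) F)) = D k), D k) ≤
        ⨆ k, ⨆ (_ : k ≠ j), D k := by
      apply iSup_le
      intro k
      apply iSup_le
      intro hk
      have hkj : k ≠ j := by
        rintro rfl
        exact hj hk
      exact le_iSup₂ (f := fun k (_ : k ≠ j) => D k) k hkj
    rw [hWtop] at hle
    have h1 : D j ≤ ⨆ k, ⨆ (_ : k ≠ j), D k := le_top.trans hle
    exact hne j ((hD.indep j).eq_bot_of_le h1)
  obtain ⟨g, hg, hmap⟩ := hjO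
  have hinj : Function.Injective (Matrix.toLin' (g : Matrix (Fin n) (Fin n) F)) := by
    intro u v huv
    have h1 := congrArg (Matrix.toLin' ((g⁻¹ : GL (Fin n) F) : Matrix (Fin n) (Fin n) F)) huv
    rw [← Matrix.toLin'_mul_apply, ← Matrix.toLin'_mul_apply, ← Units.val_mul, inv_mul_cancel,
      Units.val_one, Matrix.toLin'_one] at h1
    exact h1
  refine ⟨(Submodule.equivMapOfInjective (Matrix.toLin' (g : Matrix (Fin n) (Fin n) F)) hinj
    (D i)).trans (LinearEquiv.ofEq _ _ hmap), fun w => ?_⟩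
  simp only [LinearEquiv.trans_apply, LinearEquiv.coe_ofEq_apply,
    Submodule.coe_equivMapOfInjective_apply, Matrix.toLin'_apply]
  exact hfix _ ⟨g, hg, rfl⟩ w

end Cfsg.Agent.Lib.Helper57.OMPO3b
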