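import Mathlib
import Cfsg.Agent.Lib.Helper45.MinIdxA

/-!
# Piece HYP of S2140 part 2 (helper57, job 548)

`hyp_false`: the "hyperplane" configuration of transvection subgroups is impossible when the
dimension is at least 3.
-/

set_option autoImplicit false

namespace Cfsg.Agent.Lib.Helper57.MinIdx

open Matrix Cfsg.Agent.Lib.Helper50 Cfsg.Agent.Lib.Helper45.MinIdx

section

variable {ι : Type} [Fintype ι] [DecidableEq ι] {F : Type*} [Field F]

omit [Fintype ι] [DecidableEq ι] in
theorem finrank_pair {a w : ι → F} (ha : a ≠ 0) (hw : ∀ c : F, w ≠ c • a) :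
    Module.finrank F (Submodule.span F ({a, w} : Set (ι → F))) = 2 := by
  have hli : LinearIndependent F ![a, w] := by
    rw [LinearIndependent.pair_iff]
    intro s t hst
    have ht : t = 0 := by
      by_contra ht
      apply hw (-(t⁻¹ * s))
      have h1 : t • w = -(s • a) := by
        rw [eq_neg_iff_add_eq_zero, add_comm]
        exact hst
      have h2 : w = t⁻¹ • (t • w) := by rw [smul_smul, inv_mul_cancel₀ ht, one_smul]
      rw [h2, h1, smul_neg, smul_smul, neg_smul]
    refine ⟨?_, ht⟩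
    rw [ht, zero_smul, add_zero] at hst
    exact (smul_eq_zero.mp hst).resolve_right ha
  have h := finrank_span_eq_card hli
  rw [Fintype.card_fin, Matrix.range_cons_cons_empty] at h
  exact h

/-! ### HYP -/
theorem hyp_false {ι : Type} [Fintype ι] [DecidableEq ι] {F : Type*} [Field F]
    (hι : 3 ≤ Fintype.card ι) (H : Subgroup (Matrix.SpecialLinearGroup ι F))
    (hH : ∀ a : ι → F, a ≠ 0 → ∃ w : ι → F, (∀ c : F, w ≠ c • a) ∧
      ∀ φ : ι → F, φ ⬝ᵥ a = 0 → (tL a φ 1 ∈ H ↔ φ ⬝ᵥ w = 0)) : False := by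
  choose! w hw1 hw2 using hH
  have hmemH : ∀ a, a ≠ 0 → ∀ φ : ι → F,
      (∀ y ∈ Submodule.span F ({a, w a} : Set (ι → F)), φ ⬝ᵥ y = 0) → tL a φ 1 ∈ H := by
    intro a ha φ hφ
    have h1 : φ ⬝ᵥ a = 0 := hφ a (Submodule.subset_span (by simp))
    have h2 : φ ⬝ᵥ w a = 0 := hφ (w a) (Submodule.subset_span (by simp))
    exact (hw2 a ha φ h1).mpr h2
  -- (0) proportional centres
  have h0 : ∀ P, P ≠ 0 → ∀ c : F, c ≠ 0 →
      Submodule.span F ({c • P, w (c • P)} : Set (ι → F)) =
        Submodule.span F ({P, w P} : Set (ι → F)) := by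
    intro P hP c hc
    have hQ : c • P ≠ 0 := smul_ne_zero hc hP
    have hiff : ∀ φ : ι → F, φ ⬝ᵥ P = 0 → (φ ⬝ᵥ w (c • P) = 0 ↔ φ ⬝ᵥ w P = 0) := by
      intro φ hφ
      have hφQ : φ ⬝ᵥ (c • P) = 0 := by rw [dotProduct_smul, hφ, smul_zero]
      rw [← hw2 (c • P) hQ φ hφQ, tL_smul_left hφ, mul_one, tL_one_eq P φ c hφ,
        hw2 P hP (c • φ) (by rw [smul_dotProduct, hφ, smul_zero]), smul_dotProduct, smul_eq_mul]
      constructor
      · intro h
        exact (mul_eq_zero.mp h).resolve_left hc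
      · intro h
        rw [h, mul_zero]
    have hwQ : w (c • P) ∈ Submodule.span F ({P, w P} : Set (ι → F)) := by
      by_contra hcon
      obtain ⟨φ, hφ0, hφ1⟩ := Cfsg.Agent.Lib.Helper97.exists_dot _ _ hcon
      have h1 : φ ⬝ᵥ P = 0 := hφ0 P (Submodule.subset_span (by simp))
      have h2 : φ ⬝ᵥ w P = 0 := hφ0 (w P) (Submodule.subset_span (by simp))
      rw [(hiff φ h1).mpr h2] at hφ1
      exact zero_ne_one hφ1
    have hwP : w P ∈ Submodule.span F ({c • P, w (c • P)} : Set (ι → F)) := by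
      by_contra hcon
      obtain ⟨φ, hφ0, hφ1⟩ := Cfsg.Agent.Lib.Helper97.exists_dot _ _ hcon
      have h1 : φ ⬝ᵥ (c • P) = 0 := hφ0 _ (Submodule.subset_span (by simp))
      have h1' : φ ⬝ᵥ P = 0 := by
        rw [dotProduct_smul, smul_eq_mul] at h1
        exact (mul_eq_zero.mp h1).resolve_left hc
      have h2 : φ ⬝ᵥ w (c • P) = 0 := hφ0 _ (Submodule.subset_span (by simp))
      rw [(hiff φ h1').mp h2] at hφ1
      exact zero_ne_one hφ1
    apply le_antisymm
    · rw [Submodule.span_le]
      intro x hx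
      rcases hx with hx | hx
      · rw [hx]
        exact Submodule.smul_mem _ c (Submodule.subset_span (by simp))
      · rw [Set.mem_singleton_iff.mp hx]
        exact hwQ
    · rw [Submodule.span_le]
      intro x hx
      rcases hx with hx | hx
      · rw [hx]
        have h3 : c⁻¹ • (c • P) = P := by rw [smul_smul, inv_mul_cancel₀ hc, one_smul]
        have h4 : c⁻¹ • (c • P) ∈ Submodule.span F ({c • P, w (c • P)} : Set (ι → F)) :=
          Submodule.smul_mem _ _ (Submodule.subset_span (by simp))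
        rw [h3] at h4
        exact h4
      · rw [Set.mem_singleton_iff.mp hx]
        exact hwP
  -- (K)
  have hK : ∀ P Q : ι → F, P ≠ 0 → Q ≠ 0 → Q ∉ Submodule.span F ({P, w P} : Set (ι → F)) →
      w P ∈ Submodule.span F ({Q, w Q} : Set (ι → F)) ⊔ Submodule.span F ({P} : Set (ι → F)) := by
    intro P Q hP hQ hQP
    by_contra hcon
    obtain ⟨ψ, hψ0, hψ1⟩ := Cfsg.Agent.Lib.Helper97.exists_dot _ _ hcon
    obtain ⟨φ, hφ0, hφ1⟩ := Cfsg.Agent.Lib.Helper97.exists_dot _ _ hQP
    have hψQ : ∀ y ∈ Submodule.span F ({Q, w Q} : Set (ι → F)), ψ ⬝ᵥ y = 0 :=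
      fun y hy => hψ0 y (Submodule.mem_sup_left hy)
    have hψP : ψ ⬝ᵥ P = 0 :=
      hψ0 P (Submodule.mem_sup_right (Submodule.subset_span rfl))
    have hφP : φ ⬝ᵥ P = 0 := hφ0 P (Submodule.subset_span (by simp))
    have hψQ' : ψ ⬝ᵥ Q = 0 := hψQ Q (Submodule.subset_span (by simp))
    have m1 : tL P φ 1 ∈ H := hmemH P hP φ hφ0
    have m2 : tL Q ψ 1 ∈ H := hmemH Q hQ ψ hψQ
    have hc := tL_commutator hφP hψQ' hψP (1 : F) 1
    rw [hφ1, mul_one, mul_one] at hc
    have m3 : tL P ψ 1 ∈ H := by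
      rw [← hc]
      exact H.mul_mem (H.mul_mem (H.mul_mem m1 m2) (H.inv_mem m1)) (H.inv_mem m2)
    have h4 := (hw2 P hP ψ hψP).mp m3
    rw [h4] at hψ1
    exact zero_ne_one hψ1
  -- (A)
  have hA : ∀ P Q : ι → F, P ≠ 0 → Q ≠ 0 → Q ∈ Submodule.span F ({P, w P} : Set (ι → F)) →
      Submodule.span F ({Q, w Q} : Set (ι → F)) = Submodule.span F ({P, w P} : Set (ι → F)) := by
    intro P Q hP hQ hQP
    by_cases hmul : ∃ c : F, Q = c • P
    · obtain ⟨c, rfl⟩ := hmul
      have hc : c ≠ 0 := by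
        rintro rfl
        exact hQ (zero_smul _ _)
      exact h0 P hP c hc
    · have hwQ : w Q ∈ Submodule.span F ({P, w P} : Set (ι → F)) := by
        by_cases hPQ : P ∈ Submodule.span F ({Q, w Q} : Set (ι → F))
        · obtain ⟨α, β, hαβ⟩ := Submodule.mem_span_pair.mp hPQ
          have hβ : β ≠ 0 := by
            rintro rfl
            rw [zero_smul, add_zero] at hαβ
            have hα : α ≠ 0 := by
              rintro rfl
              exact hP (by rw [← hαβ, zero_smul])
            exact hmul ⟨α⁻¹, by rw [← hαβ, smul_smul, inv_mul_cancel₀ hα, one_smul]⟩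
          have h1 : w Q = β⁻¹ • (P - α • Q) := by
            rw [← hαβ, add_sub_cancel_left, smul_smul, inv_mul_cancel₀ hβ, one_smul]
          rw [h1]
          exact Submodule.smul_mem _ _ (Submodule.sub_mem _ (Submodule.subset_span (by simp))
            (Submodule.smul_mem _ _ hQP))
        · have h1 := hK Q P hQ hP hPQ
          have h2 : Submodule.span F ({P, w P} : Set (ι → F)) ⊔
              Submodule.span F ({Q} : Set (ι → F)) ≤ Submodule.span F ({P, w P} : Set (ι → F)) :=
            sup_le le_rfl (by rw [Submodule.span_singleton_le_iff_mem]; exact hQP)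
          exact h2 h1
      have hle : Submodule.span F ({Q, w Q} : Set (ι → F)) ≤
          Submodule.span F ({P, w P} : Set (ι → F)) := by
        rw [Submodule.span_le]
        intro x hx
        rcases hx with hx | hx
        · rw [hx]
          exact hQP
        · rw [Set.mem_singleton_iff.mp hx]
          exact hwQ
      exact Submodule.eq_of_le_of_finrank_eq hle
        (by rw [finrank_pair hQ (hw1 Q hQ), finrank_pair hP (hw1 P hP)])
  -- main
  obtain ⟨i⟩ : Nonempty ι := Fintype.card_pos_iff.mp (by omega)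
  set P : ι → F := Pi.single i 1 with hPdef
  have hP : P ≠ 0 := by
    intro h
    have h1 := congrFun h i
    rw [hPdef, Pi.single_eq_same, Pi.zero_apply] at h1
    exact one_ne_zero h1
  have hex : ∃ Q, Q ∉ Submodule.span F ({P, w P} : Set (ι → F)) := by
    by_contra hcon
    push Not at hcon
    have htop : Submodule.span F ({P, w P} : Set (ι → F)) = ⊤ := by
      rw [eq_top_iff]
      intro x _
      exact hcon x
    have h1 := finrank_pair hP (hw1 P hP)
    rw [htop, finrank_top, Module.finrank_fintype_fun_eq_card] at h1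
    omega
  obtain ⟨Q, hQP⟩ := hex
  have hQ : Q ≠ 0 := by
    rintro rfl
    exact hQP (Submodule.zero_mem _)
  have h1 := hK P Q hP hQ hQP
  obtain ⟨m, hm, y, hy, hmy⟩ := Submodule.mem_sup.mp h1
  obtain ⟨c, rfl⟩ := Submodule.mem_span_singleton.mp hy
  have hm0 : m ≠ 0 := by
    rintro rfl
    rw [zero_add] at hmy
    exact hw1 P hP c hmy.symm
  have hmP : m ∈ Submodule.span F ({P, w P} : Set (ι → F)) := by
    have h2 : m = w P - c • P := by rw [← hmy, add_sub_cancel_right]
    rw [h2]
    exact Submodule.sub_mem _ (Submodule.subset_span (by simp))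
      (Submodule.smul_mem _ _ (Submodule.subset_span (by simp)))
  have e1 := hA P m hP hm0 hmP
  have e2 := hA Q m hQ hm0 hm
  apply hQP
  rw [← e1, e2]
  exact Submodule.subset_span (by simp)

end

end Cfsg.Agent.Lib.Helper57.MinIdx
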