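import Mathlib
import Cfsg.Agent.Lib.Helper70.D11Defs
import Cfsg.Agent.Lib.Helper57.Basic

/-! S0679 piece FRAT (job of helper70): Frattini argument for the Sylow 11-subgroup `⟨c0⟩` of a
normal subgroup.  helper57. -/

set_option autoImplicit false

namespace Cfsg.Agent.Lib.Helper57.D11

open Equiv Cfsg.Agent.Lib.Helper70.D11

theorem frat_c0_pow : c0 ^ 11 = 1 := by
  have h : ∀ x : Fin 11, (c0 ^ 11) x = x := by decide
  exact Perm.ext h

theorem frat_orderOf_c0 : orderOf c0 = 11 := by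
  have hp : Fact (Nat.Prime 11) := ⟨by norm_num⟩
  apply orderOf_eq_prime frat_c0_pow
  intro h
  have h1 : c0 0 = 0 := by rw [h]; rfl
  revert h1
  decide

theorem frattini11 (G H K : Subgroup P11) (hHG : H ≤ G)
    (hnorm : ∀ g ∈ G, ∀ h ∈ H, g * h * g⁻¹ ∈ H) (hc : c0 ∈ H) (hHK : H ≤ K)
    (hN : ∀ g ∈ G, g * c0 * g⁻¹ ∈ Subgroup.zpowers c0 → g ∈ K) : G ≤ K := by
  have hp : Fact (Nat.Prime 11) := ⟨by norm_num⟩
  have hord : orderOf c0 = 11 := frat_orderOf_c0
  have hPcard : Nat.card (Subgroup.zpowers c0) = 11 := by rw [Nat.card_zpowers, hord]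
  have hPp : IsPGroup 11 ↥(Subgroup.zpowers c0) :=
    IsPGroup.of_card (n := 1) (by rw [hPcard, pow_one])
  obtain ⟨S, hS⟩ := hPp.exists_le_sylow
  have hScard : Nat.card (S : Subgroup P11) = 11 := by
    obtain ⟨k, hk⟩ := (IsPGroup.iff_card).mp S.isPGroup'
    have hdvd : Nat.card (S : Subgroup P11) ∣ Nat.card P11 := Subgroup.card_subgroup_dvd_card _
    have hfact : Nat.card P11 = 39916800 := by
      rw [Nat.card_perm, Nat.card_fin]
      rfl
    have hk1 : k ≤ 1 := by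
      by_contra hk2
      push Not at hk2
      have h2 : 11 ^ 2 ∣ 11 ^ k := pow_dvd_pow 11 hk2
      have h121 : 11 ^ 2 ∣ 39916800 := by
        rw [← hfact]
        refine dvd_trans ?_ hdvd
        rw [hk]
        exact h2
      norm_num at h121
    have hk0 : 1 ≤ k := by
      have h3 := Subgroup.card_le_of_le hS
      rw [hPcard, hk] at h3
      by_contra h0
      have hk' : k = 0 := by omega
      rw [hk', pow_zero] at h3
      omega
    have hk2 : k = 1 := by omega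
    rw [hk, hk2, pow_one]
  have hSeq : (S : Subgroup P11) = Subgroup.zpowers c0 :=
    (Subgroup.eq_of_le_of_card_ge hS (by rw [hScard, hPcard])).symm
  intro g hg
  have hgc : g * c0 * g⁻¹ ∈ H := hnorm g hg c0 hc
  have hE : IsPGroup 11 ↥(Subgroup.zpowers (g * c0 * g⁻¹)) := by
    apply IsPGroup.of_card (n := 1)
    rw [Nat.card_zpowers, pow_one, Cfsg.Agent.Lib.Helper57.orderOf_conj_eq, hord]
  have hSH : (S : Subgroup P11) ≤ H := by
    rw [hSeq, Subgroup.zpowers_le]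
    exact hc
  obtain ⟨h, hh, hle⟩ := Cfsg.Agent.Lib.Helper57.exists_conj_sylow_ge S hSH
    (Subgroup.zpowers (g * c0 * g⁻¹)) ((Subgroup.zpowers_le).mpr hgc) hE
  have h1 : g * c0 * g⁻¹ ∈ ((h • S : Sylow 11 P11) : Subgroup P11) :=
    hle (Subgroup.mem_zpowers _)
  rw [Cfsg.Agent.Lib.Helper57.mem_smul_sylow, hSeq] at h1
  have h2 : (h⁻¹ * g) * c0 * (h⁻¹ * g)⁻¹ ∈ Subgroup.zpowers c0 := by
    have e : (h⁻¹ * g) * c0 * (h⁻¹ * g)⁻¹ = h⁻¹ * (g * c0 * g⁻¹) * h := by group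
    rw [e]
    exact h1
  have h3 : h⁻¹ * g ∈ K := hN _ (G.mul_mem (G.inv_mem (hHG hh)) hg) h2
  have e : g = h * (h⁻¹ * g) := by group
  rw [e]
  exact K.mul_mem (hHK hh) h3

end Cfsg.Agent.Lib.Helper57.D11
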