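import Mathlib

/-!
# Piece P1 of S4719: a four-group acting on a normal subgroup of odd order

If `N` is a normal subgroup of odd order and `v₁`, `v₂` are commuting involutions, then
`|N| ≤ |C_N(v₁)| |C_N(v₂)| |C_N(v₁ v₂)|`.
-/

set_option autoImplicit false

namespace Cfsg.Agent.Lib.Helper57.DCP1

variable {G : Type*} [Group G]

/-- The elements of `N` inverted by `v`. -/
def invSet (N : Subgroup G) (v : G) : Set G := {n | n ∈ N ∧ v * n * v⁻¹ = n⁻¹}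

theorem inv_eq_self_of_sq {v : G} (hv : v * v = 1) : v⁻¹ = v :=
  inv_eq_of_mul_eq_one_left hv

theorem conj_pow_inv {v n : G} (h : v * n * v⁻¹ = n⁻¹) (k : ℕ) :
    v * n ^ k * v⁻¹ = (n ^ k)⁻¹ := by
  rw [← conj_pow, h, inv_pow]

theorem mem_inf_centralizer_singleton {N : Subgroup G} {v c : G} :
    c ∈ N ⊓ Subgroup.centralizer {v} ↔ c ∈ N ∧ v * c = c * v := by
  simp [Subgroup.mem_centralizer_iff]

theorem inv_of_invol {v w : G} (hv : v * v = 1) (hw : w * w = 1) :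
    v * (v * w) * v⁻¹ = (v * w)⁻¹ := by
  have e1 : v * (v * w) * v⁻¹ = (v * v) * w * v⁻¹ := by group
  have e2 : (v * w)⁻¹ = w⁻¹ * v⁻¹ := by group
  rw [e1, e2, hv, inv_eq_self_of_sq hw, one_mul]

/-- The auxiliary element `j`. -/
def jf (m : ℕ) (v₁ v₂ x y : G) : G := v₁ * v₂ * (v₁ * x * (v₂ * y)) ^ m

/-- The auxiliary element `c`. -/
def cf (k : ℕ) (v j a : G) : G := v * (j ^ k * a * (j ^ k)⁻¹)

theorem recover_eq (k : ℕ) (v j x : G) (hv : v * v = 1) :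
    x = v * (j ^ k)⁻¹ * v * cf k v j (v * x) * j ^ k := by
  unfold cf
  have e1 : v * (j ^ k)⁻¹ * v * (v * (j ^ k * (v * x) * (j ^ k)⁻¹)) * j ^ k
      = v * (j ^ k)⁻¹ * (v * v) * j ^ k * v * x := by group
  have e2 : v * (j ^ k)⁻¹ * 1 * j ^ k * v * x = (v * v) * x := by group
  rw [e1, hv, e2, hv, one_mul]

section
variable [Finite G] (N : Subgroup G)

omit [Finite G] in
theorem pow_card_eq_one_of_mem {n : G} (hn : n ∈ N) : n ^ Nat.card N = 1 := by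
  have h := pow_card_eq_one' (G := N) (x := ⟨n, hn⟩)
  have h2 : (((⟨n, hn⟩ : N) ^ Nat.card N : N) : G) = ((1 : N) : G) := congrArg Subtype.val h
  rw [Subgroup.coe_pow, Subgroup.coe_one] at h2
  exact h2

omit [Finite G] in
theorem sqrt_mul_self {k : ℕ} (hk : 2 * k = Nat.card N + 1) {n : G} (hn : n ∈ N) :
    n ^ k * n ^ k = n := by
  rw [← pow_add, ← two_mul, hk, pow_succ, pow_card_eq_one_of_mem N hn, one_mul]

omit [Finite G] in
theorem eq_of_mul_self_eq {k : ℕ} (hk : 2 * k = Nat.card N + 1) {i j : G} (hi : i ∈ N)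
    (hj : j ∈ N) (h : i * i = j * j) : i = j := by
  have h1 : ∀ z ∈ N, (z * z) ^ k = z := by
    intro z hz
    rw [← pow_two, ← pow_mul, hk, pow_succ, pow_card_eq_one_of_mem N hz, one_mul]
  rw [← h1 i hi, h, h1 j hj]

/-- `|J(v)| |C_N(v)| ≤ |N|`. -/
theorem invSet_mul_card_le {k : ℕ} (hk : 2 * k = Nat.card N + 1) (v : G) :
    Nat.card (invSet N v) * Nat.card ↥(N ⊓ Subgroup.centralizer {v}) ≤ Nat.card N := by
  rw [← Nat.card_prod]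
  refine Nat.card_le_card_of_injective
    (fun p : (invSet N v) × ↥(N ⊓ Subgroup.centralizer {v}) =>
      (⟨(p.1 : G) * (p.2 : G), N.mul_mem p.1.2.1 p.2.2.1⟩ : N)) ?_
  rintro ⟨⟨i, hiN, hi⟩, ⟨c, hc⟩⟩ ⟨⟨i', hi'N, hi'⟩, ⟨c', hc'⟩⟩ h
  obtain ⟨hcN, hcv⟩ := mem_inf_centralizer_singleton.mp hc
  obtain ⟨hc'N, hc'v⟩ := mem_inf_centralizer_singleton.mp hc'
  have h0 : i * c = i' * c' := congrArg Subtype.val h
  have e1 : v * (i * c) * v⁻¹ = i⁻¹ * c := by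
    calc v * (i * c) * v⁻¹ = (v * i * v⁻¹) * (v * c * v⁻¹) := by group
      _ = i⁻¹ * c := by rw [hi, hcv]; group
  have e1' : v * (i' * c') * v⁻¹ = i'⁻¹ * c' := by
    calc v * (i' * c') * v⁻¹ = (v * i' * v⁻¹) * (v * c' * v⁻¹) := by group
      _ = i'⁻¹ * c' := by rw [hi', hc'v]; group
  have h1 : i⁻¹ * c = i'⁻¹ * c' := by rw [← e1, ← e1', h0]
  have h2 : i * i = i' * i' := by
    calc i * i = (i * c) * (i⁻¹ * c)⁻¹ := by group
      _ = (i' * c') * (i'⁻¹ * c')⁻¹ := by rw [h0, h1]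
      _ = i' * i' := by group
  have h3 := eq_of_mul_self_eq N hk hiN hi'N h2
  subst h3
  have h4 : c = c' := mul_left_cancel h0
  subst h4
  rfl

/-- `|N| ≤ |J(v)| |C_N(v)|`. -/
theorem card_le_invSet_mul [N.Normal] {k : ℕ} (hk : 2 * k = Nat.card N + 1) (v : G)
    (hv : v * v = 1) :
    Nat.card N ≤ Nat.card (invSet N v) * Nat.card ↥(N ⊓ Subgroup.centralizer {v}) := by
  have hv' : v⁻¹ = v := inv_eq_self_of_sq hv
  have hyN : ∀ n ∈ N, n * (v * n⁻¹ * v⁻¹) ∈ N := fun n hn =>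
    N.mul_mem hn (Subgroup.Normal.conj_mem inferInstance n⁻¹ (N.inv_mem hn) v)
  have hyinv : ∀ n : G, v * (n * (v * n⁻¹ * v⁻¹)) * v⁻¹ = (n * (v * n⁻¹ * v⁻¹))⁻¹ := by
    intro n
    have e1 : v * (n * (v * n⁻¹ * v⁻¹)) * v⁻¹ = v * n * v * n⁻¹ * (v * v)⁻¹ := by group
    have e2 : (n * (v * n⁻¹ * v⁻¹))⁻¹ = v * n * v⁻¹ * n⁻¹ := by group
    rw [e1, e2, hv, hv']
    group
  have hi_mem : ∀ n ∈ N, (n * (v * n⁻¹ * v⁻¹)) ^ k ∈ invSet N v := fun n hn =>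
    ⟨N.pow_mem (hyN n hn) k, conj_pow_inv (hyinv n) k⟩
  have hc_mem : ∀ n ∈ N,
      ((n * (v * n⁻¹ * v⁻¹)) ^ k)⁻¹ * n ∈ N ⊓ Subgroup.centralizer {v} := by
    intro n hn
    rw [mem_inf_centralizer_singleton]
    refine ⟨N.mul_mem (N.inv_mem (N.pow_mem (hyN n hn) k)) hn, ?_⟩
    have hii := sqrt_mul_self N hk (hyN n hn)
    have hinv := conj_pow_inv (hyinv n) k
    generalize (n * (v * n⁻¹ * v⁻¹)) ^ k = i at hii hinv
    -- `hii : i * i = n * (v * n⁻¹ * v⁻¹)`, `hinv : v * i * v⁻¹ = i⁻¹`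
    have ha : v * (i⁻¹ * n) = i * (v * n) := by
      rw [← hinv]
      have e : v * (v * i * v⁻¹ * n) = (v * v) * i * v⁻¹ * n := by group
      rw [e, hv, hv']
      group
    have hb : i * (v * n) = i⁻¹ * ((i * i) * (v * n)) := by group
    rw [ha, hb, hii]
    group
  rw [← Nat.card_prod]
  refine Nat.card_le_card_of_injective
    (fun n : N => ((⟨((n : G) * (v * (n : G)⁻¹ * v⁻¹)) ^ k, hi_mem n n.2⟩ : invSet N v),
      (⟨(((n : G) * (v * (n : G)⁻¹ * v⁻¹)) ^ k)⁻¹ * n, hc_mem n n.2⟩ :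
        ↥(N ⊓ Subgroup.centralizer {v})))) ?_
  rintro ⟨n, hn⟩ ⟨n', hn'⟩ h
  simp only [Prod.mk.injEq, Subtype.mk.injEq] at h
  obtain ⟨h1, h2⟩ := h
  apply Subtype.ext
  show n = n'
  rw [h1] at h2
  exact mul_left_cancel h2

/-- The key membership: a conjugate of `a` multiplied by `v` centralises `v₃`. -/
theorem key_mem [N.Normal] {k : ℕ} (hk : 2 * k = Nat.card N + 1) {v₃ w v a : G}
    (hv3 : v₃ * v₃ = 1) (hw : w * w = 1) (hj : v₃ * w ∈ N)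
    (hvv3 : v * v₃ = v₃ * v) (haw : a * w = w * a) (hva : v * a ∈ N) :
    cf k v (v₃ * w) a ∈ N ⊓ Subgroup.centralizer {v₃} := by
  unfold cf
  have huN : (v₃ * w) ^ k ∈ N := N.pow_mem hj k
  have huu : (v₃ * w) ^ k * (v₃ * w) ^ k = v₃ * w := sqrt_mul_self N hk hj
  have huinv : v₃ * (v₃ * w) ^ k * v₃⁻¹ = ((v₃ * w) ^ k)⁻¹ :=
    conj_pow_inv (inv_of_invol hv3 hw) k
  generalize (v₃ * w) ^ k = u at huN huu huinv
  have e2 : v₃ * w * w = v₃ := by rw [mul_assoc, hw, mul_one]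
  have e3 : u⁻¹ * v₃ = v₃ * u := by
    rw [← huinv]
    group
  have hv3eq : v₃ = u * w * u⁻¹ := by
    calc v₃ = v₃ * u * u⁻¹ := by group
      _ = u⁻¹ * v₃ * u⁻¹ := by rw [e3]
      _ = u⁻¹ * (v₃ * w * w) * u⁻¹ := by rw [e2]
      _ = u⁻¹ * ((u * u) * w) * u⁻¹ := by rw [huu]
      _ = u * w * u⁻¹ := by group
  have hcomm : (u * a * u⁻¹) * v₃ = v₃ * (u * a * u⁻¹) := by
    have e4 : (u * a * u⁻¹) * (u * w * u⁻¹) = u * (a * w) * u⁻¹ := by group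
    have e5 : u * (w * a) * u⁻¹ = (u * w * u⁻¹) * (u * a * u⁻¹) := by group
    calc (u * a * u⁻¹) * v₃ = (u * a * u⁻¹) * (u * w * u⁻¹) := by rw [← hv3eq]
      _ = u * (a * w) * u⁻¹ := e4
      _ = u * (w * a) * u⁻¹ := by rw [haw]
      _ = (u * w * u⁻¹) * (u * a * u⁻¹) := e5
      _ = v₃ * (u * a * u⁻¹) := by rw [← hv3eq]
  rw [mem_inf_centralizer_singleton]
  refine ⟨?_, ?_⟩
  · have e6 : v * (u * a * u⁻¹) = (v * u * v⁻¹) * (v * a) * u⁻¹ := by group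
    rw [e6]
    exact N.mul_mem (N.mul_mem (Subgroup.Normal.conj_mem inferInstance u huN v) hva)
      (N.inv_mem huN)
  · calc v₃ * (v * (u * a * u⁻¹)) = (v₃ * v) * (u * a * u⁻¹) := by group
      _ = (v * v₃) * (u * a * u⁻¹) := by rw [hvv3]
      _ = v * (v₃ * (u * a * u⁻¹)) := by group
      _ = v * ((u * a * u⁻¹) * v₃) := by rw [hcomm]
      _ = v * (u * a * u⁻¹) * v₃ := by group

/-- Facts on the involution `w = (a b) ^ |N|`. -/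
theorem w_facts [N.Normal] {k : ℕ} (hk : 2 * k = Nat.card N + 1) (v₁ v₂ : G)
    (h1 : v₁ * v₁ = 1) (h2 : v₂ * v₂ = 1) (h12 : v₁ * v₂ = v₂ * v₁)
    {x y : G} (hx : x ∈ invSet N v₁) (hy : y ∈ invSet N v₂) :
    (v₁ * x * (v₂ * y)) ^ Nat.card N * (v₁ * x * (v₂ * y)) ^ Nat.card N = 1 ∧
    v₁ * v₂ * (v₁ * x * (v₂ * y)) ^ Nat.card N ∈ N ∧
    (v₁ * x) * (v₁ * x * (v₂ * y)) ^ Nat.card N
      = (v₁ * x * (v₂ * y)) ^ Nat.card N * (v₁ * x) ∧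
    (v₂ * y) * (v₁ * x * (v₂ * y)) ^ Nat.card N
      = (v₁ * x * (v₂ * y)) ^ Nat.card N * (v₂ * y) := by
  obtain ⟨hxN, hxi⟩ := hx
  obtain ⟨hyN, hyi⟩ := hy
  have hv1' : v₁⁻¹ = v₁ := inv_eq_self_of_sq h1
  have hv2' : v₂⁻¹ = v₂ := inv_eq_self_of_sq h2
  have h3 : (v₁ * v₂) * (v₁ * v₂) = 1 := by
    have e : (v₁ * v₂) * (v₁ * v₂) = v₁ * (v₂ * v₁) * v₂ := by group
    rw [e, ← h12]
    have e' : v₁ * (v₁ * v₂) * v₂ = (v₁ * v₁) * (v₂ * v₂) := by group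
    rw [e', h1, h2, one_mul]
  have haa : (v₁ * x) * (v₁ * x) = 1 := by
    have e : (v₁ * x) * (v₁ * x) = (v₁ * x * v₁) * x := by group
    rw [hv1'] at hxi
    rw [e, hxi, inv_mul_cancel]
  have hbb : (v₂ * y) * (v₂ * y) = 1 := by
    have e : (v₂ * y) * (v₂ * y) = (v₂ * y * v₂) * y := by group
    rw [hv2'] at hyi
    rw [e, hyi, inv_mul_cancel]
  have hgN : v₁ * v₂ * (v₁ * x * (v₂ * y)) ∈ N := by
    have e : v₁ * v₂ * (v₁ * x * (v₂ * y)) = (v₂ * v₁) * v₁ * x * v₂ * y := by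
      rw [← h12]
      group
    have e' : (v₂ * v₁) * v₁ * x * v₂ * y = v₂ * (v₁ * v₁) * x * v₂ * y := by group
    have e'' : v₂ * 1 * x * v₂ * y = (v₂ * x * v₂⁻¹) * y := by
      rw [hv2']
      group
    rw [e, e', h1, e'']
    exact N.mul_mem (Subgroup.Normal.conj_mem inferInstance x hxN v₂) hyN
  generalize v₁ * x = a at haa hgN ⊢
  generalize v₂ * y = b at hbb hgN ⊢
  have ha' : a⁻¹ = a := inv_eq_self_of_sq haa
  have hb' : b⁻¹ = b := inv_eq_self_of_sq hbb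
  have hπ : ∀ z : G, (QuotientGroup.mk' N z = 1) ↔ z ∈ N := fun z =>
    QuotientGroup.eq_one_iff z
  have e1 : QuotientGroup.mk' N (v₁ * v₂) * QuotientGroup.mk' N (a * b) = 1 := by
    rw [← map_mul]
    exact (hπ _).mpr hgN
  have e2 : QuotientGroup.mk' N (v₁ * v₂) * QuotientGroup.mk' N (v₁ * v₂) = 1 := by
    rw [← map_mul, h3, map_one]
  have e3 : QuotientGroup.mk' N (a * b) = QuotientGroup.mk' N (v₁ * v₂) :=
    mul_left_cancel (e1.trans e2.symm)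
  have hwN : v₁ * v₂ * (a * b) ^ Nat.card N ∈ N := by
    rw [← hπ, map_mul, map_pow, e3, ← pow_succ', ← hk, pow_mul, pow_two, e2, one_pow]
  have hggN : (a * b) * (a * b) ∈ N := by
    rw [← hπ, map_mul, e3, e2]
  have hww : (a * b) ^ Nat.card N * (a * b) ^ Nat.card N = 1 := by
    rw [← (Commute.refl (a * b)).mul_pow]
    exact pow_card_eq_one_of_mem N hggN
  have hw' : ((a * b) ^ Nat.card N)⁻¹ = (a * b) ^ Nat.card N := inv_eq_self_of_sq hww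
  have hga : a * (a * b) * a⁻¹ = (a * b)⁻¹ := by
    have e : a * (a * b) * a⁻¹ = (a * a) * b * a⁻¹ := by group
    have e' : (a * b)⁻¹ = b⁻¹ * a⁻¹ := by group
    rw [e, e', haa, hb', one_mul]
  have hgb : b * (a * b) * b⁻¹ = (a * b)⁻¹ := by
    have e : b * (a * b) * b⁻¹ = b * a := by group
    have e' : (a * b)⁻¹ = b⁻¹ * a⁻¹ := by group
    rw [e, e', ha', hb']
  refine ⟨hww, hwN, ?_, ?_⟩
  · have := conj_pow_inv hga (Nat.card N)
    rw [hw'] at this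
    exact mul_inv_eq_iff_eq_mul.mp this
  · have := conj_pow_inv hgb (Nat.card N)
    rw [hw'] at this
    exact mul_inv_eq_iff_eq_mul.mp this

/-- `|J(v₁)| |J(v₂)| ≤ |J(v₁ v₂)| |C_N(v₁ v₂)|²`. -/
theorem invSet_mul_le [N.Normal] {k : ℕ} (hk : 2 * k = Nat.card N + 1) (v₁ v₂ : G)
    (h1 : v₁ * v₁ = 1) (h2 : v₂ * v₂ = 1) (h12 : v₁ * v₂ = v₂ * v₁) :
    Nat.card (invSet N v₁) * Nat.card (invSet N v₂) ≤
      Nat.card (invSet N (v₁ * v₂)) * Nat.card ↥(N ⊓ Subgroup.centralizer {v₁ * v₂})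
        * Nat.card ↥(N ⊓ Subgroup.centralizer {v₁ * v₂}) := by
  have h3 : (v₁ * v₂) * (v₁ * v₂) = 1 := by
    have e : (v₁ * v₂) * (v₁ * v₂) = v₁ * (v₂ * v₁) * v₂ := by group
    rw [e, ← h12]
    have e' : v₁ * (v₁ * v₂) * v₂ = (v₁ * v₁) * (v₂ * v₂) := by group
    rw [e', h1, h2, one_mul]
  have h13 : v₁ * (v₁ * v₂) = (v₁ * v₂) * v₁ := by
    rw [mul_assoc, ← h12]
  have h23 : v₂ * (v₁ * v₂) = (v₁ * v₂) * v₂ := by
    rw [← mul_assoc, ← h12]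
  have hj_mem : ∀ x ∈ invSet N v₁, ∀ y ∈ invSet N v₂,
      jf (Nat.card N) v₁ v₂ x y ∈ invSet N (v₁ * v₂) := by
    intro x hx y hy
    obtain ⟨hww, hwN, -, -⟩ := w_facts N hk v₁ v₂ h1 h2 h12 hx hy
    exact ⟨hwN, inv_of_invol h3 hww⟩
  have hc1_mem : ∀ x ∈ invSet N v₁, ∀ y ∈ invSet N v₂,
      cf k v₁ (jf (Nat.card N) v₁ v₂ x y) (v₁ * x) ∈ N ⊓ Subgroup.centralizer {v₁ * v₂} := by
    intro x hx y hy
    obtain ⟨hww, hwN, haw, -⟩ := w_facts N hk v₁ v₂ h1 h2 h12 hx hy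
    refine key_mem N hk h3 hww hwN h13 haw ?_
    rw [← mul_assoc, h1, one_mul]
    exact hx.1
  have hc2_mem : ∀ x ∈ invSet N v₁, ∀ y ∈ invSet N v₂,
      cf k v₂ (jf (Nat.card N) v₁ v₂ x y) (v₂ * y) ∈ N ⊓ Subgroup.centralizer {v₁ * v₂} := by
    intro x hx y hy
    obtain ⟨hww, hwN, -, hbw⟩ := w_facts N hk v₁ v₂ h1 h2 h12 hx hy
    refine key_mem N hk h3 hww hwN h23 hbw ?_
    rw [← mul_assoc, h2, one_mul]
    exact hy.1
  rw [mul_assoc, ← Nat.card_prod, ← Nat.card_prod, ← Nat.card_prod]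
  refine Nat.card_le_card_of_injective
    (fun p : (invSet N v₁) × (invSet N v₂) =>
      ((⟨jf (Nat.card N) v₁ v₂ p.1 p.2, hj_mem p.1 p.1.2 p.2 p.2.2⟩ : invSet N (v₁ * v₂)),
        ((⟨cf k v₁ (jf (Nat.card N) v₁ v₂ p.1 p.2) (v₁ * p.1), hc1_mem p.1 p.1.2 p.2 p.2.2⟩ :
          ↥(N ⊓ Subgroup.centralizer {v₁ * v₂})),
        (⟨cf k v₂ (jf (Nat.card N) v₁ v₂ p.1 p.2) (v₂ * p.2), hc2_mem p.1 p.1.2 p.2 p.2.2⟩ :
          ↥(N ⊓ Subgroup.centralizer {v₁ * v₂}))))) ?_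
  rintro ⟨⟨x, hx⟩, ⟨y, hy⟩⟩ ⟨⟨x', hx'⟩, ⟨y', hy'⟩⟩ h
  simp only [Prod.mk.injEq, Subtype.mk.injEq] at h
  obtain ⟨hj, hc1, hc2⟩ := h
  rw [hj] at hc1 hc2
  have ex : x = x' := by
    rw [recover_eq k v₁ (jf (Nat.card N) v₁ v₂ x' y') x h1, hc1]
    exact (recover_eq k v₁ (jf (Nat.card N) v₁ v₂ x' y') x' h1).symm
  have ey : y = y' := by
    rw [recover_eq k v₂ (jf (Nat.card N) v₁ v₂ x' y') y h2, hc2]
    exact (recover_eq k v₂ (jf (Nat.card N) v₁ v₂ x' y') y' h2).symm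
  subst ex
  subst ey
  rfl

end

/-- **Piece P1 of S4719.** A four-group acting on a normal subgroup of odd order. -/
theorem four_odd_bound {G : Type*} [Group G] [Finite G] (N : Subgroup G) [N.Normal]
    (hN : Odd (Nat.card N)) (v₁ v₂ : G) (h1 : v₁ * v₁ = 1) (h2 : v₂ * v₂ = 1)
    (h12 : v₁ * v₂ = v₂ * v₁) (hne1 : v₁ ≠ 1) (hne2 : v₂ ≠ 1) (hne : v₁ ≠ v₂) :
    Nat.card N ≤ Nat.card ↥(N ⊓ Subgroup.centralizer {v₁})
      * Nat.card ↥(N ⊓ Subgroup.centralizer {v₂})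
      * Nat.card ↥(N ⊓ Subgroup.centralizer {v₁ * v₂}) := by
  obtain ⟨k0, hk0⟩ := hN
  have hk : 2 * (k0 + 1) = Nat.card N + 1 := by omega
  have h3 : (v₁ * v₂) * (v₁ * v₂) = 1 := by
    have e : (v₁ * v₂) * (v₁ * v₂) = v₁ * (v₂ * v₁) * v₂ := by group
    rw [e, ← h12]
    have e' : v₁ * (v₁ * v₂) * v₂ = (v₁ * v₁) * (v₂ * v₂) := by group
    rw [e', h1, h2, one_mul]
  have L1a := card_le_invSet_mul N hk v₁ h1
  have L1b := card_le_invSet_mul N hk v₂ h2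
  have L2 := invSet_mul_card_le N hk (v₁ * v₂)
  have L3 := invSet_mul_le N hk v₁ v₂ h1 h2 h12
  have hpos : 0 < Nat.card N := Nat.card_pos
  generalize Nat.card N = m at L1a L1b L2 L3 hpos ⊢
  generalize Nat.card (invSet N v₁) = j1 at L1a L3
  generalize Nat.card (invSet N v₂) = j2 at L1b L3
  generalize Nat.card (invSet N (v₁ * v₂)) = j3 at L2 L3
  generalize Nat.card ↥(N ⊓ Subgroup.centralizer {v₁}) = c1 at L1a ⊢
  generalize Nat.card ↥(N ⊓ Subgroup.centralizer {v₂}) = c2 at L1b ⊢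
  generalize Nat.card ↥(N ⊓ Subgroup.centralizer {v₁ * v₂}) = c3 at L2 L3 ⊢
  have key : m * m ≤ m * (c1 * c2 * c3) :=
    calc m * m ≤ (j1 * c1) * (j2 * c2) := Nat.mul_le_mul L1a L1b
      _ = (j1 * j2) * (c1 * c2) := by ring
      _ ≤ (j3 * c3 * c3) * (c1 * c2) := Nat.mul_le_mul_right _ L3
      _ = (j3 * c3) * (c1 * c2 * c3) := by ring
      _ ≤ m * (c1 * c2 * c3) := Nat.mul_le_mul_right _ L2
  exact Nat.le_of_mul_le_mul_left key hpos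

end Cfsg.Agent.Lib.Helper57.DCP1
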