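import Cfsg.Agent.Lib.Helper57.GlBasic

/-!
# A commutator lemma behind `L`-balance for the prime 2 (helper57)

`gl_all`: let `N`, `T`, `J` be subgroups of a finite group `X`, with `T` a 2-group normalizing `N`
and `J` a perfect subgroup generated by its 2-elements which normalizes `N` and centralizes `T`.
If `[C_N(T), J]` has odd order, then `[N, J] ≤ O(N)`.

The proof is by induction, pushing `T` up to a Sylow 2-subgroup of `N` (`gl_of_gls`), and then
showing that every 2-element of `J` is weakly closed in a Sylow 2-subgroup of `N⟨v⟩`, so that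
Glauberman's `Z*`-theorem (taken as the hypothesis `ZStarAll`) applies (`gls_all`).
-/

set_option autoImplicit false

namespace Cfsg.Agent.Lib.Helper57.Gl

open Cfsg Cfsg.Agent.Lib
open Cfsg.Agent.Lib.Helper42 (cj mem_cj conj_mem_cj cj_cj cj_one cj_mono cj_le_iff card_cj
  isPGroup_cj cj_eq_self_iff cj_eq_of_mem_normalizer IsSylIn)
open scoped commutatorElement

universe u

variable {X : Type u} [Group X]

/-- `J` is perfect and generated by its 2-elements. -/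
def JCls (J : Subgroup X) : Prop :=
  ⁅J, J⁆ = J ∧ J = Subgroup.closure {x | x ∈ J ∧ ∃ k : ℕ, x ^ 2 ^ k = 1}

/-- the commutator lemma for `N` when `J` centralizes a Sylow 2-subgroup of `N` -/
def GlSyl (N : Subgroup X) : Prop :=
  ∀ S J : Subgroup X, IsSylIn 2 S N → J ≤ Subgroup.normalizer (N : Set X) →
    (∀ j ∈ J, ∀ s ∈ S, j * s = s * j) → JCls J → ∀ x ∈ N, ∀ j ∈ J, ⁅x, j⁆ ∈ W N

/-- the commutator lemma for `N` -/
def GlGen (N : Subgroup X) : Prop :=
  ∀ T J : Subgroup X, IsPGroup 2 T → T ≤ Subgroup.normalizer (N : Set X) →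
    J ≤ Subgroup.normalizer (N : Set X) → (∀ j ∈ J, ∀ t ∈ T, j * t = t * j) → JCls J →
    (∃ V : Subgroup X, (Nat.card V).Coprime 2 ∧
      ∀ c ∈ N, (∀ t ∈ T, c * t = t * c) → ∀ j ∈ J, ⁅c, j⁆ ∈ V) →
    ∀ x ∈ N, ∀ j ∈ J, ⁅x, j⁆ ∈ W N

/-- pushing up: replace `T` by `T ⊔ Q` and `J` by a suitable subgroup of `D J` centralizing `Q` -/
theorem push [Finite X] {N T Q D J : Subgroup X}
    (hJN : J ≤ Subgroup.normalizer (N : Set X)) (hJT : ∀ j ∈ J, ∀ t ∈ T, j * t = t * j)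
    (hJ : JCls J) (hQ : IsPGroup 2 Q)
    (hDN : D ≤ N) (hDT : ∀ d ∈ D, ∀ t ∈ T, d * t = t * d) (hDodd : (Nat.card D).Coprime 2)
    (hJD : J ≤ Subgroup.normalizer (D : Set X)) (hQD : Q ≤ Subgroup.normalizer (D : Set X))
    (hQJ : ∀ q ∈ Q, ∀ j ∈ J, ⁅q, j⁆ ∈ D)
    (hcD : ∀ c ∈ N, (∀ t ∈ T ⊔ Q, c * t = t * c) →
      c ∈ Subgroup.normalizer (D : Set X) ∧ ∀ j ∈ J, ⁅c, j⁆ ∈ D)
    (hIH : ∀ J' : Subgroup X, J' ≤ Subgroup.normalizer (N : Set X) →
      (∀ j ∈ J', ∀ t ∈ T ⊔ Q, j * t = t * j) → JCls J' →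
      (∃ V : Subgroup X, (Nat.card V).Coprime 2 ∧
        ∀ c ∈ N, (∀ t ∈ T ⊔ Q, c * t = t * c) → ∀ j ∈ J', ⁅c, j⁆ ∈ V) →
      ∀ x ∈ N, ∀ j ∈ J', ⁅x, j⁆ ∈ W N) :
    ∀ x ∈ N, ∀ j ∈ J, ⁅x, j⁆ ∈ W N := by
  have : Fact (Nat.Prime 2) := ⟨Nat.prime_two⟩
  -- fixed points on the cosets `j D`
  have h1 : ∀ j ∈ J, ∃ d ∈ D, ∀ q ∈ Q, q * (j * d) = (j * d) * q := by
    intro j hj
    obtain ⟨d, hd, hfix⟩ := Helper30.coset_fixed 2 hQ hQD (not_two_dvd hDodd) j (by
      intro q hq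
      have e : j⁻¹ * (q * j * q⁻¹) = j⁻¹ * ⁅q, j⁆ * j := by
        simp only [commutatorElement_def]; group
      rw [e]
      exact nconj' (hJD hj) (hQJ q hq j hj))
    exact ⟨d, hd, fun q hq => Helper30.conj_eq_iff_mul_comm.mp (hfix q hq)⟩
  -- a minimal supplement
  have hC₀ : (fun H : Subgroup X =>
      H ≤ (D ⊔ J) ⊓ Subgroup.centralizer (Q : Set X) ∧ J ≤ D ⊔ H)
      ((D ⊔ J) ⊓ Subgroup.centralizer (Q : Set X)) := by
    refine ⟨le_rfl, fun j hj => ?_⟩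
    obtain ⟨d, hd, hq⟩ := h1 j hj
    have h2 : j * d ∈ (D ⊔ J) ⊓ Subgroup.centralizer (Q : Set X) := by
      refine Subgroup.mem_inf.mpr
        ⟨Subgroup.mul_mem _ (Subgroup.mem_sup_right hj) (Subgroup.mem_sup_left hd), ?_⟩
      rw [Subgroup.mem_centralizer_iff]
      intro q hq'
      exact hq q hq'
    have e : j = (j * d) * d⁻¹ := by group
    rw [e]
    exact Subgroup.mul_mem _ (Subgroup.mem_sup_right h2) (Subgroup.mem_sup_left (D.inv_mem hd))
  obtain ⟨J₂, -, hJ₂⟩ := Finite.exists_le_minimal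
    (p := fun H : Subgroup X => H ≤ (D ⊔ J) ⊓ Subgroup.centralizer (Q : Set X) ∧ J ≤ D ⊔ H)
    (a := (D ⊔ J) ⊓ Subgroup.centralizer (Q : Set X)) hC₀
  obtain ⟨⟨hJ₂C, hJJ₂⟩, hmin⟩ := hJ₂
  have hDJn : D ⊔ J ≤ Subgroup.normalizer (D : Set X) := sup_le Subgroup.le_normalizer hJD
  have hJ₂DJ : J₂ ≤ D ⊔ J := hJ₂C.trans inf_le_left
  have hJ₂D : J₂ ≤ Subgroup.normalizer (D : Set X) := hJ₂DJ.trans hDJn
  -- `J₂` is perfect
  have hperf : ⁅J₂, J₂⁆ = J₂ := by
    have hle : ⁅J₂, J₂⁆ ≤ J₂ := by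
      rw [Subgroup.commutator_le]
      intro a ha b hb
      rw [commutatorElement_def]
      exact J₂.mul_mem (J₂.mul_mem (J₂.mul_mem ha hb) (J₂.inv_mem ha)) (J₂.inv_mem hb)
    refine le_antisymm hle (hmin ⟨hle.trans hJ₂C, ?_⟩ hle)
    calc J = ⁅J, J⁆ := hJ.1.symm
      _ ≤ ⁅D ⊔ J₂, D ⊔ J₂⁆ := Subgroup.commutator_mono hJJ₂ hJJ₂
      _ ≤ D ⊔ ⁅J₂, J₂⁆ := comm_sup_sup hJ₂D
  -- `J₂` is generated by its 2-elements
  have hgen : J₂ = Subgroup.closure {x | x ∈ J₂ ∧ ∃ k : ℕ, x ^ 2 ^ k = 1} := by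
    have hle : Subgroup.closure {x | x ∈ J₂ ∧ ∃ k : ℕ, x ^ 2 ^ k = 1} ≤ J₂ := by
      rw [Subgroup.closure_le]
      exact fun x hx => hx.1
    refine le_antisymm (hmin ⟨hle.trans hJ₂C, ?_⟩ hle) hle
    rw [hJ.2, Subgroup.closure_le]
    rintro u ⟨huJ, k, hk⟩
    obtain ⟨d, hd, h, hh, rfl⟩ := mem_sup_norm hJ₂D (hJJ₂ huJ)
    obtain ⟨e, ⟨a, ha⟩, he⟩ := exists_two_part (D := D) (h := h) (u := d * h) (d := d⁻¹)
      (D.inv_mem hd) (hJD huJ) (by group) hk
    have h2 : h ^ e ∈ Subgroup.closure {x | x ∈ J₂ ∧ ∃ k : ℕ, x ^ 2 ^ k = 1} :=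
      Subgroup.subset_closure ⟨J₂.pow_mem hh e, a, ha⟩
    have e' : d * h = (h ^ e * (d * h)⁻¹)⁻¹ * h ^ e := by group
    rw [e']
    exact Subgroup.mul_mem _ (Subgroup.mem_sup_left (D.inv_mem he)) (Subgroup.mem_sup_right h2)
  have hDJT : D ⊔ J ≤ Subgroup.centralizer (T : Set X) := by
    apply sup_le
    · intro d hd
      rw [Subgroup.mem_centralizer_iff]
      intro t ht
      exact (hDT d hd t ht).symm
    · intro j hj
      rw [Subgroup.mem_centralizer_iff]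
      intro t ht
      exact (hJT j hj t ht).symm
  have hJ₂N : J₂ ≤ Subgroup.normalizer (N : Set X) :=
    hJ₂DJ.trans (sup_le (hDN.trans Subgroup.le_normalizer) hJN)
  have hJ₂TQ : ∀ j ∈ J₂, ∀ t ∈ T ⊔ Q, j * t = t * j := by
    have h3 : T ⊔ Q ≤ Subgroup.centralizer (J₂ : Set X) :=
      sup_le (Subgroup.le_centralizer_iff.mp (hJ₂DJ.trans hDJT))
        (Subgroup.le_centralizer_iff.mp (hJ₂C.trans inf_le_right))
    intro j hj t ht
    exact Subgroup.mem_centralizer_iff.mp (h3 ht) j hj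
  have hker := hIH J₂ hJ₂N hJ₂TQ ⟨hperf, hgen⟩ ⟨D, hDodd, fun c hc hcT j hj =>
    comm_mem_of_mem_sup hJD (hcD c hc hcT).1 (hcD c hc hcT).2 (hJ₂DJ hj)⟩
  have hJ₂K : J₂ ≤ kerAct N := fun j hj => ⟨hJ₂N hj, fun n hn => hker n hn j hj⟩
  have hDK : D ≤ Subgroup.normalizer (kerAct N : Set X) :=
    (hDN.trans Subgroup.le_normalizer).trans (norm_le_norm_kerAct N)
  have hJK : J ≤ kerAct N := by
    rw [hJ.2, Subgroup.closure_le]
    rintro u ⟨huJ, k, hk⟩
    obtain ⟨d, hd, h, hh, rfl⟩ := mem_sup_norm hJ₂D (hJJ₂ huJ)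
    have h3 := pow_mul_mem' (hJ₂K hh) (hDK hd) (2 ^ k)
    rw [hk, mul_one] at h3
    have h4 : d ^ 2 ^ k ∈ kerAct N := by simpa using (kerAct N).inv_mem h3
    have h5 : d ∈ kerAct N := Helper40.mem_of_pow_mem_of_pow_eq_one h4 (pow_card_mem hd)
      (Nat.Coprime.pow_left k hDodd.symm)
    exact Subgroup.mul_mem _ h5 (hJ₂K hh)
  intro x hx j hj
  exact (hJK hj).2 x hx

/-- from the Sylow-centralizing case to the general case -/
theorem gl_of_gls [Finite X] {N : Subgroup X} (hN : GlSyl N) : GlGen N := by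
  have : Fact (Nat.Prime 2) := ⟨Nat.prime_two⟩
  unfold GlGen
  intro T
  induction' hm : Nat.card X - Nat.card T using Nat.strong_induction_on with m ih generalizing T
  intro J hT2 hTN hJN hJT hJ hodd
  obtain ⟨V, hVodd, hV⟩ := hodd
  obtain ⟨A, hAdef⟩ : ∃ A : Subgroup X, A = N ⊓ Subgroup.centralizer (T : Set X) := ⟨_, rfl⟩
  have hAN : A ≤ N := hAdef ▸ inf_le_left
  have hAT : ∀ c ∈ A, ∀ t ∈ T, c * t = t * c := by
    intro c hc t ht
    rw [hAdef] at hc
    exact (Subgroup.mem_centralizer_iff.mp hc.2 t ht).symm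
  have hmemA : ∀ c ∈ N, (∀ t ∈ T, c * t = t * c) → c ∈ A := by
    intro c hc h
    rw [hAdef]
    exact ⟨hc, Subgroup.mem_centralizer_iff.mpr (fun t ht => (h t ht).symm)⟩
  have hJA : J ≤ Subgroup.normalizer (A : Set X) := by
    intro j hj
    rw [hAdef]
    exact norm_inf (hJN hj) (cent_le_norm_cent (hJT j hj))
  have hDV : ⁅A, J⁆ ≤ V := by
    rw [Subgroup.commutator_le]
    intro c hc j hj
    exact hV c (hAN hc) (hAT c hc) j hj
  have hDA : ⁅A, J⁆ ≤ A := Helper40.commutator_le_of_le_normalizer' hJA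
  have hDodd : (Nat.card (⁅A, J⁆ : Subgroup X)).Coprime 2 := odd_of_le hDV hVodd
  have hAD : A ≤ Subgroup.normalizer ((⁅A, J⁆ : Subgroup X) : Set X) := le_norm_comm_left A J
  have hJD : J ≤ Subgroup.normalizer ((⁅A, J⁆ : Subgroup X) : Set X) := le_norm_comm_right A J
  obtain ⟨P, hP⟩ := Helper42.exists_isSylIn 2 A
  have hcard : ∀ T' : Subgroup X, T < T' → Nat.card X - Nat.card T' < m := by
    intro T' hlt
    have h1 := Helper42.card_lt_of_lt hlt
    have h2 : Nat.card T' ≤ Nat.card X := Subgroup.card_le_card_group T'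
    omega
  by_cases hPT : P ≤ T
  · obtain ⟨T₁, hT₁, hTT₁⟩ := exists_isSylIn_ge hT2 (le_sup_right : T ≤ N ⊔ T)
    by_cases hTe : T₁ ≤ T
    · have hTeq : T₁ = T := le_antisymm hTe hTT₁
      rw [hTeq] at hT₁
      have hS : IsSylIn 2 (T ⊓ N) N :=
        isSylIn_inf_of_normal hT₁ le_sup_left (sup_le Subgroup.le_normalizer hTN)
      exact hN (T ⊓ N) J hS hJN (fun j hj s hs => hJT j hj s hs.1) hJ
    · have hex : ∃ x ∈ T₁, x ∈ Subgroup.normalizer (T : Set X) ∧ x ∉ T := by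
        by_contra hcon
        push Not at hcon
        have h1 : T₁ ⊓ Subgroup.normalizer (T : Set X) ≤ T := fun x hx => hcon x hx.1 hx.2
        have h2 := Helper42.card_lt_card_inf_normalizer hT₁.2.1 hTT₁ (fun h => hTe h.ge)
        exact absurd (Subgroup.card_le_of_le h1) (not_le.mpr h2)
      obtain ⟨x, hxT₁, hxn, hxT⟩ := hex
      obtain ⟨n, hn, t, ht, rfl⟩ := mem_sup_norm hTN (hT₁.1 hxT₁)
      have hnT₁ : n ∈ T₁ := by
        have := T₁.mul_mem hxT₁ (T₁.inv_mem (hTT₁ ht))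
        simpa using this
      have hnn : n ∈ Subgroup.normalizer (T : Set X) := by
        have := Subgroup.mul_mem _ hxn (Subgroup.inv_mem _ (Subgroup.le_normalizer ht))
        simpa using this
      have hnT : n ∉ T := fun h => hxT (T.mul_mem h ht)
      have hQT₁ : Subgroup.zpowers n ≤ T₁ := Subgroup.zpowers_le.mpr hnT₁
      have hTQ2 : IsPGroup 2 (T ⊔ Subgroup.zpowers n : Subgroup X) :=
        hT₁.2.1.to_le (sup_le hTT₁ hQT₁)
      have hlt : T < T ⊔ Subgroup.zpowers n :=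
        lt_of_le_of_ne le_sup_left (fun h => hnT (by
          rw [h]; exact Subgroup.mem_sup_right (Subgroup.mem_zpowers n)))
      have hcP : ∀ p ∈ P, ∀ m ∈ A, p * m = m * p :=
        fun p hp m hm => (hAT m hm p (hPT hp)).symm
      have hKC : ∀ y ∈ N, y ∈ Subgroup.normalizer (T : Set X) → ∀ j ∈ J, ⁅y, j⁆ ∈ W A := by
        intro y hyN hyT
        exact comm_mem_W_of_perfect hP hcP hJA (fun j hj p hp => hJT j hj p (hPT hp)) hJ.1
          (fun j hj => hAdef ▸ comm_mem_inf_centralizer hyN hyT (hJN hj) (hJT j hj))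
      have hN₁A : ∀ y ∈ N, y ∈ Subgroup.normalizer (T : Set X) →
          y ∈ Subgroup.normalizer (A : Set X) := by
        intro y hyN hyT
        rw [hAdef]
        exact norm_inf (Subgroup.le_normalizer hyN) (norm_centralizer hyT)
      have hQN₁ : ∀ q ∈ Subgroup.zpowers n, q ∈ N ∧ q ∈ Subgroup.normalizer (T : Set X) := by
        intro q hq
        have h1 : Subgroup.zpowers n ≤ N ⊓ Subgroup.normalizer (T : Set X) :=
          Subgroup.zpowers_le.mpr ⟨hn, hnn⟩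
        exact h1 hq
      refine push hJN hJT hJ (hT₁.2.1.to_le hQT₁) ((W_le A).trans hAN)
        (fun d hd t ht => hAT d (W_le A hd) t ht) (W_odd A) (hJA.trans (W_norm A)) ?_ ?_ ?_ ?_
      · intro q hq
        exact W_norm A (hN₁A q (hQN₁ q hq).1 (hQN₁ q hq).2)
      · intro q hq j hj
        exact hKC q (hQN₁ q hq).1 (hQN₁ q hq).2 j hj
      · intro c hc hcT
        have hcA : c ∈ A := hmemA c hc (fun t ht => hcT t (Subgroup.mem_sup_left ht))
        exact ⟨W_norm A (Subgroup.le_normalizer hcA),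
          hKC c hc (cent_le_norm (fun t ht => hcT t (Subgroup.mem_sup_left ht)))⟩
      · intro J' hJ'N hJ'T hJ' hodd'
        exact ih _ (hcard _ hlt) (T ⊔ Subgroup.zpowers n) rfl J' hTQ2
          (sup_le hTN (Subgroup.zpowers_le.mpr (Subgroup.le_normalizer hn))) hJ'N hJ'T hJ' hodd'
  · have hPA : P ≤ A := hP.1
    have hPn : P ≤ Subgroup.normalizer (T : Set X) :=
      fun p hp => cent_le_norm (fun t ht => hAT p (hPA hp) t ht)
    have hTP2 : IsPGroup 2 (T ⊔ P : Subgroup X) := by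
      rw [sup_comm]
      exact IsPGroup.to_sup_of_normal_right' hP.2.1 hT2 hPn
    have hlt : T < T ⊔ P :=
      lt_of_le_of_ne le_sup_left (fun h => hPT (by rw [h]; exact le_sup_right))
    refine push hJN hJT hJ hP.2.1 (hDA.trans hAN) (fun d hd t ht => hAT d (hDA hd) t ht) hDodd
      hJD (hPA.trans hAD) ?_ ?_ ?_
    · intro q hq j hj
      exact Subgroup.commutator_mem_commutator (hPA hq) hj
    · intro c hc hcT
      have hcA : c ∈ A := hmemA c hc (fun t ht => hcT t (Subgroup.mem_sup_left ht))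
      exact ⟨hAD hcA, fun j hj => Subgroup.commutator_mem_commutator hcA hj⟩
    · intro J' hJ'N hJ'T hJ' hodd'
      exact ih _ (hcard _ hlt) (T ⊔ P) rfl J' hTP2
        (sup_le hTN ((hPA.trans hAN).trans Subgroup.le_normalizer)) hJ'N hJ'T hJ' hodd'


/-- `[N_N(S), J] ≤ O(C_N(S))` when `J` centralizes the Sylow 2-subgroup `S` of `N` -/
theorem cs_step [Finite X] {N S J : Subgroup X} (hS : IsSylIn 2 S N)
    (hJN : J ≤ Subgroup.normalizer (N : Set X)) (hJS : ∀ j ∈ J, ∀ s ∈ S, j * s = s * j)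
    (hJ : ⁅J, J⁆ = J) {y : X} (hyN : y ∈ N) (hyS : y ∈ Subgroup.normalizer (S : Set X)) :
    ∀ j ∈ J, ⁅y, j⁆ ∈ W (N ⊓ Subgroup.centralizer (S : Set X)) := by
  have : Fact (Nat.Prime 2) := ⟨Nat.prime_two⟩
  obtain ⟨P, hP⟩ := Helper42.exists_isSylIn 2 (N ⊓ Subgroup.centralizer (S : Set X))
  have hPS : P ≤ S := sylow_le_of_norm hS hP.2.1 (hP.1.trans inf_le_left)
    ((hP.1.trans inf_le_right).trans (Subgroup.centralizer_le_normalizer _))
  refine comm_mem_W_of_perfect hP ?_ ?_ (fun j hj p hp => hJS j hj p (hPS hp)) hJ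
    (fun j hj => comm_mem_inf_centralizer hyN hyS (hJN hj) (hJS j hj))
  · intro p hp m hm
    exact Subgroup.mem_centralizer_iff.mp hm.2 p (hPS hp)
  · intro j hj
    exact norm_inf (hJN hj) (cent_le_norm_cent (hJS j hj))

/-- the normalizers of the non-normal subgroups of `S` (by downward induction) -/
theorem claim_a [Finite X] {N S J : Subgroup X} (hS : IsSylIn 2 S N)
    (hJN : J ≤ Subgroup.normalizer (N : Set X)) (hJS : ∀ j ∈ J, ∀ s ∈ S, j * s = s * j)
    (hJ : JCls J) (hGLS : ∀ N' : Subgroup X, Nat.card N' < Nat.card N → GlSyl N') :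
    ∀ k : ℕ, ∀ D : Subgroup X, D ≤ S → Nat.card S ≤ Nat.card D + k →
      ¬ N ≤ Subgroup.normalizer (D : Set X) →
      ∀ m ∈ N ⊓ Subgroup.normalizer (D : Set X), ∀ j ∈ J,
        ⁅m, j⁆ ∈ W (N ⊓ Subgroup.normalizer (D : Set X)) := by
  have : Fact (Nat.Prime 2) := ⟨Nat.prime_two⟩
  have core : ∀ D : Subgroup X, D ≤ S → ¬ N ≤ Subgroup.normalizer (D : Set X) →
      (∃ V : Subgroup X, (Nat.card V).Coprime 2 ∧ ∀ c ∈ N,
        (∀ t ∈ S ⊓ Subgroup.normalizer (D : Set X), c * t = t * c) → ∀ j ∈ J, ⁅c, j⁆ ∈ V) →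
      ∀ m ∈ N ⊓ Subgroup.normalizer (D : Set X), ∀ j ∈ J,
        ⁅m, j⁆ ∈ W (N ⊓ Subgroup.normalizer (D : Set X)) := by
    rintro D hD hDn ⟨V, hVodd, hV⟩
    have hlt : N ⊓ Subgroup.normalizer (D : Set X) < N :=
      lt_of_le_of_ne inf_le_left (fun h => hDn (inf_eq_left.mp h))
    have hGL := gl_of_gls (hGLS _ (Helper42.card_lt_of_lt hlt))
    have hJD : ∀ j ∈ J, j ∈ Subgroup.normalizer (D : Set X) :=
      fun j hj => cent_le_norm (fun d hd => hJS j hj d (hD hd))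
    exact hGL (S ⊓ Subgroup.normalizer (D : Set X)) J (hS.2.1.to_le inf_le_left)
      ((inf_le_inf_right _ hS.1).trans Subgroup.le_normalizer)
      (fun j hj => norm_inf (hJN hj) (Subgroup.le_normalizer (hJD j hj)))
      (fun j hj t ht => hJS j hj t ht.1) hJ
      ⟨V, hVodd, fun c hc hcT j hj => hV c hc.1 hcT j hj⟩
  have base : ∀ D : Subgroup X, D = S → ¬ N ≤ Subgroup.normalizer (D : Set X) →
      ∀ m ∈ N ⊓ Subgroup.normalizer (D : Set X), ∀ j ∈ J,
        ⁅m, j⁆ ∈ W (N ⊓ Subgroup.normalizer (D : Set X)) := by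
    intro D hDS hDn
    refine core D hDS.le hDn ⟨W (N ⊓ Subgroup.centralizer (S : Set X)), W_odd _, ?_⟩
    intro c hc hcT j hj
    have hcS : ∀ s ∈ S, c * s = s * c := by
      intro s hs
      refine hcT s ⟨hs, ?_⟩
      rw [hDS]
      exact Subgroup.le_normalizer hs
    exact cs_step hS hJN hJS hJ.1 hc (cent_le_norm hcS) j hj
  intro k
  induction k with
  | zero =>
    intro D hD hcard hDn
    exact base D (Subgroup.eq_of_le_of_card_ge hD (by simpa using hcard)) hDn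
  | succ k ih =>
    intro D hD hcard hDn
    by_cases hDS : D = S
    · exact base D hDS hDn
    have hlt := Helper42.card_lt_card_inf_normalizer hS.2.1 hD hDS
    by_cases hTn : N ≤ Subgroup.normalizer
        ((S ⊓ Subgroup.normalizer (D : Set X) : Subgroup X) : Set X)
    · have hDT' : D ≤ S ⊓ Subgroup.normalizer (D : Set X) := le_inf hD Subgroup.le_normalizer
      have hM''lt : N ⊓ Subgroup.centralizer
          ((S ⊓ Subgroup.normalizer (D : Set X) : Subgroup X) : Set X) < N := by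
        refine lt_of_le_of_ne inf_le_left (fun h => hDn ?_)
        have h1 : N ≤ Subgroup.centralizer
            ((S ⊓ Subgroup.normalizer (D : Set X) : Subgroup X) : Set X) := inf_eq_left.mp h
        intro n hn
        apply Subgroup.centralizer_le_normalizer
        exact Subgroup.centralizer_le hDT' (h1 hn)
      have hG := hGLS _ (Helper42.card_lt_of_lt hM''lt)
      have hSyl : IsSylIn 2 (S ⊓ (N ⊓ Subgroup.centralizer
          ((S ⊓ Subgroup.normalizer (D : Set X) : Subgroup X) : Set X)))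
          (N ⊓ Subgroup.centralizer
            ((S ⊓ Subgroup.normalizer (D : Set X) : Subgroup X) : Set X)) :=
        isSylIn_inf_of_normal hS inf_le_left
          (fun n hn => norm_inf (Subgroup.le_normalizer hn) (norm_centralizer (hTn hn)))
      have hres := hG _ J hSyl
        (fun j hj => norm_inf (hJN hj) (cent_le_norm_cent (fun t ht => hJS j hj t ht.1)))
        (fun j hj s hs => hJS j hj s hs.1) hJ
      refine core D hD hDn
        ⟨W _, W_odd _, fun c hc hcT j hj => hres c (Subgroup.mem_inf.mpr ⟨hc, ?_⟩) j hj⟩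
      rw [Subgroup.mem_centralizer_iff]
      intro t ht
      exact (hcT t ht).symm
    · have hres := ih (S ⊓ Subgroup.normalizer (D : Set X)) inf_le_left (by omega) hTn
      exact core D hD hDn
        ⟨W _, W_odd _, fun c hc hcT j hj => hres c ⟨hc, cent_le_norm hcT⟩ j hj⟩

/-- weak closure of the 2-elements of `J`, normalized form -/
theorem wc0 [Finite X] {N S J : Subgroup X} (hS : IsSylIn 2 S N)
    (hJN : J ≤ Subgroup.normalizer (N : Set X)) (hJS : ∀ j ∈ J, ∀ s ∈ S, j * s = s * j)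
    (hJ : ⁅J, J⁆ = J)
    (ha : ∀ D : Subgroup X, D ≤ S → ¬ N ≤ Subgroup.normalizer (D : Set X) →
      ∀ m ∈ N ⊓ Subgroup.normalizer (D : Set X), ∀ j ∈ J,
        ⁅m, j⁆ ∈ W (N ⊓ Subgroup.normalizer (D : Set X)))
    {v g : X} (hv : v ∈ J) (hg : g ∈ N) (hs : g⁻¹ * v * g * v⁻¹ ∈ S)
    (hDS : cj g S ⊓ Subgroup.centralizer ({v} : Set X) ≤ S) : g⁻¹ * v * g * v⁻¹ = 1 := by
  have : Fact (Nat.Prime 2) := ⟨Nat.prime_two⟩
  have hR : IsSylIn 2 (cj g S) N := by
    have h1 := hS.conj g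
    rwa [cj_eq_of_mem_normalizer (Subgroup.le_normalizer hg)] at h1
  have hRN : cj g S ≤ N := hR.1
  obtain ⟨r, hr⟩ : ∃ r : X, r = g * (g⁻¹ * v * g * v⁻¹) * g⁻¹ := ⟨_, rfl⟩
  have hR1 : ∀ x ∈ cj g S, v * x * v⁻¹ = r * x * r⁻¹ := by
    intro x hx
    have hy : g⁻¹ * x * g ∈ S := mem_cj.mp hx
    have h1 : v * (g⁻¹ * x * g) = (g⁻¹ * x * g) * v := hJS v hv _ hy
    have h2 : v⁻¹ * (g⁻¹ * x * g) * v = g⁻¹ * x * g := by
      rw [mul_assoc, ← h1, ← mul_assoc, inv_mul_cancel, one_mul]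
    rw [hr]
    calc v * x * v⁻¹ = v * g * (g⁻¹ * x * g) * g⁻¹ * v⁻¹ := by group
      _ = v * g * (v⁻¹ * (g⁻¹ * x * g) * v) * g⁻¹ * v⁻¹ := by rw [h2]
      _ = _ := by group
  have hrR : r ∈ cj g S := by
    rw [hr]; exact conj_mem_cj hs
  have hcomm_iff : ∀ x ∈ cj g S,
      (x ∈ Subgroup.centralizer ({v} : Set X) ↔ r * x = x * r) := by
    intro x hx
    rw [Subgroup.mem_centralizer_singleton_iff]
    have h := hR1 x hx
    constructor
    · intro hxv
      have h3 : v * x * v⁻¹ = x := by rw [← hxv, mul_inv_cancel_right]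
      rw [h3] at h
      exact mul_inv_eq_iff_eq_mul.mp h.symm
    · intro hrx
      have h3 : v * x * v⁻¹ = x := by rw [h, hrx, mul_inv_cancel_right]
      exact (mul_inv_eq_iff_eq_mul.mp h3).symm
  by_cases hRv : cj g S ≤ Subgroup.centralizer ({v} : Set X)
  · have hRS : cj g S ≤ S := (le_inf le_rfl hRv).trans hDS
    have hRS' : cj g S = S := Subgroup.eq_of_le_of_card_ge hRS (by rw [card_cj])
    have hgS : g ∈ Subgroup.normalizer (S : Set X) := cj_eq_self_iff.mp hRS'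
    have h1 := cs_step hS hJN hJS hJ (N.inv_mem hg) (Subgroup.inv_mem _ hgS) v hv
    have e : ⁅g⁻¹, v⁆ = g⁻¹ * v * g * v⁻¹ := by
      simp only [commutatorElement_def, inv_inv]
    rw [e] at h1
    exact eq_one_of_two_odd (W_odd _) (two_elt_of_mem hS.2.1 hs) h1
  · exfalso
    obtain ⟨D, hDdef⟩ : ∃ D : Subgroup X, D = cj g S ⊓ Subgroup.centralizer ({v} : Set X) :=
      ⟨_, rfl⟩
    have hDle : D ≤ S := hDdef ▸ hDS
    have hDR : D ≤ cj g S := hDdef ▸ inf_le_left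
    have hDmem : ∀ x, x ∈ D ↔ x ∈ cj g S ∧ x ∈ Subgroup.centralizer ({v} : Set X) := by
      intro x; rw [hDdef]; exact Subgroup.mem_inf
    have hDne : D ≠ cj g S := by
      intro h
      apply hRv
      rw [← h, hDdef]
      exact inf_le_right
    have hcard := Helper42.card_lt_card_inf_normalizer hR.2.1 hDR hDne
    have hex : ∃ y ∈ cj g S, y ∈ Subgroup.normalizer (D : Set X) ∧ y ∉ D := by
      by_contra hcon
      push Not at hcon
      have h1 : cj g S ⊓ Subgroup.normalizer (D : Set X) ≤ D := fun x hx => hcon x hx.1 hx.2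
      exact absurd (Subgroup.card_le_of_le h1) (not_le.mpr hcard)
    obtain ⟨y, hyR, hyD, hynD⟩ := hex
    have hrD : r ∈ D := (hDmem r).mpr ⟨hrR, (hcomm_iff r hrR).mpr rfl⟩
    have ht : ⁅y⁻¹, v⁆ ∈ cj g S := by
      have e : ⁅y⁻¹, v⁆ = y⁻¹ * (v * y * v⁻¹) := by
        simp only [commutatorElement_def, inv_inv]; group
      rw [e, hR1 y hyR]
      exact Subgroup.mul_mem _ (Subgroup.inv_mem _ hyR)
        (Subgroup.mul_mem _ (Subgroup.mul_mem _ hrR hyR) (Subgroup.inv_mem _ hrR))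
    have hodd : ∃ V : Subgroup X, (Nat.card V).Coprime 2 ∧ ⁅y⁻¹, v⁆ ∈ V := by
      by_cases hDn : N ≤ Subgroup.normalizer (D : Set X)
      · have hP₀ : IsSylIn 2 (cj g S ⊓ (N ⊓ Subgroup.centralizer (D : Set X)))
            (N ⊓ Subgroup.centralizer (D : Set X)) :=
          isSylIn_inf_of_normal hR inf_le_left
            (fun n hn => norm_inf (Subgroup.le_normalizer hn) (norm_centralizer (hDn hn)))
        have hP₀D : cj g S ⊓ (N ⊓ Subgroup.centralizer (D : Set X)) ≤ D := by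
          intro x hx
          refine (hDmem x).mpr ⟨hx.1, (hcomm_iff x hx.1).mpr ?_⟩
          exact Subgroup.mem_centralizer_iff.mp hx.2.2 r hrD
        refine ⟨W _, W_odd _, comm_mem_W_of_perfect hP₀ ?_ ?_ ?_ hJ ?_ v hv⟩
        · intro p hp m hm
          exact Subgroup.mem_centralizer_iff.mp hm.2 p (hP₀D hp)
        · intro j hj
          exact norm_inf (hJN hj) (cent_le_norm_cent (fun d hd => hJS j hj d (hDle hd)))
        · intro j hj p hp
          exact hJS j hj p (hDle (hP₀D hp))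
        · intro j hj
          exact comm_mem_inf_centralizer (N.inv_mem (hRN hyR)) (hDn (N.inv_mem (hRN hyR)))
            (hJN hj) (fun d hd => hJS j hj d (hDle hd))
      · exact ⟨W _, W_odd _, ha D hDle hDn y⁻¹
          ⟨N.inv_mem (hRN hyR), Subgroup.inv_mem _ hyD⟩ v hv⟩
    obtain ⟨V, hVodd, htV⟩ := hodd
    have ht1 : ⁅y⁻¹, v⁆ = 1 := eq_one_of_two_odd hVodd (two_elt_of_mem hR.2.1 ht) htV
    apply hynD
    refine (hDmem y).mpr ⟨hyR, ?_⟩
    rw [Subgroup.mem_centralizer_singleton_iff]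
    have e : ⁅y⁻¹, v⁆ = y⁻¹ * v * y * v⁻¹ := by
      simp only [commutatorElement_def, inv_inv]
    rw [e] at ht1
    have h5 : y⁻¹ * v * y = v := by rwa [mul_inv_eq_one] at ht1
    calc y * v = y * (y⁻¹ * v * y) := by rw [h5]
      _ = v * y := by group

/-- weak closure of the 2-elements of `J` -/
theorem wc [Finite X] {N S J : Subgroup X} (hS : IsSylIn 2 S N)
    (hJN : J ≤ Subgroup.normalizer (N : Set X)) (hJS : ∀ j ∈ J, ∀ s ∈ S, j * s = s * j)
    (hJ : ⁅J, J⁆ = J)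
    (ha : ∀ D : Subgroup X, D ≤ S → ¬ N ≤ Subgroup.normalizer (D : Set X) →
      ∀ m ∈ N ⊓ Subgroup.normalizer (D : Set X), ∀ j ∈ J,
        ⁅m, j⁆ ∈ W (N ⊓ Subgroup.normalizer (D : Set X)))
    {v g : X} (hv : v ∈ J) (hg : g ∈ N) (hs : g⁻¹ * v * g * v⁻¹ ∈ S) :
    g⁻¹ * v * g * v⁻¹ = 1 := by
  have : Fact (Nat.Prime 2) := ⟨Nat.prime_two⟩
  have hSC : IsSylIn 2 S (N ⊓ Subgroup.centralizer ({v} : Set X)) :=
    isSylIn_of_le hS (le_inf hS.1 (fun s hs' =>
      Subgroup.mem_centralizer_singleton_iff.mpr (hJS v hv s hs').symm)) inf_le_left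
  have hR2 : IsPGroup 2 (cj g S ⊓ Subgroup.centralizer ({v} : Set X) : Subgroup X) :=
    (isPGroup_cj hS.2.1).to_le inf_le_left
  have hRle : cj g S ⊓ Subgroup.centralizer ({v} : Set X) ≤
      N ⊓ Subgroup.centralizer ({v} : Set X) := by
    refine inf_le_inf_right _ ?_
    have h1 := cj_mono (g := g) hS.1
    rwa [cj_eq_of_mem_normalizer (Subgroup.le_normalizer hg)] at h1
  obtain ⟨c, hc, hle⟩ := hSC.exists_conj_le hRle hR2
  have hcv : c * v = v * c := Subgroup.mem_centralizer_singleton_iff.mp hc.2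
  have e : (c * g)⁻¹ * v * (c * g) * v⁻¹ = g⁻¹ * v * g * v⁻¹ := by
    calc (c * g)⁻¹ * v * (c * g) * v⁻¹ = g⁻¹ * (c⁻¹ * (v * c)) * g * v⁻¹ := by group
      _ = g⁻¹ * (c⁻¹ * (c * v)) * g * v⁻¹ := by rw [hcv]
      _ = g⁻¹ * v * g * v⁻¹ := by group
  have key := wc0 hS hJN hJS hJ ha hv (N.mul_mem hc.1 hg) (v := v) (g := c * g)
    (by rw [e]; exact hs) (by
      intro x hx
      apply hle
      rw [mem_cj]
      refine Subgroup.mem_inf.mpr ⟨?_, ?_⟩
      · rw [mem_cj]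
        have h1 := mem_cj.mp hx.1
        have e2 : g⁻¹ * (c⁻¹ * x * c) * g = (c * g)⁻¹ * x * (c * g) := by group
        rw [e2]; exact h1
      · rw [Subgroup.mem_centralizer_singleton_iff]
        have hxv := Subgroup.mem_centralizer_singleton_iff.mp hx.2
        have hcv' : c⁻¹ * v = v * c⁻¹ := by
          calc c⁻¹ * v = c⁻¹ * (v * c) * c⁻¹ := by group
            _ = c⁻¹ * (c * v) * c⁻¹ := by rw [hcv]
            _ = v * c⁻¹ := by group
        calc c⁻¹ * x * c * v = c⁻¹ * x * (c * v) := by group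
          _ = c⁻¹ * x * (v * c) := by rw [hcv]
          _ = c⁻¹ * (x * v) * c := by group
          _ = c⁻¹ * (v * x) * c := by rw [hxv]
          _ = (c⁻¹ * v) * x * c := by group
          _ = (v * c⁻¹) * x * c := by rw [hcv']
          _ = v * (c⁻¹ * x * c) := by group)
  rw [e] at key
  exact key

/-- the `Z*`-theorem: weakly closed 2-elements of `J` act trivially on `N / O(N)` -/
theorem two_elt_ker (hZ : Helper29.ZStarAll.{u}) [Finite X] {N S J : Subgroup X}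
    (hS : IsSylIn 2 S N) (hJN : J ≤ Subgroup.normalizer (N : Set X))
    (hJS : ∀ j ∈ J, ∀ s ∈ S, j * s = s * j)
    (hwc : ∀ v ∈ J, (∃ k : ℕ, v ^ 2 ^ k = 1) → ∀ g ∈ N, g⁻¹ * v * g * v⁻¹ ∈ S →
      g⁻¹ * v * g * v⁻¹ = 1)
    {v : X} (hv : v ∈ J) (hv2 : ∃ k : ℕ, v ^ 2 ^ k = 1) : ∀ n ∈ N, ⁅n, v⁆ ∈ W N := by
  have : Fact (Nat.Prime 2) := ⟨Nat.prime_two⟩
  obtain ⟨hP, hNP⟩ := isSylIn_sup_zpowers hS (hJN hv) (hJS v hv) hv2
  have hzJ : Subgroup.zpowers v ≤ J := Subgroup.zpowers_le.mpr hv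
  have hzN : Subgroup.zpowers v ≤ Subgroup.normalizer (N : Set X) := hzJ.trans hJN
  have hPv : S ⊔ Subgroup.zpowers v ≤ Subgroup.centralizer ({v} : Set X) := by
    apply sup_le
    · intro s hs
      exact Subgroup.mem_centralizer_singleton_iff.mpr (hJS v hv s hs).symm
    · exact Subgroup.zpowers_le.mpr (Subgroup.mem_centralizer_singleton_iff.mpr rfl)
  have hcomm : ∀ c ∈ Subgroup.zpowers v, ∀ s ∈ S ⊔ Subgroup.zpowers v, c * s = s * c := by
    intro c hc s hs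
    obtain ⟨i, rfl⟩ := Subgroup.mem_zpowers_iff.mp hc
    have h1 : s * v = v * s := Subgroup.mem_centralizer_singleton_iff.mp (hPv hs)
    exact ((Commute.zpow_right (show Commute s v from h1) i).eq).symm
  have hz2 : ∀ c ∈ Subgroup.zpowers v, ∃ k : ℕ, c ^ 2 ^ k = 1 :=
    fun c hc => two_elt_of_mem (isPGroup_zpowers hv2) hc
  have key := zstar_ambient hZ hP le_sup_right hcomm (by
    intro c hc h hh hcon
    obtain ⟨n, hn, b, hb, rfl⟩ := mem_sup_norm hzN hh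
    have hbc : b * c = c * b := hcomm b hb c (Subgroup.mem_sup_right hc)
    have e1 : n * b * c * (n * b)⁻¹ = n * c * n⁻¹ := by
      calc n * b * c * (n * b)⁻¹ = n * (b * c) * b⁻¹ * n⁻¹ := by group
        _ = n * (c * b) * b⁻¹ * n⁻¹ := by rw [hbc]
        _ = n * c * n⁻¹ := by group
    rw [e1] at hcon ⊢
    have htN : n * c * n⁻¹ * c⁻¹ ∈ N := by
      have e2 : n * c * n⁻¹ * c⁻¹ = n * (c * n⁻¹ * c⁻¹) := by group
      rw [e2]
      exact N.mul_mem hn (nconj (hzN hc) (N.inv_mem hn))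
    have htP : n * c * n⁻¹ * c⁻¹ ∈ S ⊔ Subgroup.zpowers v :=
      Subgroup.mul_mem _ hcon (Subgroup.inv_mem _ (Subgroup.mem_sup_right hc))
    have htS : n * c * n⁻¹ * c⁻¹ ∈ S := by
      rw [← hNP]; exact ⟨htN, htP⟩
    have h3 := hwc c (hzJ hc) (hz2 c hc) n⁻¹ (N.inv_mem hn) (by simpa using htS)
    rw [inv_inv] at h3
    exact mul_inv_eq_one.mp h3)
  intro n hn
  have h1 := key v (Subgroup.mem_zpowers v) n (Subgroup.mem_sup_left hn)
  have h2 : W (N ⊔ Subgroup.zpowers v) ⊓ N ≤ W N := by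
    apply le_W inf_le_right
    · intro x hx
      exact norm_inf (W_norm _ (Subgroup.le_normalizer (Subgroup.mem_sup_left hx)))
        (Subgroup.le_normalizer hx)
    · exact odd_of_le inf_le_left (W_odd _)
  have h3 : v * n * v⁻¹ * n⁻¹ ∈ N := N.mul_mem (nconj (hJN hv) hn) (N.inv_mem hn)
  have h4 := h2 ⟨h1, h3⟩
  have e : ⁅n, v⁆ = (v * n * v⁻¹ * n⁻¹)⁻¹ := by
    simp only [commutatorElement_def]; group
  rw [e]
  exact Subgroup.inv_mem _ h4

/-- **The commutator lemma, Sylow-centralizing case.** -/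
theorem gls_all (hZ : Helper29.ZStarAll.{u}) [Finite X] : ∀ N : Subgroup X, GlSyl N := by
  intro N
  induction' hn : Nat.card N using Nat.strong_induction_on with n ih generalizing N
  have hGLS : ∀ N' : Subgroup X, Nat.card N' < Nat.card N → GlSyl N' :=
    fun N' h => ih _ (hn ▸ h) N' rfl
  intro S J hS hJN hJS hJ
  have ha : ∀ D : Subgroup X, D ≤ S → ¬ N ≤ Subgroup.normalizer (D : Set X) →
      ∀ m ∈ N ⊓ Subgroup.normalizer (D : Set X), ∀ j ∈ J,
        ⁅m, j⁆ ∈ W (N ⊓ Subgroup.normalizer (D : Set X)) :=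
    fun D hD hDn => claim_a hS hJN hJS hJ hGLS (Nat.card S) D hD (Nat.le_add_left _ _) hDn
  have hwc : ∀ v ∈ J, (∃ k : ℕ, v ^ 2 ^ k = 1) → ∀ g ∈ N, g⁻¹ * v * g * v⁻¹ ∈ S →
      g⁻¹ * v * g * v⁻¹ = 1 :=
    fun v hv _ g hg hs => wc hS hJN hJS hJ.1 ha hv hg hs
  have hJK : J ≤ kerAct N := by
    rw [hJ.2, Subgroup.closure_le]
    rintro v ⟨hv, hv2⟩
    exact ⟨hJN hv, two_elt_ker hZ hS hJN hJS hwc hv hv2⟩
  intro x hx j hj
  exact (hJK hj).2 x hx

/-- **The commutator lemma.** Let `T` be a 2-subgroup normalizing `N` and `J` a perfect subgroup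
generated by its 2-elements which normalizes `N` and centralizes `T`. If all commutators
`[c, j]` with `c ∈ C_N(T)`, `j ∈ J` lie in a subgroup of odd order, then `[N, J] ≤ O(N)`. -/
theorem gl_all (hZ : Helper29.ZStarAll.{u}) [Finite X] {N T J : Subgroup X} (hT : IsPGroup 2 T)
    (hTN : T ≤ Subgroup.normalizer (N : Set X)) (hJN : J ≤ Subgroup.normalizer (N : Set X))
    (hJT : ∀ j ∈ J, ∀ t ∈ T, j * t = t * j) (hJp : ⁅J, J⁆ = J)
    (hJ2 : J = Subgroup.closure {x | x ∈ J ∧ ∃ k : ℕ, x ^ 2 ^ k = 1}) (V : Subgroup X)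
    (hV : (Nat.card V).Coprime 2)
    (hVc : ∀ c ∈ N, (∀ t ∈ T, c * t = t * c) → ∀ j ∈ J, ⁅c, j⁆ ∈ V) :
    ∀ x ∈ N, ∀ j ∈ J, ⁅x, j⁆ ∈ W N :=
  gl_of_gls (gls_all hZ N) T J hT hTN hJN hJT ⟨hJp, hJ2⟩ ⟨V, hV, hVc⟩

end Cfsg.Agent.Lib.Helper57.Gl
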