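import Mathlib
import Cfsg.Agent.Lib.Helper29.ZStar
import Cfsg.Agent.Lib.Helper30.Coprime
import Cfsg.Agent.Lib.Helper30.Invol
import Cfsg.Agent.Lib.Helper31.Basic
import Cfsg.Agent.Lib.Helper40.AxB

/-!
# Basic lemmas for the commutator lemma behind `L`-balance (helper57)

Everything is phrased inside one ambient finite group `X`; `W H` is the odd core `O(H)` of a
subgroup `H`, viewed as a subgroup of `X`.
-/

set_option autoImplicit false

namespace Cfsg.Agent.Lib.Helper57.Gl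

open Cfsg Cfsg.Agent.Lib
open Cfsg.Agent.Lib.Helper42 (cj mem_cj conj_mem_cj cj_cj cj_one cj_mono cj_le_iff card_cj
  isPGroup_cj cj_eq_self_iff cj_eq_of_mem_normalizer IsSylIn)
open scoped commutatorElement

universe u

variable {X : Type u} [Group X]

/-- The odd core of a subgroup, as a subgroup of the ambient group. -/
abbrev W (H : Subgroup X) : Subgroup X := (oddCore ↥H).map H.subtype

theorem W_le (H : Subgroup X) : W H ≤ H := Subgroup.map_subtype_le _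

theorem W_odd [Finite X] (H : Subgroup X) : (Nat.card (W H)).Coprime 2 := by
  show (Nat.card ((pPrimeCore 2 ↥H).map H.subtype)).Coprime 2
  rw [Helper30.card_map_subtype]
  exact Helper30.pPrimeCore_coprime 2

theorem W_conj (H : Subgroup X) (g : X) :
    (W H).map (MulAut.conj g).toMonoidHom = W (H.map (MulAut.conj g).toMonoidHom) :=
  Helper31.coreOf_map 2 (MulAut.conj g) H

theorem W_norm (H : Subgroup X) :
    Subgroup.normalizer (H : Set X) ≤ Subgroup.normalizer (W H : Set X) := by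
  intro g hg
  rw [← cj_eq_self_iff]
  show (W H).map (MulAut.conj g).toMonoidHom = W H
  rw [W_conj]
  have h : H.map (MulAut.conj g).toMonoidHom = H := cj_eq_self_iff.mpr hg
  rw [h]

theorem le_W [Finite X] {N H : Subgroup X} (hNH : N ≤ H)
    (hn : H ≤ Subgroup.normalizer (N : Set X)) (hc : (Nat.card N).Coprime 2) : N ≤ W H := by
  have h1 : (N.subgroupOf H).Normal := (Subgroup.normal_subgroupOf_iff_le_normalizer hNH).mpr hn
  have h2 : (Nat.card (N.subgroupOf H)).Coprime 2 := by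
    rw [Nat.card_congr (Subgroup.subgroupOfEquivOfLe hNH).toEquiv]; exact hc
  have h3 : N.subgroupOf H ≤ pPrimeCore 2 ↥H := Helper30.le_pPrimeCore_of_normal h1 h2
  have h4 := Subgroup.map_mono (f := H.subtype) h3
  rw [Subgroup.map_subgroupOf_eq_of_le hNH] at h4
  exact h4

theorem pow_card_mem {K : Subgroup X} {x : X} (hx : x ∈ K) : x ^ Nat.card K = 1 := by
  have h := pow_card_eq_one' (G := ↥K) (x := ⟨x, hx⟩)
  have h2 := congrArg Subtype.val h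
  rw [Subgroup.coe_pow] at h2
  exact h2

theorem two_elt_of_mem {Q : Subgroup X} (hQ : IsPGroup 2 Q) {x : X} (hx : x ∈ Q) :
    ∃ k : ℕ, x ^ 2 ^ k = 1 := by
  obtain ⟨k, hk⟩ := hQ ⟨x, hx⟩
  exact ⟨k, by simpa using congrArg Subtype.val hk⟩

theorem eq_one_of_two_odd {V : Subgroup X} (hV : (Nat.card V).Coprime 2) {x : X}
    (hx2 : ∃ k : ℕ, x ^ 2 ^ k = 1) (hxV : x ∈ V) : x = 1 := by
  obtain ⟨k, hk⟩ := hx2
  exact Helper40.eq_one_of_pow_eq_one_of_coprime hk (pow_card_mem hxV) hV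

theorem not_two_dvd {V : Subgroup X} (hV : (Nat.card V).Coprime 2) : ¬ 2 ∣ Nat.card V := by
  intro h
  have := Nat.Coprime.eq_one_of_dvd hV.symm h
  omega

theorem odd_of_le [Finite X] {A B : Subgroup X} (h : A ≤ B) (hB : (Nat.card B).Coprime 2) :
    (Nat.card A).Coprime 2 :=
  Nat.Coprime.coprime_dvd_left (Subgroup.card_dvd_of_le h) hB

/-! ### normalizers -/

theorem nconj {H : Subgroup X} {g : X} (hg : g ∈ Subgroup.normalizer (H : Set X)) {x : X}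
    (hx : x ∈ H) : g * x * g⁻¹ ∈ H :=
  (Subgroup.mem_normalizer_iff.mp hg x).mp hx

theorem nconj' {H : Subgroup X} {g : X} (hg : g ∈ Subgroup.normalizer (H : Set X)) {x : X}
    (hx : x ∈ H) : g⁻¹ * x * g ∈ H := by
  have := nconj (Subgroup.inv_mem _ hg) hx
  simpa using this

theorem le_norm {A K : Subgroup X} (h : ∀ a ∈ A, ∀ x ∈ K, a * x * a⁻¹ ∈ K) :
    A ≤ Subgroup.normalizer (K : Set X) := by
  intro a ha
  rw [Subgroup.mem_normalizer_iff]
  intro x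
  refine ⟨h a ha x, fun hx => ?_⟩
  have := h a⁻¹ (A.inv_mem ha) _ hx
  simpa [mul_assoc] using this

theorem norm_inf {A B : Subgroup X} {g : X} (hA : g ∈ Subgroup.normalizer (A : Set X))
    (hB : g ∈ Subgroup.normalizer (B : Set X)) :
    g ∈ Subgroup.normalizer ((A ⊓ B : Subgroup X) : Set X) := by
  rw [Subgroup.mem_normalizer_iff] at hA hB ⊢
  intro x
  rw [Subgroup.mem_inf, Subgroup.mem_inf, hA x, hB x]

theorem norm_centralizer {T : Subgroup X} {g : X} (hg : g ∈ Subgroup.normalizer (T : Set X)) :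
    g ∈ Subgroup.normalizer ((Subgroup.centralizer (T : Set X) : Subgroup X) : Set X) := by
  have key : ∀ g : X, g ∈ Subgroup.normalizer (T : Set X) →
      ∀ x ∈ Subgroup.centralizer (T : Set X), g * x * g⁻¹ ∈ Subgroup.centralizer (T : Set X) := by
    intro g hg x hx
    rw [Subgroup.mem_centralizer_iff] at hx ⊢
    intro t ht
    have h1 := hx _ (nconj' hg ht)
    calc t * (g * x * g⁻¹) = g * ((g⁻¹ * t * g) * x) * g⁻¹ := by group
      _ = g * (x * (g⁻¹ * t * g)) * g⁻¹ := by rw [h1]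
      _ = g * x * g⁻¹ * t := by group
  rw [Subgroup.mem_normalizer_iff]
  intro x
  refine ⟨key g hg x, fun hx => ?_⟩
  have := key g⁻¹ (Subgroup.inv_mem _ hg) _ hx
  simpa [mul_assoc] using this

theorem cent_le_norm_cent {T : Subgroup X} {g : X} (hg : ∀ t ∈ T, g * t = t * g) :
    g ∈ Subgroup.normalizer ((Subgroup.centralizer (T : Set X) : Subgroup X) : Set X) := by
  apply Subgroup.le_normalizer
  rw [Subgroup.mem_centralizer_iff]
  intro t ht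
  exact (hg t ht).symm

theorem cent_le_norm {T : Subgroup X} {g : X} (hg : ∀ t ∈ T, g * t = t * g) :
    g ∈ Subgroup.normalizer (T : Set X) := by
  apply Subgroup.centralizer_le_normalizer
  rw [Subgroup.mem_centralizer_iff]
  intro t ht
  exact (hg t ht).symm

theorem le_norm_comm_left (A B : Subgroup X) :
    A ≤ Subgroup.normalizer ((⁅A, B⁆ : Subgroup X) : Set X) := by
  apply le_norm
  intro a ha x hx
  have h : ⁅A, B⁆ ≤ (⁅A, B⁆).comap (MulAut.conj a).toMonoidHom := by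
    rw [Subgroup.commutator_le]
    intro g₁ h₁ g₂ h₂
    rw [Subgroup.mem_comap]
    show a * ⁅g₁, g₂⁆ * a⁻¹ ∈ ⁅A, B⁆
    have e : a * ⁅g₁, g₂⁆ * a⁻¹ = ⁅a * g₁, g₂⁆ * ⁅a, g₂⁆⁻¹ := by
      simp only [commutatorElement_def]; group
    rw [e]
    exact Subgroup.mul_mem _ (Subgroup.commutator_mem_commutator (A.mul_mem ha h₁) h₂)
      (Subgroup.inv_mem _ (Subgroup.commutator_mem_commutator ha h₂))
  exact h hx

theorem le_norm_comm_right (A B : Subgroup X) :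
    B ≤ Subgroup.normalizer ((⁅A, B⁆ : Subgroup X) : Set X) := by
  rw [Subgroup.commutator_comm]
  exact le_norm_comm_left B A

/-! ### products with a normalized subgroup -/

/-- `D * B` as a subgroup when `B` normalizes `D`. -/
def mulSub (D B : Subgroup X) (h : B ≤ Subgroup.normalizer (D : Set X)) : Subgroup X where
  carrier := {x | ∃ d ∈ D, ∃ b ∈ B, x = d * b}
  one_mem' := ⟨1, D.one_mem, 1, B.one_mem, by simp⟩
  mul_mem' := by
    rintro _ _ ⟨d, hd, b, hb, rfl⟩ ⟨d', hd', b', hb', rfl⟩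
    exact ⟨d * (b * d' * b⁻¹), D.mul_mem hd (nconj (h hb) hd'), b * b', B.mul_mem hb hb',
      by group⟩
  inv_mem' := by
    rintro _ ⟨d, hd, b, hb, rfl⟩
    exact ⟨b⁻¹ * d⁻¹ * b, nconj' (h hb) (D.inv_mem hd), b⁻¹, B.inv_mem hb, by group⟩

theorem mem_sup_norm {D B : Subgroup X} (h : B ≤ Subgroup.normalizer (D : Set X)) {x : X}
    (hx : x ∈ D ⊔ B) : ∃ d ∈ D, ∃ b ∈ B, x = d * b := by
  have h1 : D ⊔ B ≤ mulSub D B h := by
    apply sup_le
    · intro d hd; exact ⟨d, hd, 1, B.one_mem, by simp⟩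
    · intro b hb; exact ⟨1, D.one_mem, b, hb, by simp⟩
  exact h1 hx

theorem comm_mem_of_mem_sup {D B : Subgroup X} {c : X}
    (hB : B ≤ Subgroup.normalizer (D : Set X)) (hc : c ∈ Subgroup.normalizer (D : Set X))
    (h : ∀ b ∈ B, ⁅c, b⁆ ∈ D) {x : X} (hx : x ∈ D ⊔ B) : ⁅c, x⁆ ∈ D := by
  obtain ⟨d, hd, b, hb, rfl⟩ := mem_sup_norm hB hx
  have e : ⁅c, d * b⁆ = (c * d * c⁻¹) * ⁅c, b⁆ * d⁻¹ := by
    simp only [commutatorElement_def]; group
  rw [e]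
  exact D.mul_mem (D.mul_mem (nconj hc hd) (h b hb)) (D.inv_mem hd)

theorem comm_sup_sup {D B : Subgroup X} (hB : B ≤ Subgroup.normalizer (D : Set X)) :
    ⁅D ⊔ B, D ⊔ B⁆ ≤ D ⊔ ⁅B, B⁆ := by
  rw [Subgroup.commutator_le]
  intro x hx y hy
  obtain ⟨d, hd, b, hb, rfl⟩ := mem_sup_norm hB hx
  obtain ⟨d', hd', b', hb', rfl⟩ := mem_sup_norm hB hy
  have e : ⁅d * b, d' * b'⁆ = (d * (b * d' * b⁻¹) * ((b * b' * b⁻¹) * d⁻¹ * (b * b' * b⁻¹)⁻¹) *
      ((b * b' * b⁻¹ * b'⁻¹) * d'⁻¹ * (b * b' * b⁻¹ * b'⁻¹)⁻¹)) * ⁅b, b'⁆ := by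
    simp only [commutatorElement_def]; group
  rw [e]
  have hn : ∀ z ∈ B, z ∈ Subgroup.normalizer (D : Set X) := fun z hz => hB hz
  refine Subgroup.mul_mem _ (Subgroup.mem_sup_left ?_)
    (Subgroup.mem_sup_right (Subgroup.commutator_mem_commutator hb hb'))
  refine D.mul_mem (D.mul_mem (D.mul_mem hd (nconj (hn b hb) hd')) ?_) ?_
  · exact nconj (hn _ (B.mul_mem (B.mul_mem hb hb') (B.inv_mem hb))) (D.inv_mem hd)
  · exact nconj (hn _ (B.mul_mem (B.mul_mem (B.mul_mem hb hb') (B.inv_mem hb)) (B.inv_mem hb')))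
      (D.inv_mem hd')

theorem pow_mul_mem {D : Subgroup X} {d u : X} (hd : d ∈ D)
    (hu : u ∈ Subgroup.normalizer (D : Set X)) (e : ℕ) : (d * u) ^ e * (u ^ e)⁻¹ ∈ D := by
  induction e with
  | zero => simp
  | succ e ih =>
    have h1 : (d * u) ^ (e + 1) * (u ^ (e + 1))⁻¹ =
        ((d * u) ^ e * (u ^ e)⁻¹) * (u ^ e * d * (u ^ e)⁻¹) := by
      rw [pow_succ, pow_succ]; group
    rw [h1]
    exact D.mul_mem ih (nconj (Subgroup.pow_mem _ hu e) hd)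

theorem pow_mul_mem' {K : Subgroup X} {d k : X} (hk : k ∈ K)
    (hd : d ∈ Subgroup.normalizer (K : Set X)) (e : ℕ) : (d ^ e)⁻¹ * (d * k) ^ e ∈ K := by
  induction e with
  | zero => simp
  | succ e ih =>
    have h1 : (d ^ (e + 1))⁻¹ * (d * k) ^ (e + 1) =
        (d⁻¹ * ((d ^ e)⁻¹ * (d * k) ^ e) * d) * k := by
      rw [pow_succ, pow_succ]; group
    rw [h1]
    exact K.mul_mem (nconj' hd ih) hk

/-- the 2-part of an element congruent to a 2-element modulo a normalized subgroup -/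
theorem exists_two_part [Finite X] {D : Subgroup X} {h u d : X} (hd : d ∈ D)
    (hu : u ∈ Subgroup.normalizer (D : Set X)) (hh : h = d * u) {b : ℕ} (hub : u ^ 2 ^ b = 1) :
    ∃ e : ℕ, (∃ a : ℕ, (h ^ e) ^ 2 ^ a = 1) ∧ h ^ e * u⁻¹ ∈ D := by
  obtain ⟨a, m, hm, ho⟩ :=
    Nat.exists_eq_pow_mul_and_not_dvd (orderOf_pos h).ne' 2 (by norm_num)
  have hcop : (2 ^ b).Coprime m :=
    Nat.Coprime.pow_left b ((Nat.Prime.coprime_iff_not_dvd Nat.prime_two).mpr hm)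
  obtain ⟨e, he1, he0⟩ := Nat.chineseRemainder hcop 1 0
  refine ⟨e, ⟨a, ?_⟩, ?_⟩
  · rw [← pow_mul]
    apply orderOf_dvd_iff_pow_eq_one.mp
    rw [ho, mul_comm e]
    exact Nat.mul_dvd_mul_left _ ((Nat.modEq_zero_iff_dvd).mp he0)
  · have h1 : u ^ e = u := by
      have h2 : e ≡ 1 [MOD orderOf u] := he1.of_dvd (orderOf_dvd_of_pow_eq_one hub)
      have h3 := pow_eq_pow_iff_modEq.mpr h2
      rwa [pow_one] at h3
    have h4 := pow_mul_mem hd hu e
    rw [h1, ← hh] at h4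
    exact h4

/-! ### the kernel of the action on `N / O(N)` -/

/-- the elements of `N_X(N)` acting trivially on `N / O(N)` -/
def kerAct (N : Subgroup X) : Subgroup X where
  carrier := {x | x ∈ Subgroup.normalizer (N : Set X) ∧ ∀ n ∈ N, ⁅n, x⁆ ∈ W N}
  one_mem' := ⟨Subgroup.one_mem _, fun n _ => by simp⟩
  mul_mem' := by
    rintro a b ⟨ha, ha'⟩ ⟨hb, hb'⟩
    refine ⟨Subgroup.mul_mem _ ha hb, fun n hn => ?_⟩
    have e : ⁅n, a * b⁆ = ⁅n, a⁆ * (a * ⁅n, b⁆ * a⁻¹) := by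
      simp only [commutatorElement_def]; group
    rw [e]
    exact Subgroup.mul_mem _ (ha' n hn) (nconj (W_norm N ha) (hb' n hn))
  inv_mem' := by
    rintro a ⟨ha, ha'⟩
    refine ⟨Subgroup.inv_mem _ ha, fun n hn => ?_⟩
    have e : ⁅n, a⁻¹⁆ = a⁻¹ * ⁅n, a⁆⁻¹ * a := by
      simp only [commutatorElement_def]; group
    rw [e]
    exact nconj' (W_norm N ha) (Subgroup.inv_mem _ (ha' n hn))

theorem mem_kerAct {N : Subgroup X} {x : X} :
    x ∈ kerAct N ↔ x ∈ Subgroup.normalizer (N : Set X) ∧ ∀ n ∈ N, ⁅n, x⁆ ∈ W N := Iff.rfl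

theorem norm_le_norm_kerAct (N : Subgroup X) :
    Subgroup.normalizer (N : Set X) ≤ Subgroup.normalizer (kerAct N : Set X) := by
  apply le_norm
  rintro g hg x ⟨hx, hx'⟩
  refine ⟨Subgroup.mul_mem _ (Subgroup.mul_mem _ hg hx) (Subgroup.inv_mem _ hg), fun n hn => ?_⟩
  have e : ⁅n, g * x * g⁻¹⁆ = g * ⁅g⁻¹ * n * g, x⁆ * g⁻¹ := by
    simp only [commutatorElement_def]; group
  rw [e]
  exact nconj (W_norm N hg) (hx' _ (nconj' hg hn))


/-! ### Sylow 2-subgroups of subgroups -/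

theorem isPGroup_zpowers {v : X} (hv : ∃ k : ℕ, v ^ 2 ^ k = 1) :
    IsPGroup 2 (Subgroup.zpowers v) := by
  obtain ⟨k, hk⟩ := hv
  rintro ⟨x, hx⟩
  obtain ⟨i, rfl⟩ := Subgroup.mem_zpowers_iff.mp hx
  refine ⟨k, Subtype.ext ?_⟩
  show (v ^ i) ^ 2 ^ k = 1
  rw [← zpow_natCast, ← zpow_mul, mul_comm, zpow_mul, zpow_natCast, hk, one_zpow]

theorem isSylIn_inf_of_normal [Finite X] {S N M : Subgroup X} (hS : IsSylIn 2 S N)
    (hMN : M ≤ N) (hn : N ≤ Subgroup.normalizer (M : Set X)) : IsSylIn 2 (S ⊓ M) M := by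
  have : Fact (Nat.Prime 2) := ⟨Nat.prime_two⟩
  obtain ⟨S', hS'⟩ := Helper42.exists_isSylIn 2 M
  obtain ⟨n, hn', hle⟩ := hS.exists_conj_le (hS'.1.trans hMN) hS'.2.1
  have hM : cj n M = M := cj_eq_of_mem_normalizer (hn hn')
  have hle' : cj n S' ≤ S ⊓ M := le_inf hle (hM ▸ cj_mono hS'.1)
  refine ⟨inf_le_right, hS.2.1.to_le inf_le_left, fun h2 => ?_⟩
  have h3 := (hS'.conj n).2.2
  rw [hM] at h3
  exact h3 (dvd_trans h2 (Subgroup.relIndex_dvd_of_le_left M hle'))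

theorem sylow_le_of_norm [Finite X] {S N Q : Subgroup X} (hS : IsSylIn 2 S N)
    (hQ : IsPGroup 2 Q) (hQN : Q ≤ N) (hQS : Q ≤ Subgroup.normalizer (S : Set X)) : Q ≤ S := by
  have : Fact (Nat.Prime 2) := ⟨Nat.prime_two⟩
  have h1 : IsPGroup 2 (Q ⊔ S : Subgroup X) := IsPGroup.to_sup_of_normal_right' hQ hS.2.1 hQS
  have h2 : S = Q ⊔ S := hS.eq_of_le (sup_le hQN hS.1) h1 le_sup_right
  rw [h2]
  exact le_sup_left

theorem exists_isSylIn_ge [Finite X] {Q H : Subgroup X} (hQ : IsPGroup 2 Q) (hQH : Q ≤ H) :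
    ∃ T, IsSylIn 2 T H ∧ Q ≤ T := by
  have : Fact (Nat.Prime 2) := ⟨Nat.prime_two⟩
  obtain ⟨T₀, hT₀⟩ := Helper42.exists_isSylIn 2 H
  obtain ⟨h, hh, hle⟩ := hT₀.exists_conj_le hQH hQ
  refine ⟨cj h⁻¹ T₀, ?_, cj_le_iff.mp hle⟩
  have h1 := hT₀.conj h⁻¹
  rwa [cj_eq_of_mem_normalizer (Subgroup.le_normalizer (H.inv_mem hh))] at h1

theorem isSylIn_of_le [Finite X] {S N C : Subgroup X} (hS : IsSylIn 2 S N) (hSC : S ≤ C)
    (hCN : C ≤ N) : IsSylIn 2 S C := by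
  have : Fact (Nat.Prime 2) := ⟨Nat.prime_two⟩
  obtain ⟨T, hT, hST⟩ := exists_isSylIn_ge hS.2.1 hSC
  have h1 : S = T := hS.eq_of_le (hT.1.trans hCN) hT.2.1 hST
  rw [h1]
  exact hT

theorem isSylIn_sup_zpowers [Finite X] {S N : Subgroup X} (hS : IsSylIn 2 S N) {v : X}
    (hvN : v ∈ Subgroup.normalizer (N : Set X)) (hvS : ∀ s ∈ S, v * s = s * v)
    (hv2 : ∃ k : ℕ, v ^ 2 ^ k = 1) :
    IsSylIn 2 (S ⊔ Subgroup.zpowers v) (N ⊔ Subgroup.zpowers v) ∧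
      N ⊓ (S ⊔ Subgroup.zpowers v) = S := by
  have : Fact (Nat.Prime 2) := ⟨Nat.prime_two⟩
  have hz2 : IsPGroup 2 (Subgroup.zpowers v) := isPGroup_zpowers hv2
  have hzS : Subgroup.zpowers v ≤ Subgroup.normalizer (S : Set X) :=
    Subgroup.zpowers_le.mpr (cent_le_norm hvS)
  have hP2 : IsPGroup 2 (S ⊔ Subgroup.zpowers v : Subgroup X) := by
    rw [sup_comm]
    exact IsPGroup.to_sup_of_normal_right' hz2 hS.2.1 hzS
  have hPH : S ⊔ Subgroup.zpowers v ≤ N ⊔ Subgroup.zpowers v := sup_le_sup_right hS.1 _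
  have hinf : ∀ P' : Subgroup X, IsPGroup 2 P' → S ≤ P' → N ⊓ P' = S := by
    intro P' hP' hSP'
    exact (hS.eq_of_le inf_le_left (hP'.to_le inf_le_right) (le_inf hS.1 hSP')).symm
  refine ⟨?_, hinf _ hP2 le_sup_left⟩
  obtain ⟨P', hP', hPP'⟩ := exists_isSylIn_ge hP2 hPH
  have hzN : Subgroup.zpowers v ≤ Subgroup.normalizer (N : Set X) := Subgroup.zpowers_le.mpr hvN
  have hle : P' ≤ S ⊔ Subgroup.zpowers v := by
    intro x hx
    obtain ⟨n, hn, b, hb, rfl⟩ := mem_sup_norm hzN (hP'.1 hx)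
    have hb' : b ∈ P' := hPP' (Subgroup.mem_sup_right hb)
    have hn' : n ∈ P' := by
      have := P'.mul_mem hx (P'.inv_mem hb')
      simpa using this
    have hnS : n ∈ S := by
      rw [← hinf P' hP'.2.1 (le_sup_left.trans hPP')]
      exact ⟨hn, hn'⟩
    exact Subgroup.mul_mem _ (Subgroup.mem_sup_left hnS) (Subgroup.mem_sup_right hb)
  have heq : P' = S ⊔ Subgroup.zpowers v := le_antisymm hle hPP'
  rw [← heq]
  exact hP'

/-! ### central Sylow 2-subgroups -/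

/-- Burnside: a subgroup with a central Sylow 2-subgroup `P` is `P * O(M)`. -/
theorem central_sylow_decomp [Finite X] {M P : Subgroup X} (hP : IsSylIn 2 P M)
    (hc : ∀ p ∈ P, ∀ m ∈ M, p * m = m * p) :
    ∀ m ∈ M, ∃ p ∈ P, ∃ w ∈ W M, m = p * w := by
  have : Fact (Nat.Prime 2) := ⟨Nat.prime_two⟩
  let P' : Sylow 2 ↥M := IsPGroup.toSylow (P := P.subgroupOf M) hP.2.1.comap_subtype hP.2.2
  have hP'mem : ∀ x : ↥M, x ∈ (P' : Subgroup ↥M) ↔ (x : X) ∈ P := fun x => Iff.rfl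
  have hN : Subgroup.normalizer ((P' : Subgroup ↥M) : Set ↥M) ≤
      Subgroup.centralizer ((P' : Subgroup ↥M) : Set ↥M) := by
    intro g _
    rw [Subgroup.mem_centralizer_iff]
    intro h hh
    apply Subtype.ext
    exact hc h ((hP'mem h).mp hh) g g.2
  have hcomp := MonoidHom.ker_transferSylow_isComplement' P' hN
  have hodd : (Nat.card (MonoidHom.transferSylow P' hN).ker).Coprime 2 :=
    ((Nat.Prime.coprime_iff_not_dvd Nat.prime_two).mpr
      (MonoidHom.not_dvd_card_ker_transferSylow P' hN)).symm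
  have hK : (MonoidHom.transferSylow P' hN).ker ≤ pPrimeCore 2 ↥M :=
    Helper30.le_pPrimeCore_of_normal (MonoidHom.normal_ker _) hodd
  intro m hm
  obtain ⟨⟨k, p⟩, hkp, -⟩ := (Subgroup.isComplement_iff_existsUnique.mp hcomp) ⟨m, hm⟩
  have hkp' : ((k : ↥M) : X) * ((p : ↥M) : X) = m := congrArg Subtype.val hkp
  refine ⟨((p : ↥M) : X), (hP'mem _).mp p.2, ((k : ↥M) : X), ⟨(k : ↥M), hK k.2, rfl⟩, ?_⟩
  rw [hc _ ((hP'mem _).mp p.2) _ (k : ↥M).2, hkp']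

/-- elements normalizing `M` and centralizing its central Sylow 2-subgroup act trivially on
`M / O(M)` -/
theorem comm_mem_W_of_central [Finite X] {M P : Subgroup X} (hP : IsSylIn 2 P M)
    (hc : ∀ p ∈ P, ∀ m ∈ M, p * m = m * p) {m x : X} (hm : m ∈ M)
    (hx : x ∈ Subgroup.normalizer (M : Set X)) (hxP : ∀ p ∈ P, x * p = p * x) :
    ⁅m, x⁆ ∈ W M := by
  obtain ⟨p, hp, w, hw, rfl⟩ := central_sylow_decomp hP hc m hm
  have hxp : x * p⁻¹ * x⁻¹ = p⁻¹ := by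
    have h0 := hxP p hp
    calc x * p⁻¹ * x⁻¹ = p⁻¹ * (p * x) * p⁻¹ * x⁻¹ := by group
      _ = p⁻¹ * (x * p) * p⁻¹ * x⁻¹ := by rw [h0]
      _ = p⁻¹ := by group
  have e : ⁅p * w, x⁆ = p * (w * (x * w⁻¹ * x⁻¹)) * (x * p⁻¹ * x⁻¹) := by
    simp only [commutatorElement_def]; group
  rw [e, hxp]
  have h1 : w * (x * w⁻¹ * x⁻¹) ∈ W M :=
    Subgroup.mul_mem _ hw (nconj (W_norm M hx) (Subgroup.inv_mem _ hw))
  exact nconj (W_norm M (Subgroup.le_normalizer (hP.1 hp))) h1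

/-- **Key lemma.** If the perfect group `J` normalizes `M`, centralizes a central Sylow
2-subgroup of `M`, and `[y, J] ⊆ M`, then `[y, J] ⊆ O(M)`. -/
theorem comm_mem_W_of_perfect [Finite X] {M P J : Subgroup X} (hP : IsSylIn 2 P M)
    (hc : ∀ p ∈ P, ∀ m ∈ M, p * m = m * p) (hJM : J ≤ Subgroup.normalizer (M : Set X))
    (hJP : ∀ j ∈ J, ∀ p ∈ P, j * p = p * j) (hJ : ⁅J, J⁆ = J) {y : X}
    (hy : ∀ j ∈ J, ⁅y, j⁆ ∈ M) : ∀ j ∈ J, ⁅y, j⁆ ∈ W M := by
  have hMn : M ≤ Subgroup.normalizer (M : Set X) := Subgroup.le_normalizer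
  have hJV : J ≤ Subgroup.normalizer (W M : Set X) := hJM.trans (W_norm M)
  have hMV : M ≤ Subgroup.normalizer (W M : Set X) := hMn.trans (W_norm M)
  have key : ∀ m ∈ M, ∀ x : X, x ∈ Subgroup.normalizer (M : Set X) →
      (∀ p ∈ P, x * p = p * x) → ⁅m, x⁆ ∈ W M :=
    fun m hm x hx hxP => comm_mem_W_of_central hP hc hm hx hxP
  have hMP : ∀ m ∈ M, ∀ p ∈ P, m * p = p * m := fun m hm p hp => (hc p hp m hm).symm
  let K : Subgroup X :=
    { carrier := {j | j ∈ J ∧ ⁅y, j⁆ ∈ W M}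
      one_mem' := ⟨J.one_mem, by simp⟩
      mul_mem' := by
        rintro a b ⟨ha, ha'⟩ ⟨hb, hb'⟩
        refine ⟨J.mul_mem ha hb, ?_⟩
        have e : ⁅y, a * b⁆ = ⁅y, a⁆ * (a * ⁅y, b⁆ * a⁻¹) := by
          simp only [commutatorElement_def]; group
        rw [e]
        exact Subgroup.mul_mem _ ha' (nconj (hJV ha) hb')
      inv_mem' := by
        rintro a ⟨ha, ha'⟩
        refine ⟨J.inv_mem ha, ?_⟩
        have e : ⁅y, a⁻¹⁆ = a⁻¹ * ⁅y, a⁆⁻¹ * a := by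
          simp only [commutatorElement_def]; group
        rw [e]
        exact nconj' (hJV ha) (Subgroup.inv_mem _ ha') }
  have hK : ⁅J, J⁆ ≤ K := by
    rw [Subgroup.commutator_le]
    intro a ha b hb
    have hcJ : ⁅a, b⁆ ∈ J := by
      rw [commutatorElement_def]
      exact J.mul_mem (J.mul_mem (J.mul_mem ha hb) (J.inv_mem ha)) (J.inv_mem hb)
    refine ⟨hcJ, ?_⟩
    have hz := hy a ha
    have hw := hy b hb
    have e : ⁅y, ⁅a, b⁆⁆ = (⁅y, a⁆ * (⁅⁅y, b⁆, a⁆⁻¹ * ⁅⁅y, b⁆, ⁅a, b⁆⁆) * ⁅y, a⁆⁻¹) *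
        ⁅⁅y, a⁆, ⁅a, b⁆⁆ * (⁅a, b⁆ * ⁅⁅y, a⁆, ⁅y, b⁆ * b⁆ * ⁅a, b⁆⁻¹) := by
      simp only [commutatorElement_def]; group
    rw [e]
    have h1 : ⁅⁅y, b⁆, a⁆ ∈ W M := key _ hw a (hJM ha) (hJP a ha)
    have h2 : ⁅⁅y, b⁆, ⁅a, b⁆⁆ ∈ W M := key _ hw _ (hJM hcJ) (hJP _ hcJ)
    have h3 : ⁅⁅y, a⁆, ⁅a, b⁆⁆ ∈ W M := key _ hz _ (hJM hcJ) (hJP _ hcJ)
    have h4 : ⁅⁅y, a⁆, ⁅y, b⁆ * b⁆ ∈ W M := by
      refine key _ hz _ (Subgroup.mul_mem _ (hMn hw) (hJM hb)) ?_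
      intro p hp
      rw [mul_assoc, hJP b hb p hp, ← mul_assoc, hMP _ hw p hp, mul_assoc]
    refine Subgroup.mul_mem _ (Subgroup.mul_mem _ ?_ h3) (nconj (hJV hcJ) h4)
    exact nconj (hMV hz) (Subgroup.mul_mem _ (Subgroup.inv_mem _ h1) h2)
  intro j hj
  have hjK : j ∈ K := hK (hJ.symm ▸ hj)
  exact hjK.2

/-- commutators of `N_N(T)` with elements normalizing `N` and centralizing `T` lie in `C_N(T)` -/
theorem comm_mem_inf_centralizer {N T : Subgroup X} {y j : X} (hyN : y ∈ N)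
    (hyT : y ∈ Subgroup.normalizer (T : Set X)) (hjN : j ∈ Subgroup.normalizer (N : Set X))
    (hjT : ∀ t ∈ T, j * t = t * j) : ⁅y, j⁆ ∈ N ⊓ Subgroup.centralizer (T : Set X) := by
  refine Subgroup.mem_inf.mpr ⟨?_, ?_⟩
  · have e : ⁅y, j⁆ = y * (j * y⁻¹ * j⁻¹) := by
      simp only [commutatorElement_def]; group
    rw [e]
    exact N.mul_mem hyN (nconj hjN (N.inv_mem hyN))
  · rw [Subgroup.mem_centralizer_iff]
    intro t ht
    have h1 : j⁻¹ * t = t * j⁻¹ := by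
      have h0 := hjT t ht
      calc j⁻¹ * t = j⁻¹ * (t * j) * j⁻¹ := by group
        _ = j⁻¹ * (j * t) * j⁻¹ := by rw [h0]
        _ = t * j⁻¹ := by group
    have h2 := hjT _ (nconj' hyT ht)
    calc t * ⁅y, j⁆ = y * ((y⁻¹ * t * y) * j) * y⁻¹ * j⁻¹ := by
          simp only [commutatorElement_def]; group
      _ = y * (j * (y⁻¹ * t * y)) * y⁻¹ * j⁻¹ := by rw [h2]
      _ = y * j * y⁻¹ * (t * j⁻¹) := by group
      _ = y * j * y⁻¹ * (j⁻¹ * t) := by rw [h1]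
      _ = ⁅y, j⁆ * t := by simp only [commutatorElement_def]; group

/-! ### The `Z*`-theorem inside a subgroup -/

theorem zstar_ambient (hZ : Helper29.ZStarAll.{u}) [Finite X] {H P C : Subgroup X}
    (hP : IsSylIn 2 P H) (hCP : C ≤ P) (hcen : ∀ c ∈ C, ∀ s ∈ P, c * s = s * c)
    (hwc : ∀ c ∈ C, ∀ h ∈ H, h * c * h⁻¹ ∈ P → h * c * h⁻¹ = c) :
    ∀ c ∈ C, ∀ h ∈ H, c * h * c⁻¹ * h⁻¹ ∈ W H := by
  have : Fact (Nat.Prime 2) := ⟨Nat.prime_two⟩
  let P' : Sylow 2 ↥H := IsPGroup.toSylow (P := P.subgroupOf H) hP.2.1.comap_subtype hP.2.2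
  have hP'mem : ∀ x : ↥H, x ∈ (P' : Subgroup ↥H) ↔ (x : X) ∈ P := fun x => Iff.rfl
  have hCP' : C.subgroupOf H ≤ (P' : Subgroup ↥H) := by
    intro x hx
    exact (hP'mem x).mpr (hCP (Subgroup.mem_subgroupOf.mp hx))
  have key := Helper29.comm_mem_oddCore_of_weaklyClosed hZ (Nat.card (C.subgroupOf H)) P'
    (C.subgroupOf H) le_rfl hCP'
    (by
      intro c hc s hs
      apply Subtype.ext
      exact hcen c (Subgroup.mem_subgroupOf.mp hc) s ((hP'mem s).mp hs))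
    (by
      intro D hD
      refine ⟨hD.trans hCP', fun g hg => ?_⟩
      have hfix : ∀ x ∈ D, g * x * g⁻¹ = x := by
        intro x hx
        have h1 : g * x * g⁻¹ ∈ (P' : Subgroup ↥H) := hg ⟨x, hx, rfl⟩
        have h2 := hwc x (Subgroup.mem_subgroupOf.mp (hD hx)) g g.2 ((hP'mem _).mp h1)
        exact Subtype.ext h2
      ext y
      constructor
      · rintro ⟨x, hx, rfl⟩
        show g * x * g⁻¹ ∈ D
        rw [hfix x hx]; exact hx
      · intro hy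
        exact ⟨y, hy, hfix y hy⟩)
  intro c hc h hh
  have h1 := key ⟨c, hP.1 (hCP hc)⟩ (Subgroup.mem_subgroupOf.mpr hc) ⟨h, hh⟩
  exact ⟨_, h1, rfl⟩

end Cfsg.Agent.Lib.Helper57.Gl
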