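import Cfsg.Agent.Lib.Helper98.H74Defs

/-!
# Project H74 (S5974, helper98), piece DEC (helper57)

For an isometry `g` with `g ^ r = 1` (`r` a prime different from the characteristic), an invariant
nondegenerate subspace `W` is the orthogonal sum of `W ⊓ ker (g - 1)` and `W ⊓ range (g - 1)`,
both nondegenerate.
-/

set_option autoImplicit false
set_option linter.unusedSectionVars false
set_option linter.unusedVariables false

namespace Cfsg.Agent.Lib.Helper98.H74

open Cfsg.Agent.Lib.Helper47 Cfsg.Agent.Lib.Helper98.T73 Module Polynomial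

universe u

variable {F : Type u} [Field F] [Fintype F] {V : Type u} [AddCommGroup V] [Module F V]
  [FiniteDimensional F V] {Q : V → F} {B : V → V → F}

/-- DEC -/
theorem inv_split (hQ : IsQuad Q B) (hnd : Nondeg B) (p : ℕ) [Fact p.Prime] [CharP F p]
    (r : ℕ) (hr : r.Prime) (hrp : r ≠ p) (g : Module.End F V) (hgQ : QI Q g)
    (hg : g ^ r = 1) (W : Submodule F V) (hWg : W.map g ≤ W) (hWnd : Nondeg (resForm B W)) :
    Nondeg (resForm B (W ⊓ LinearMap.ker (g - 1))) ∧
      Nondeg (resForm B (W ⊓ LinearMap.range (g - 1))) ∧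
      W = (W ⊓ LinearMap.ker (g - 1)) ⊔ (W ⊓ LinearMap.range (g - 1)) ∧
      (W ⊓ LinearMap.range (g - 1)).map g ≤ W ⊓ LinearMap.range (g - 1) ∧
      finrank F W = finrank F ↥(W ⊓ LinearMap.ker (g - 1))
        + finrank F ↥(W ⊓ LinearMap.range (g - 1)) := by
  classical
  have hrF : Fact r.Prime := ⟨hr⟩
  have hp : p.Prime := Fact.out
  have hr0 : (r : F) ≠ 0 := by
    intro h0
    have h1 : p ∣ r := (CharP.cast_eq_zero_iff F p r).mp h0
    exact hrp ((Nat.prime_dvd_prime_iff_eq hp hr).mp h1).symm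
  have hrq : ¬ r ∣ Fintype.card F := by
    obtain ⟨k, hp', hk⟩ := FiniteField.card F p
    rw [hk]
    intro h1
    exact hrp ((Nat.prime_dvd_prime_iff_eq hr hp).mp (hr.dvd_of_dvd_pow h1))
  obtain ⟨-, -, -, hdisj, hRinv, -, -, hsum, -⟩ :=
    Cfsg.Agent.Lib.Helper96.BG.pow_one_setup g r hrq hr0 hg
  have hfin := (split_inv p r hr hrp g hg W hWg).1
  -- the decomposition
  have hle : (W ⊓ LinearMap.ker (g - 1)) ⊔ (W ⊓ LinearMap.range (g - 1)) ≤ W :=
    sup_le inf_le_left inf_le_left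
  have hdim : finrank F ↥((W ⊓ LinearMap.ker (g - 1)) ⊔ (W ⊓ LinearMap.range (g - 1)))
      = finrank F W := by
    rw [hsum _ _ inf_le_right inf_le_right, hfin]
  have hdec : W = (W ⊓ LinearMap.ker (g - 1)) ⊔ (W ⊓ LinearMap.range (g - 1)) :=
    (Submodule.eq_of_le_of_finrank_eq hle hdim).symm
  have hmem : ∀ w ∈ W, ∃ c ∈ W ⊓ LinearMap.ker (g - 1), ∃ y ∈ W ⊓ LinearMap.range (g - 1),
      c + y = w := by
    intro w hw
    have hEq := Submodule.eq_of_le_of_finrank_eq hle hdim
    have hw' : w ∈ (W ⊓ LinearMap.ker (g - 1)) ⊔ (W ⊓ LinearMap.range (g - 1)) := by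
      rw [hEq]; exact hw
    exact Submodule.mem_sup.mp hw'
  -- C ⊥ R
  have hiso : ∀ u v : V, B (g u) (g v) = B u v := fun u v => hQ.isometry hQ g hgQ u v
  have hperp : ∀ x ∈ LinearMap.ker (g - 1), ∀ y ∈ LinearMap.range (g - 1), B x y = 0 := by
    intro x hx y hy
    obtain ⟨v, rfl⟩ := hy
    have hgx : g x = x := by
      have h1 := LinearMap.mem_ker.mp hx
      rw [LinearMap.sub_apply, Module.End.one_apply, sub_eq_zero] at h1
      exact h1
    rw [LinearMap.sub_apply, Module.End.one_apply, hQ.form.sub_right]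
    have h2 := hiso x v
    rw [hgx] at h2
    rw [h2, sub_self]
  refine ⟨?_, ?_, hdec, ?_, hfin⟩
  · intro x hx
    have hxW : (x : V) ∈ W := x.2.1
    have hxC : (x : V) ∈ LinearMap.ker (g - 1) := x.2.2
    have h0 : (⟨(x : V), hxW⟩ : W) = 0 := by
      apply hWnd
      intro w
      obtain ⟨c, hc, y, hy, hcy⟩ := hmem (w : V) w.2
      show B (x : V) (w : V) = 0
      rw [← hcy, hQ.form.add_right]
      have h1 : B (x : V) c = 0 := hx ⟨c, hc⟩
      have h2 : B (x : V) y = 0 := hperp _ hxC _ hy.2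
      rw [h1, h2, add_zero]
    have h3 : (x : V) = 0 := congrArg (fun z : W => (z : V)) h0
    exact Submodule.coe_eq_zero.mp h3
  · intro x hx
    have hxW : (x : V) ∈ W := x.2.1
    have hxR : (x : V) ∈ LinearMap.range (g - 1) := x.2.2
    have h0 : (⟨(x : V), hxW⟩ : W) = 0 := by
      apply hWnd
      intro w
      obtain ⟨c, hc, y, hy, hcy⟩ := hmem (w : V) w.2
      show B (x : V) (w : V) = 0
      rw [← hcy, hQ.form.add_right]
      have h1 : B (x : V) c = 0 := hQ.form.refl (hperp _ hc.2 _ hxR)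
      have h2 : B (x : V) y = 0 := hx ⟨y, hy⟩
      rw [h1, h2, add_zero]
    have h3 : (x : V) = 0 := congrArg (fun z : W => (z : V)) h0
    exact Submodule.coe_eq_zero.mp h3
  · rintro _ ⟨x, ⟨hxW, hxR⟩, rfl⟩
    exact ⟨hWg (Submodule.mem_map_of_mem hxW), hRinv (Submodule.mem_map_of_mem hxR)⟩

end Cfsg.Agent.Lib.Helper98.H74
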