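import Mathlib
import Cfsg.Agent.Lib.Helper22.HPDefs
import Cfsg.Agent.Lib.Helper22.HPDefs2
import Cfsg.Agent.Lib.Helper68.BFPDEC
import Cfsg.Agent.Lib.Helper63.BFS1E

/-!
# S4504 (helper22), piece EXACT (G2): values of an irreducible character on the powers of `z`
-/

set_option autoImplicit false
set_option linter.style.haveILetI false

namespace Cfsg.Agent.Lib.Helper57.HPT

open Cfsg Cfsg.Agent.Lib.Helper22.BFD Cfsg.Agent.Lib.Helper22.HPD
open scoped ComplexConjugate

universe u

/-- membership in `Sq p` through the quadratic character -/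
theorem mem_Sq_iff (p : ℕ) [Fact p.Prime] (a : ZMod p) :
    a ∈ Sq p ↔ quadraticChar (ZMod p) a = 1 := by
  classical
  unfold Sq
  rw [Finset.mem_filter]
  constructor
  · rintro ⟨-, ha0, hsq⟩
    exact (quadraticChar_one_iff_isSquare ha0).2 hsq
  · intro h
    have ha0 : a ≠ 0 := by
      rintro rfl
      rw [MulChar.map_zero] at h
      exact zero_ne_one h
    exact ⟨Finset.mem_univ _, ha0, (quadraticChar_one_iff_isSquare ha0).1 h⟩

/-- a nonzero element outside `Sq p` has quadratic character `-1` -/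
theorem qc_of_not_mem_Sq (p : ℕ) [Fact p.Prime] (s : ZMod p) (hs0 : s ≠ 0) (hs : s ∉ Sq p) :
    quadraticChar (ZMod p) s = -1 := by
  rcases quadraticChar_dichotomy hs0 with h | h
  · exact absurd ((mem_Sq_iff p s).2 h) hs
  · exact h

theorem hp_exact {G : Type u} [Group G] [Fintype G] (p : ℕ) [Fact p.Prime]
    (hdiv : p ∣ Nat.card G) (χ : G → ℂ) (z : G) (ζ : ℂ) (hHP : HP p ζ z χ) (k : ℕ)
    (hk : GalExp p G k) (φ : IrrCharacter G) :
    ∃ γ α β : ℕ, ∀ t : ZMod p, φ.1 (z ^ t.val) =
      (γ : ℂ) + (α : ℂ) * eta p ζ t + (β : ℂ) * eta p ζ ((k : ZMod p) * t) := by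
  classical
  have hp : p.Prime := Fact.out
  -- `φ` is a character and a class function
  obtain ⟨n, ρ, -, hρ⟩ := φ.2
  have hchar : IsCharacter G φ.1 := ⟨n, ρ, hρ⟩
  have hcls : ∀ x h : G, φ.1 (h * x * h⁻¹) = φ.1 x := by
    intro x h
    rw [← hρ]
    exact Representation.char_conj ρ x h
  have hzp : z ^ p = 1 := by
    rw [← hHP.hz]
    exact pow_orderOf_eq_one z
  obtain ⟨a, ha⟩ := Cfsg.Agent.Lib.Helper68.BFT.pdec p ζ hHP.hζ φ.1 hchar z hzp
  have hst := Cfsg.Agent.Lib.Helper63.BFT.a_stable p ζ hHP.hζ z hHP.hz φ.1 hcls a ha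
  have hEf : ∀ c : ZMod p, c ∈ Ef p z ↔ c ∈ Sq p := by
    intro c
    unfold Ef
    rw [Finset.mem_filter]
    simp only [Finset.mem_univ, true_and]
    exact hHP.hE c
  -- the non-square `s`
  set s : ZMod p := (k : ZMod p) with hsdef
  have hs0 : s ≠ 0 := by
    intro h0
    have h1 : p ∣ k := (ZMod.natCast_eq_zero_iff k p).1 h0
    have h2 : p ∣ Nat.gcd k (Nat.card G) := Nat.dvd_gcd h1 hdiv
    rw [hk.cop] at h2
    exact hp.one_lt.ne' (Nat.dvd_one.1 h2)
  have hsq : quadraticChar (ZMod p) s = -1 := qc_of_not_mem_Sq p s hs0 hk.nsq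
  -- the coefficients
  have hcoef : ∀ u : ZMod p, a u = if u = 0 then a 0 else if u ∈ Sq p then a 1 else a s := by
    intro u
    by_cases hu0 : u = 0
    · rw [if_pos hu0, hu0]
    · rw [if_neg hu0]
      by_cases hu : u ∈ Sq p
      · rw [if_pos hu]
        have := hst u ((hEf u).2 hu) 1
        rwa [mul_one] at this
      · rw [if_neg hu]
        have hqu : quadraticChar (ZMod p) u = -1 := qc_of_not_mem_Sq p u hu0 hu
        have hv : u * s⁻¹ ∈ Sq p := by
          rw [mem_Sq_iff, map_mul, hqu]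
          have h1 : quadraticChar (ZMod p) (s * s⁻¹) = 1 := by
            rw [mul_inv_cancel₀ hs0, MulChar.map_one]
          rw [map_mul, hsq] at h1
          have h2 : quadraticChar (ZMod p) s⁻¹ = -1 := by linarith
          rw [h2]; norm_num
        have := hst (u * s⁻¹) ((hEf _).2 hv) s
        rwa [inv_mul_cancel_right₀ hs0] at this
  refine ⟨a 0, a 1, a s, fun t => ?_⟩
  rw [ha t]
  -- split the sum
  have h1 : ∀ u : ZMod p, (a u : ℂ) * ζ ^ (u * t).val =
      (if u = 0 then (a 0 : ℂ) else 0) +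
        (if u ∈ Sq p then (a 1 : ℂ) * ζ ^ (u * t).val else 0) +
        (if u ≠ 0 ∧ u ∉ Sq p then (a s : ℂ) * ζ ^ (u * t).val else 0) := by
    intro u
    rw [hcoef u]
    by_cases hu0 : u = 0
    · have hnot : u ∉ Sq p := by
        rw [hu0, mem_Sq_iff, MulChar.map_zero]
        exact zero_ne_one
      simp [hu0]
      intro h
      exact absurd h (by rw [← hu0]; exact hnot)
    · by_cases hu : u ∈ Sq p
      · simp [hu0, hu]
      · simp [hu0, hu]
  rw [Finset.sum_congr rfl (fun u _ => h1 u), Finset.sum_add_distrib, Finset.sum_add_distrib]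
  have e1 : ∑ u : ZMod p, (if u = 0 then (a 0 : ℂ) else 0) = (a 0 : ℂ) := by
    rw [Finset.sum_ite_eq' Finset.univ (0 : ZMod p) (fun _ => (a 0 : ℂ))]
    simp
  have e2 : ∑ u : ZMod p, (if u ∈ Sq p then (a 1 : ℂ) * ζ ^ (u * t).val else 0) =
      (a 1 : ℂ) * eta p ζ t := by
    rw [← Finset.sum_filter]
    have : Finset.univ.filter (fun u : ZMod p => u ∈ Sq p) = Sq p := by
      ext u; simp
    rw [this]
    unfold eta
    rw [Finset.mul_sum]
  have e3 : ∑ u : ZMod p, (if u ≠ 0 ∧ u ∉ Sq p then (a s : ℂ) * ζ ^ (u * t).val else 0) =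
      (a s : ℂ) * eta p ζ (s * t) := by
    rw [← Finset.sum_filter]
    unfold eta
    rw [Finset.mul_sum]
    symm
    refine Finset.sum_equiv (Equiv.mulLeft₀ s hs0) ?_ ?_
    · intro v
      rw [Finset.mem_filter]
      simp only [Finset.mem_univ, true_and, Equiv.mulLeft₀_apply]
      rw [mem_Sq_iff, mem_Sq_iff, map_mul, hsq]
      constructor
      · intro hv
        refine ⟨?_, ?_⟩
        · intro h0
          rcases mul_eq_zero.1 h0 with h | h
          · exact hs0 h
          · rw [h, MulChar.map_zero] at hv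
            exact zero_ne_one hv
        · rw [hv]; norm_num
      · rintro ⟨h0, h1⟩
        have hv0 : v ≠ 0 := fun h => h0 (by rw [h, mul_zero])
        rcases quadraticChar_dichotomy hv0 with h | h
        · exact h
        · exfalso; apply h1; rw [h]; norm_num
    · intro v _
      simp only [Equiv.mulLeft₀_apply]
      rw [show v * (s * t) = s * v * t by ring]
  rw [e1, e2, e3]

end Cfsg.Agent.Lib.Helper57.HPT
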