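import Mathlib
import Cfsg.Agent.Lib.Helper33.KleinPair
import Cfsg.Agent.Lib.Helper81.BrStab
import Cfsg.Agent.Lib.Helper84.ExtFMT
import Cfsg.Agent.Lib.Helper84.IndHom
import Cfsg.Agent.Lib.Helper81.BrIn
import Cfsg.Agent.Lib.Helper82.Major

/-!
# S4715 piece A: a maximal Brauer pair attached to a root of a block (helper57, for helper4)

`exists_maximal_pair_of_root`: if `b` is a block of `H = D C_G(D)` inducing the block `B` with
defect group `D`, there is a block `β` of `C_G(D)` covered by `b` such that `(D, β)` is a maximal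
`B`-Brauer pair whose stabilizer lies in the stabilizer `T` of `b` in `N_G(D)`.
-/

set_option autoImplicit false
set_option linter.style.haveILetI false

namespace Cfsg.Agent.Lib.HtPairs

open Cfsg Cfsg.Agent.Lib.Helper4 Cfsg.Agent.Lib.Helper21 Cfsg.Agent.Lib.Helper22
open Cfsg.Agent.Lib.Helper81

section A

variable {G : Type*} [Group G] [Fintype G] {p : ℕ} [Fact p.Prime] {M : Ideal AlgInt}

/-- An irreducible character `θ` of `H` lies in the block of `H` whose idempotent is that of an
`H`-stable block `β'` of the normal subgroup `K`, as soon as a constituent of `θ|_K` is in `β'`. -/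
theorem pairsA_omega_ext_eq_one (K : Subgroup G) [hK : K.Normal] [Fintype K]
    (β' : Set (IrrCharacter K)) (hstab : ∀ x : G, StabilizesBlock K β' x)
    (θ : IrrCharacter G) (ζ : IrrCharacter K) (hζ : ζ ∈ β')
    (hcon : classInner (fun n : K => (θ : G → ℂ) n) (ζ : K → ℂ) ≠ 0) :
    omega (θ : G → ℂ) (extendByZero K (blockCoeff β')) = 1 := by
  classical
  have := irr_finite (G := K)
  have := Fintype.ofFinite (IrrCharacter K)
  rw [omega_def, Cfsg.Agent.S0964.sum_ext_blockCoeff K β' θ]
  have e : ∑ φ : IrrCharacter K, classInner (fun n : K => (θ : G → ℂ) n) (φ : K → ℂ) *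
      ((if φ ∈ β' then (1 : ℂ) else 0) * (φ : K → ℂ) 1) =
      ∑ φ : IrrCharacter K, classInner (fun n : K => (θ : G → ℂ) n) (φ : K → ℂ) *
        (φ : K → ℂ) 1 := by
    refine Finset.sum_congr rfl fun φ _ => ?_
    by_cases hφ : classInner (fun n : K => (θ : G → ℂ) n) (φ : K → ℂ) = 0
    · rw [hφ, zero_mul, zero_mul]
    · obtain ⟨x, hx⟩ := Cfsg.Agent.Lib.Helper20.clifford_conj K ζ.2 θ.2 hcon φ.2 hφ
      obtain ⟨χ', hχ', hconj⟩ := (hstab x⁻¹).2 ζ hζ
      have hφA : φ ∈ β' := by
        have : φ = χ' := by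
          apply Subtype.ext
          funext n
          rw [hx, Cfsg.Agent.Lib.Helper20.conjFun_apply]
          refine (hconj ⟨x * n * x⁻¹, hK.conj_mem (n : G) n.2 x⟩ n ?_).symm
          show (n : G) = x⁻¹ * (x * n * x⁻¹) * x⁻¹⁻¹
          group
        rw [this]; exact hχ'
      rw [if_pos hφA, one_mul]
  rw [e]
  have hcf : IsClassFunction K (fun n : K => (θ : G → ℂ) n) := by
    intro n k
    exact isClassFunction_irr θ n k
  have h2 := congrFun (classFunction_expansion (fun n : K => (θ : G → ℂ) n) hcf) 1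
  simp only [Finset.sum_apply, Pi.smul_apply, smul_eq_mul, OneMemClass.coe_one] at h2
  rw [← h2]
  exact div_self (irr_one_ne_zero θ)

end A

theorem exists_maximal_pair_of_root {G : Type*} [Group G] [Fintype G] (p : ℕ) [Fact p.Prime]
    (M : Ideal Cfsg.AlgInt) (hM : Cfsg.IsPModular p M) (B : Set (Cfsg.IrrCharacter G))
    (hB : Cfsg.IsPBlock M B) (D : Subgroup G) (hBD : Cfsg.IsDefectGroup p M B D)
    (H : Subgroup G) (hH : H = D ⊔ Subgroup.centralizer (D : Set G))
    (b : Set (Cfsg.IrrCharacter H)) (hind : Cfsg.IsInducedBlock M H b B) (T : Subgroup G)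
    (hT : ∀ g : G, g ∈ T ↔ (g ∈ Subgroup.normalizer (D : Set G) ∧ ∀ θ ∈ b,
      ∀ θ' : Cfsg.IrrCharacter H, (∀ h h' : H, (h' : G) = g * h * g⁻¹ →
        (θ' : H → ℂ) h' = (θ : H → ℂ) h) → θ' ∈ b)) :
    ∃ β : Set (IrrCharacter (Subgroup.centralizer (D : Set G))),
      IsMaximalBrauerPair p M B D β ∧
        ∀ t : G, conjPair t (⟨D, β⟩ : BrauerPairIdx G) = ⟨D, β⟩ → t ∈ T := by
  classical
  subst hH
  letI : Fintype ↥(D ⊔ Subgroup.centralizer (D : Set G)) := Fintype.ofFinite _
  letI : Fintype ↥(Subgroup.centralizer (D : Set G)) := Fintype.ofFinite _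
  letI : Fintype ↥((Subgroup.centralizer (D : Set G)).subgroupOf
    (D ⊔ Subgroup.centralizer (D : Set G))) := Fintype.ofFinite _
  have hDp : IsPGroup p D := isDefectGroup_isPGroup B D hBD
  have hDH : D ≤ D ⊔ Subgroup.centralizer (D : Set G) := le_sup_left
  have hCH : Subgroup.centralizer (D : Set G) ≤ D ⊔ Subgroup.centralizer (D : Set G) :=
    le_sup_right
  have hHN : D ⊔ Subgroup.centralizer (D : Set G) ≤ Subgroup.normalizer (D : Set G) :=
    Cfsg.Agent.Lib.Helper84.sup_centralizer_le_normalizer D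
  have hb : IsPBlock M b := hind.1
  obtain ⟨θ, hθ⟩ := exists_mem_of_isPBlock hM hb
  haveI hKn : ((Subgroup.centralizer (D : Set G)).subgroupOf
      (D ⊔ Subgroup.centralizer (D : Set G))).Normal :=
    Subgroup.normal_subgroupOf_of_le_normalizer
      (hHN.trans (Cfsg.Agent.Lib.Helper81.normalizer_le_normalizer_centralizer D))
  -- a constituent of the restriction of `θ`
  obtain ⟨ζ', hζ'irr, hζ'con⟩ := Cfsg.Agent.Lib.Helper20.exists_constituent
    ((Subgroup.centralizer (D : Set G)).subgroupOf (D ⊔ Subgroup.centralizer (D : Set G))) θ.2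
  obtain ⟨ζ, hζ⟩ : ∃ ζ : IrrCharacter (Subgroup.centralizer (D : Set G)),
      ζ = irrMap (Subgroup.subgroupOfEquivOfLe hCH) ⟨ζ', hζ'irr⟩ := ⟨_, rfl⟩
  obtain ⟨β, hβdef⟩ : ∃ β : Set (IrrCharacter (Subgroup.centralizer (D : Set G))),
      β = blockOf M (ζ : Subgroup.centralizer (D : Set G) → ℂ) := ⟨_, rfl⟩
  have hβ : IsPBlock M β := ⟨ζ, hβdef⟩
  have hζβ : ζ ∈ β := by rw [hβdef]; exact mem_blockOf_self hM ζ
  have hζ'β : (⟨ζ', hζ'irr⟩ : IrrCharacter _) ∈
      subBlock (Subgroup.centralizer (D : Set G)) (D ⊔ Subgroup.centralizer (D : Set G)) hCH β := by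
    refine ⟨ζ, hζβ, ?_⟩
    apply Subtype.ext
    funext k
    rw [irrMap_apply, hζ, irrMap_apply, MulEquiv.symm_symm, MulEquiv.symm_apply_apply]
  -- stability
  have hstab : ∀ t ∈ D ⊔ Subgroup.centralizer (D : Set G),
      StabilizesBlock (Subgroup.centralizer (D : Set G)) β t := by
    have h1 : D ≤ blockStabilizer (Subgroup.centralizer (D : Set G)) β := by
      intro d hd
      exact stabilizesBlock_of_centralizes _ β
        (fun k hk => Subgroup.mem_centralizer_iff.mp hk d hd)
    have h2 : Subgroup.centralizer (D : Set G) ≤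
        blockStabilizer (Subgroup.centralizer (D : Set G)) β :=
      fun c hc => stabilizesBlock_of_mem _ β hc
    exact fun t ht => (sup_le h1 h2) ht
  have hstab' : ∀ x : ↥(D ⊔ Subgroup.centralizer (D : Set G)),
      StabilizesBlock ((Subgroup.centralizer (D : Set G)).subgroupOf
        (D ⊔ Subgroup.centralizer (D : Set G)))
        (subBlock (Subgroup.centralizer (D : Set G)) (D ⊔ Subgroup.centralizer (D : Set G)) hCH β)
        x :=
    fun x => stabilizesBlock_subBlock _ _ hCH β x (hstab x x.2)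
  obtain ⟨F, hF, hFc⟩ := exists_block_of_stable_subgroup hM D hDp β hβ
    (D ⊔ Subgroup.centralizer (D : Set G)) hDH hCH hHN hstab
  have hFext : blockCoeff F = extendByZero ((Subgroup.centralizer (D : Set G)).subgroupOf
      (D ⊔ Subgroup.centralizer (D : Set G)))
      (blockCoeff (subBlock (Subgroup.centralizer (D : Set G))
        (D ⊔ Subgroup.centralizer (D : Set G)) hCH β)) := by
    rw [← subgroupBlockCoeff_eq_extendByZero]
    funext t
    rw [hFc, subgroupBlockCoeff_subBlock]
  have hθF : θ ∈ F := by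
    have h1 := pairsA_omega_ext_eq_one ((Subgroup.centralizer (D : Set G)).subgroupOf
      (D ⊔ Subgroup.centralizer (D : Set G))) _ hstab' θ ⟨ζ', hζ'irr⟩ hζ'β hζ'con
    rw [← hFext, omega_blockCoeff] at h1
    by_contra hcon
    rw [if_neg hcon] at h1
    exact zero_ne_one h1
  have hFb : F = b := block_eq_of_mem_of_mem hM hF hb θ hθF hθ
  subst hFb
  -- `β` induces `F` inside `H`
  have hβ' : IsPBlock M (subBlock (Subgroup.centralizer (D : Set G))
      (D ⊔ Subgroup.centralizer (D : Set G)) hCH β) := isPBlock_subBlock _ _ hCH hβ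
  have hFsub : ∀ t : ↥(D ⊔ Subgroup.centralizer (D : Set G)), blockCoeff F t =
      subgroupBlockCoeff ((Subgroup.centralizer (D : Set G)).subgroupOf
        (D ⊔ Subgroup.centralizer (D : Set G)))
        (subBlock (Subgroup.centralizer (D : Set G)) (D ⊔ Subgroup.centralizer (D : Set G)) hCH β)
        t := by
    intro t
    rw [hFc, subgroupBlockCoeff_subBlock]
  have hindK : IsInducedBlock M ((Subgroup.centralizer (D : Set G)).subgroupOf
      (D ⊔ Subgroup.centralizer (D : Set G)))
      (subBlock (Subgroup.centralizer (D : Set G)) (D ⊔ Subgroup.centralizer (D : Set G)) hCH β)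
      F := by
    refine ⟨hβ', hF, fun ξ hξ χ hχ g => ?_⟩
    by_cases hg : g ∈ (Subgroup.centralizer (D : Set G)).subgroupOf
        (D ⊔ Subgroup.centralizer (D : Set G))
    · have hχ1 : omega (χ : ↥(D ⊔ Subgroup.centralizer (D : Set G)) → ℂ)
          (subgroupBlockCoeff ((Subgroup.centralizer (D : Set G)).subgroupOf
            (D ⊔ Subgroup.centralizer (D : Set G)))
            (subBlock (Subgroup.centralizer (D : Set G))
              (D ⊔ Subgroup.centralizer (D : Set G)) hCH β)) = 1 := by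
        have e : subgroupBlockCoeff ((Subgroup.centralizer (D : Set G)).subgroupOf
            (D ⊔ Subgroup.centralizer (D : Set G)))
            (subBlock (Subgroup.centralizer (D : Set G))
              (D ⊔ Subgroup.centralizer (D : Set G)) hCH β) = blockCoeff F := by
          funext t; exact (hFsub t).symm
        rw [e, omega_blockCoeff, if_pos hχ]
      have h1 := centralChar_sub_locIdeal_of_stable hM _ _ hβ' hstab' ξ hξ g hg χ hχ1
      have h2 := Cfsg.Agent.S0965.inducedCentralChar_eq_omega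
        ((Subgroup.centralizer (D : Set G)).subgroupOf (D ⊔ Subgroup.centralizer (D : Set G)))
        (ξ : _ → ℂ) g
      rw [h2]
      have h4 := locIdeal_neg h1
      rw [neg_sub] at h4
      convert h4 using 3
      funext h
      rw [resTo_apply, classInd_apply]
      by_cases hc : IsConj g (h : ↥(D ⊔ Subgroup.centralizer (D : Set G)))
      · rw [if_pos hc, if_pos hc.symm]
      · rw [if_neg hc, if_neg (fun h' => hc h'.symm)]
    · have h0 : inducedCentralChar ((Subgroup.centralizer (D : Set G)).subgroupOf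
          (D ⊔ Subgroup.centralizer (D : Set G))) (ξ : _ → ℂ) g = 0 := by
        unfold inducedCentralChar
        have hemp : {h : ↥((Subgroup.centralizer (D : Set G)).subgroupOf
            (D ⊔ Subgroup.centralizer (D : Set G))) |
            IsConj g (h : ↥(D ⊔ Subgroup.centralizer (D : Set G)))} = ∅ := by
          rw [Set.eq_empty_iff_forall_notMem]
          intro h hh
          apply hg
          obtain ⟨c, hc⟩ := isConj_iff.mp hh
          have h5 := hKn.conj_mem (h : ↥(D ⊔ Subgroup.centralizer (D : Set G))) h.2 c⁻¹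
          rw [← hc] at h5
          have e : c⁻¹ * (c * g * c⁻¹) * c⁻¹⁻¹ = g := by group
          rwa [e] at h5
        rw [hemp, finsum_mem_empty]
      rw [h0, zero_sub]
      apply locIdeal_neg
      exact centralChar_locIdeal_off_centralizer hM D hDp _ hDH hHN g
        (fun h => hg (Subgroup.mem_subgroupOf.mpr h)) χ
  have hin : IsInducedBlockIn M (D ⊔ Subgroup.centralizer (D : Set G))
      (Subgroup.centralizer (D : Set G)) β F := (isInducedBlockIn_iff hCH β F).mpr hindK
  have hi1 := (Cfsg.Agent.Lib.Helper84.isInducedBlockIn_iff_indHom _ _ hCH β F).mp hin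
  have hi2 : Cfsg.Agent.Lib.Helper84.IndHom M
      (D ⊔ Subgroup.centralizer (D : Set G)).subtype F B := hind
  have hi3 := Cfsg.Agent.Lib.Helper84.IndHom.trans hM hi1 hi2
  have hβB : IsInducedBlock M (Subgroup.centralizer (D : Set G)) β B := hi3
  have hpair : IsBrauerPairOf p M B D β :=
    (isBrauerPairOf_iff_isInducedBlock hM D hDp β B).mpr hβB
  -- maximality
  obtain ⟨P, u, hmax⟩ := exists_maximalBrauerPair hM B hB
  have hP := isDefectGroup_of_maximal hM B P u hmax
  have hcard : Nat.card P ≤ Nat.card D := by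
    rw [Cfsg.Agent.Lib.Helper82.card_defectGroup hM B hB P hP,
      Cfsg.Agent.Lib.Helper82.card_defectGroup hM B hB D hBD]
  have hmaxD : IsMaximalBrauerPair p M B D β :=
    isMaximal_of_card hM B P u hmax ⟨D, β⟩ hpair hcard
  refine ⟨β, hmaxD, ?_⟩
  -- the stabilizer
  intro t ht
  rw [conjPair_eq_self_iff] at ht
  obtain ⟨htN, htS⟩ := ht
  rw [hT]
  refine ⟨htN, ?_⟩
  intro θ₁ hθ₁ θ' hθ'
  have hcg : ∀ x : ↥(D ⊔ Subgroup.centralizer (D : Set G)),
      t * (x : G) * t⁻¹ ∈ D ⊔ Subgroup.centralizer (D : Set G) :=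
    fun x => Cfsg.Agent.Lib.Helper84.conj_mem_sup_centralizer D htN x.2
  have hcg' : ∀ x : ↥(D ⊔ Subgroup.centralizer (D : Set G)),
      t⁻¹ * (x : G) * t ∈ D ⊔ Subgroup.centralizer (D : Set G) := fun x => by
    have := Cfsg.Agent.Lib.Helper84.conj_mem_sup_centralizer D (inv_mem htN) x.2
    simpa using this
  let σ : ↥(D ⊔ Subgroup.centralizer (D : Set G)) ≃ ↥(D ⊔ Subgroup.centralizer (D : Set G)) :=
    { toFun := fun x => ⟨t * x * t⁻¹, hcg x⟩
      invFun := fun x => ⟨t⁻¹ * x * t, hcg' x⟩
      left_inv := fun x => by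
        apply Subtype.ext
        show t⁻¹ * (t * (x : G) * t⁻¹) * t = x
        group
      right_inv := fun x => by
        apply Subtype.ext
        show t * (t⁻¹ * (x : G) * t) * t⁻¹ = x
        group }
  have hval : ∀ x, (θ' : ↥(D ⊔ Subgroup.centralizer (D : Set G)) → ℂ) (σ x) =
      (θ₁ : ↥(D ⊔ Subgroup.centralizer (D : Set G)) → ℂ) x := fun x => hθ' x (σ x) rfl
  have hone : (θ' : ↥(D ⊔ Subgroup.centralizer (D : Set G)) → ℂ) 1 =
      (θ₁ : ↥(D ⊔ Subgroup.centralizer (D : Set G)) → ℂ) 1 :=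
    hθ' 1 1 (by simp)
  have hcoef : ∀ x, blockCoeff F (σ x) = blockCoeff F x := by
    intro x
    rw [hFc, hFc]
    exact subgroupBlockCoeff_conj _ β t htS (x : G)
  have h1 : omega (θ' : ↥(D ⊔ Subgroup.centralizer (D : Set G)) → ℂ) (blockCoeff F) =
      omega (θ₁ : ↥(D ⊔ Subgroup.centralizer (D : Set G)) → ℂ) (blockCoeff F) := by
    rw [omega_def, omega_def, hone]
    congr 1
    rw [← Equiv.sum_comp σ]
    refine Finset.sum_congr rfl fun x _ => ?_
    rw [hcoef, hval]
  rw [omega_blockCoeff, omega_blockCoeff, if_pos hθ₁] at h1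
  by_contra hcon
  rw [if_neg hcon] at h1
  exact zero_ne_one h1

end Cfsg.Agent.Lib.HtPairs
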