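import Mathlib
import Cfsg.Agent.Lib.Helper78.JNDefs

/-!
# Project JN (helper78, S2944): piece JN-VW

`[V, y] ≤ W` via the identity `u = u'⁻¹ (y u' y⁻¹)` with `u = v⁻¹ (y v y⁻¹)`, `u' = y u y⁻¹`, in an
abelian normal subgroup of exponent 2 and `y ^ 3 = 1`.
-/

set_option autoImplicit false

namespace Cfsg.Agent.Lib.Helper57.JN

open Cfsg.Agent.Lib.Helper78.JN Cfsg.Agent.Lib.Helper72.JL Cfsg.Agent.Lib.Helper72.SC
  Cfsg.Agent.Lib.Helper78.Jc

open scoped commutatorElement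

universe u

/-- an element with `u * u = 1` generates a 2-group -/
private theorem vw_zpowers_two {X : Type u} [Group X] (x : X) (hx : x * x = 1) :
    IsPGroup 2 ↥(Subgroup.zpowers x) := by
  rintro ⟨g, hg⟩
  obtain ⟨n, rfl⟩ := Subgroup.mem_zpowers_iff.mp hg
  refine ⟨1, Subtype.ext ?_⟩
  have hx2 : x ^ (2 : ℤ) = 1 := by
    rw [zpow_ofNat, pow_two]
    exact hx
  show (x ^ n) ^ 2 ^ 1 = 1
  rw [pow_one, ← zpow_ofNat, ← zpow_mul, mul_comm, zpow_mul, hx2, one_zpow]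

theorem vw : VwStmt.{u} := by
  intro X _ _ V Q K O W y hVn hVab hVexp hVQ hQK hP hOV hyK hy3 hW v hv
  -- conjugation by `y` as an automorphism `φ` with `φ ^ 3 = 1`
  let φ : MulAut X := MulAut.conj y
  have hφ : ∀ x, φ x = y * x * y⁻¹ := fun x => rfl
  have hφ3 : ∀ x, φ (φ (φ x)) = x := by
    intro x
    have h1 : φ ^ 3 = 1 := by
      show (MulAut.conj y) ^ 3 = 1
      rw [← map_pow, hy3, map_one]
    have h2 := congrArg (fun f : MulAut X => f x) h1
    simpa only [pow_succ, pow_zero, one_mul, MulAut.mul_apply, MulAut.one_apply] using h2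
  have hφV : ∀ x ∈ V, φ x ∈ V := fun x hx => hVn.conj_mem x hx y
  have hφK : ∀ x ∈ K, φ x ∈ K := fun x hx => K.mul_mem (K.mul_mem hyK hx) (K.inv_mem hyK)
  -- conjugation by elements of `V` preserves `K`
  have hconjK : ∀ a ∈ V, ∀ k ∈ K, a⁻¹ * k * a ∈ K := by
    intro a ha k hk
    have haN : a⁻¹ ∈ Subgroup.normalizer (K : Set X) := inv_mem (hQK (hVQ ha))
    have := (Subgroup.mem_normalizer_iff.mp haN k).mp hk
    rwa [inv_inv] at this
  -- membership in `O` of an element of `V ∩ K`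
  have hmemO : ∀ x ∈ V, x ∈ K → x ∈ O := by
    intro x hxV hxK
    have h1 : Subgroup.zpowers x ≤ K := (Subgroup.zpowers_le).mpr hxK
    exact hP _ h1 (vw_zpowers_two x (hVexp x hxV)) (Subgroup.mem_zpowers x)
  have hb : φ v ∈ V := hφV v hv
  have hc : φ (φ v) ∈ V := hφV _ hb
  have huV : v⁻¹ * φ v ∈ V := V.mul_mem (V.inv_mem hv) hb
  have huK : v⁻¹ * φ v ∈ K := by
    have h1 : v⁻¹ * φ v = (v⁻¹ * y * v) * y⁻¹ := by
      rw [hφ]
      simp only [mul_assoc]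
    rw [h1]
    exact K.mul_mem (hconjK v hv y hyK) (K.inv_mem hyK)
  have hu'V : φ (v⁻¹ * φ v) ∈ V := hφV _ huV
  have hu'K : φ (v⁻¹ * φ v) ∈ K := hφK _ huK
  have hu'O : φ (v⁻¹ * φ v) ∈ O := hmemO _ hu'V hu'K
  have key : (φ (v⁻¹ * φ v))⁻¹ * φ (φ (v⁻¹ * φ v)) ∈ W :=
    hW _ hu'O (hVexp _ hu'V) (fun o ho => (hOV o ho _ hu'V).symm) y hyK
  -- the identity
  have hid : v⁻¹ * φ v = (φ (v⁻¹ * φ v))⁻¹ * φ (φ (v⁻¹ * φ v)) := by
    simp only [map_mul, map_inv]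
    rw [hφ3 v]
    generalize φ v = b at hb hc ⊢
    generalize φ b = c at hc ⊢
    have hvv : v⁻¹ = v := inv_eq_of_mul_eq_one_left (hVexp v hv)
    have hcc : c⁻¹ = c := inv_eq_of_mul_eq_one_left (hVexp c hc)
    have hbc : b * c = c * b := hVab b hb c hc
    have hvb : v * b = b * v := hVab v hv b hb
    rw [mul_inv_rev, inv_inv, hcc, hvv]
    calc v * b = b * v := hvb
      _ = b * (c * c) * v := by rw [hVexp c hc, mul_one]
      _ = c * b * (c * v) := by rw [← mul_assoc, hbc, mul_assoc (c * b)]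
  show v⁻¹ * φ v ∈ W
  rw [hid]
  exact key

end Cfsg.Agent.Lib.Helper57.JN
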