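import Mathlib
import Cfsg.Prelude.Def_LieTypeChar
import Cfsg.Agent.Lib.Lead.LTBCore
import Cfsg.Agent.Lib.Lead.LTBDefs

/-!
S2363 project LTB (lead), pieces G2, F4, E8: the order bounds for `G₂(q)`, `F₄(q)`, `E₈(q)`.
-/

set_option autoImplicit false

namespace Cfsg.Agent.Lib.Lead.LTB

open Cfsg

theorem ltbg2f4e8_base (q a : ℕ) (hq : 0 < q) : q ^ a - 1 < q ^ a :=
  Nat.sub_lt (pow_pos hq a) Nat.one_pos

theorem ltbg2f4e8_step (q a E M : ℕ) (hq : 0 < q) (hM : M < q ^ E) :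
    M * (q ^ a - 1) < q ^ (E + a) := by
  have h1 : M * (q ^ a - 1) ≤ M * q ^ a := Nat.mul_le_mul_left M (Nat.sub_le _ _)
  have h2 : M * q ^ a < q ^ E * q ^ a := Nat.mul_lt_mul_of_pos_right hM (pow_pos hq a)
  rw [pow_add]
  exact lt_of_le_of_lt h1 h2

theorem ltbg2f4e8_finite {G : Type*} [Group G] (q N M : ℕ) (hq : 0 < q) (hM : 0 < M)
    (h : Nat.card G = q ^ N * M) : Finite G := by
  apply Nat.finite_of_card_ne_zero
  rw [h]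
  exact (Nat.mul_pos (pow_pos hq N) hM).ne'

theorem ltbg2f4e8_pos (q a : ℕ) (hq : 2 ≤ q) (ha : 1 ≤ a) : 0 < q ^ a - 1 := by
  have : 2 ≤ q ^ a := by
    calc 2 ≤ q := hq
      _ = q ^ 1 := (pow_one q).symm
      _ ≤ q ^ a := Nat.pow_le_pow_right (by omega) ha
  omega

theorem g2_stmt : G2Stmt := by
  intro p hp F _ _ _ hcard
  obtain ⟨f, -, hq⟩ := FiniteField.card F p
  rw [hq] at hcard
  have hq2 : 2 ≤ p ^ (f : ℕ) := by
    calc 2 ≤ p := hp.two_le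
      _ = p ^ 1 := (pow_one p).symm
      _ ≤ p ^ (f : ℕ) := Nat.pow_le_pow_right hp.pos f.pos
  have hq0 : 0 < p ^ (f : ℕ) := by omega
  set q := p ^ (f : ℕ) with hqdef
  have heq : 1 * Nat.card ↥(Lie.chevG2.group F) = q ^ 6 * ((q ^ 2 - 1) * (q ^ 6 - 1)) := by
    rw [hcard]; ring
  have hfin : Finite ↥(Lie.chevG2.group F) :=
    ltbg2f4e8_finite q 6 ((q ^ 2 - 1) * (q ^ 6 - 1)) hq0
      (Nat.mul_pos (ltbg2f4e8_pos q 2 hq2 (by norm_num)) (ltbg2f4e8_pos q 6 hq2 (by norm_num)))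
      (by rw [← heq, one_mul])
  have hM : (q ^ 2 - 1) * (q ^ 6 - 1) < q ^ 8 :=
    ltbg2f4e8_step q 6 2 _ hq0 (ltbg2f4e8_base q 2 hq0)
  exact goal_of_q_mul_bounds p hp f 6 8 1 _ (by simpa using hp.one_lt.ne') heq hM (by norm_num)

theorem f4_stmt : F4Stmt := by
  intro p hp F _ _ _ hcard
  obtain ⟨f, -, hq⟩ := FiniteField.card F p
  rw [hq] at hcard
  have hq2 : 2 ≤ p ^ (f : ℕ) := by
    calc 2 ≤ p := hp.two_le
      _ = p ^ 1 := (pow_one p).symm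
      _ ≤ p ^ (f : ℕ) := Nat.pow_le_pow_right hp.pos f.pos
  have hq0 : 0 < p ^ (f : ℕ) := by omega
  set q := p ^ (f : ℕ) with hqdef
  have heq : 1 * Nat.card ↥(Lie.chevF4.group F) =
      q ^ 24 * ((q ^ 2 - 1) * (q ^ 6 - 1) * (q ^ 8 - 1) * (q ^ 12 - 1)) := by
    rw [hcard]; ring
  have hpos : 0 < (q ^ 2 - 1) * (q ^ 6 - 1) * (q ^ 8 - 1) * (q ^ 12 - 1) :=
    Nat.mul_pos (Nat.mul_pos (Nat.mul_pos (ltbg2f4e8_pos q 2 hq2 (by norm_num))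
      (ltbg2f4e8_pos q 6 hq2 (by norm_num))) (ltbg2f4e8_pos q 8 hq2 (by norm_num)))
      (ltbg2f4e8_pos q 12 hq2 (by norm_num))
  have hfin : Finite ↥(Lie.chevF4.group F) :=
    ltbg2f4e8_finite q 24 _ hq0 hpos (by rw [← heq, one_mul])
  have hM : (q ^ 2 - 1) * (q ^ 6 - 1) * (q ^ 8 - 1) * (q ^ 12 - 1) < q ^ 28 :=
    ltbg2f4e8_step q 12 16 _ hq0 (ltbg2f4e8_step q 8 8 _ hq0
      (ltbg2f4e8_step q 6 2 _ hq0 (ltbg2f4e8_base q 2 hq0)))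
  exact goal_of_q_mul_bounds p hp f 24 28 1 _ (by simpa using hp.one_lt.ne') heq hM (by norm_num)

theorem e8_stmt : E8Stmt := by
  intro p hp F _ _ _ hcard
  obtain ⟨f, -, hq⟩ := FiniteField.card F p
  rw [hq] at hcard
  have hq2 : 2 ≤ p ^ (f : ℕ) := by
    calc 2 ≤ p := hp.two_le
      _ = p ^ 1 := (pow_one p).symm
      _ ≤ p ^ (f : ℕ) := Nat.pow_le_pow_right hp.pos f.pos
  have hq0 : 0 < p ^ (f : ℕ) := by omega
  set q := p ^ (f : ℕ) with hqdef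
  have heq : 1 * Nat.card ↥(Lie.chevE8.group F) =
      q ^ 120 * ((q ^ 2 - 1) * (q ^ 8 - 1) * (q ^ 12 - 1) * (q ^ 14 - 1) * (q ^ 18 - 1) *
        (q ^ 20 - 1) * (q ^ 24 - 1) * (q ^ 30 - 1)) := by
    rw [hcard]; ring
  have hpos : 0 < (q ^ 2 - 1) * (q ^ 8 - 1) * (q ^ 12 - 1) * (q ^ 14 - 1) * (q ^ 18 - 1) *
        (q ^ 20 - 1) * (q ^ 24 - 1) * (q ^ 30 - 1) :=
    Nat.mul_pos (Nat.mul_pos (Nat.mul_pos (Nat.mul_pos (Nat.mul_pos (Nat.mul_pos (Nat.mul_pos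
      (ltbg2f4e8_pos q 2 hq2 (by norm_num)) (ltbg2f4e8_pos q 8 hq2 (by norm_num)))
      (ltbg2f4e8_pos q 12 hq2 (by norm_num))) (ltbg2f4e8_pos q 14 hq2 (by norm_num)))
      (ltbg2f4e8_pos q 18 hq2 (by norm_num))) (ltbg2f4e8_pos q 20 hq2 (by norm_num)))
      (ltbg2f4e8_pos q 24 hq2 (by norm_num))) (ltbg2f4e8_pos q 30 hq2 (by norm_num))
  have hfin : Finite ↥(Lie.chevE8.group F) :=
    ltbg2f4e8_finite q 120 _ hq0 hpos (by rw [← heq, one_mul])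
  have hM : (q ^ 2 - 1) * (q ^ 8 - 1) * (q ^ 12 - 1) * (q ^ 14 - 1) * (q ^ 18 - 1) *
        (q ^ 20 - 1) * (q ^ 24 - 1) * (q ^ 30 - 1) < q ^ 128 :=
    ltbg2f4e8_step q 30 98 _ hq0 (ltbg2f4e8_step q 24 74 _ hq0 (ltbg2f4e8_step q 20 54 _ hq0
      (ltbg2f4e8_step q 18 36 _ hq0 (ltbg2f4e8_step q 14 22 _ hq0 (ltbg2f4e8_step q 12 10 _ hq0
        (ltbg2f4e8_step q 8 2 _ hq0 (ltbg2f4e8_base q 2 hq0)))))))
  exact goal_of_q_mul_bounds p hp f 120 128 1 _ (by simpa using hp.one_lt.ne') heq hM (by norm_num)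

end Cfsg.Agent.Lib.Lead.LTB
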