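import Mathlib
import Cfsg.Prelude.Def_GeometricClasses

/-!
# S5981, piece OQ-EIGPERMQ (helper57 for helper96)

A diagonalisable similarity of a non-degenerate quadratic form: the eigenvalues are paired by a
permutation.
-/

set_option autoImplicit false

namespace Cfsg.Agent.Lib.Helper57.Oq

open Matrix

-- PIECE EIGPERMQ
theorem exists_perm_eig_quad {F : Type*} [Field F] {n : ℕ}
    (Q : (Fin n → F) → F) (hQ : Cfsg.Geo.IsNondegenerateQuadraticForm Q)
    (d : Fin n → F) (x g : GL (Fin n) F)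
    (hx : (x : Matrix (Fin n) (Fin n) F) = Matrix.diagonal d) (μ : F)
    (hμ : ∀ v, Q (((g⁻¹ * x * g : GL (Fin n) F) : Matrix (Fin n) (Fin n) F) *ᵥ v) = μ * Q v) :
    ∃ π : Equiv.Perm (Fin n), ∀ l, d (π l) * d l = μ := by
  classical
  have hb := hQ.polar_bilinear
  -- the Gram matrix of the polar form
  obtain ⟨M, hM⟩ : ∃ M : Matrix (Fin n) (Fin n) F,
      ∀ u v, QuadraticMap.polar Q u v = u ⬝ᵥ (M *ᵥ v) := by
    let B : (Fin n → F) →ₗ[F] (Fin n → F) →ₗ[F] F :=
      LinearMap.mk₂ F (QuadraticMap.polar Q) hb.add_left hb.smul_left hb.add_right hb.smul_right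
    refine ⟨LinearMap.toMatrix₂' F B, fun u v => ?_⟩
    rw [← Matrix.toLinearMap₂'_apply', Matrix.toLinearMap₂'_toMatrix']
    rfl
  have hMdet : M.det ≠ 0 := by
    intro h0
    obtain ⟨v, hv, hMv⟩ := Matrix.exists_mulVec_eq_zero_iff.mpr h0
    obtain ⟨w, hw⟩ := (hQ.nondegenerate v hv).1
    apply hw
    rw [hM, hMv, dotProduct_zero]
  -- the similarity scales the polar form
  have hB : ∀ u v, QuadraticMap.polar Q
      (((g⁻¹ * x * g : GL (Fin n) F) : Matrix (Fin n) (Fin n) F) *ᵥ u)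
      (((g⁻¹ * x * g : GL (Fin n) F) : Matrix (Fin n) (Fin n) F) *ᵥ v) =
      μ * QuadraticMap.polar Q u v := by
    intro u v
    unfold QuadraticMap.polar
    rw [← Matrix.mulVec_add, hμ, hμ, hμ]
    ring
  -- the columns of `g⁻¹` are eigenvectors
  have hGZ : ((g⁻¹ * x * g : GL (Fin n) F) : Matrix (Fin n) (Fin n) F) *
      ((g⁻¹ : GL (Fin n) F) : Matrix (Fin n) (Fin n) F) =
      ((g⁻¹ : GL (Fin n) F) : Matrix (Fin n) (Fin n) F) * Matrix.diagonal d := by
    rw [← Units.val_mul, mul_inv_cancel_right, Units.val_mul, hx]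
  have hcol : ∀ a : Fin n,
      ((g⁻¹ * x * g : GL (Fin n) F) : Matrix (Fin n) (Fin n) F) *ᵥ
        (fun i => ((g⁻¹ : GL (Fin n) F) : Matrix (Fin n) (Fin n) F) i a) =
      fun i => ((g⁻¹ : GL (Fin n) F) : Matrix (Fin n) (Fin n) F) i a * d a := by
    intro a
    ext i
    have h := congrFun (congrFun hGZ i) a
    rw [Matrix.mul_apply, Matrix.mul_apply] at h
    simp only [Matrix.diagonal_apply, mul_ite, mul_zero, Finset.sum_ite_eq', Finset.mem_univ,
      if_true] at h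
    rw [← h]
    rfl
  obtain ⟨N, hNdef⟩ : ∃ N : Matrix (Fin n) (Fin n) F,
      ∀ a b, N a b = QuadraticMap.polar Q
        (fun i => ((g⁻¹ : GL (Fin n) F) : Matrix (Fin n) (Fin n) F) i a)
        (fun i => ((g⁻¹ : GL (Fin n) F) : Matrix (Fin n) (Fin n) F) i b) :=
    ⟨fun a b => QuadraticMap.polar Q
        (fun i => ((g⁻¹ : GL (Fin n) F) : Matrix (Fin n) (Fin n) F) i a)
        (fun i => ((g⁻¹ : GL (Fin n) F) : Matrix (Fin n) (Fin n) F) i b), fun _ _ => rfl⟩
  have hN : N = ((g⁻¹ : GL (Fin n) F) : Matrix (Fin n) (Fin n) F)ᵀ * M *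
      ((g⁻¹ : GL (Fin n) F) : Matrix (Fin n) (Fin n) F) := by
    ext a b
    rw [hNdef, hM]
    simp only [Matrix.mul_apply, Matrix.transpose_apply, dotProduct, Matrix.mulVec,
      Finset.sum_mul, Finset.mul_sum]
    rw [Finset.sum_comm]
    apply Finset.sum_congr rfl
    intro j _
    apply Finset.sum_congr rfl
    intro i _
    ring
  have hGdet : (((g⁻¹ : GL (Fin n) F) : Matrix (Fin n) (Fin n) F)).det ≠ 0 :=
    ((Matrix.isUnit_iff_isUnit_det _).mp (Units.isUnit g⁻¹)).ne_zero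
  have hdet : N.det ≠ 0 := by
    rw [hN, Matrix.det_mul, Matrix.det_mul, Matrix.det_transpose]
    exact mul_ne_zero (mul_ne_zero hGdet hMdet) hGdet
  have hπ : ∃ π : Equiv.Perm (Fin n), ∀ l, N (π l) l ≠ 0 := by
    by_contra hcon
    push Not at hcon
    apply hdet
    rw [Matrix.det_apply]
    apply Finset.sum_eq_zero
    intro π _
    obtain ⟨l, hl⟩ := hcon π
    have hz : ∏ i, N (π i) i = 0 := Finset.prod_eq_zero (Finset.mem_univ l) hl
    rw [hz, smul_zero]
  obtain ⟨π, hπ⟩ := hπ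
  refine ⟨π, fun l => ?_⟩
  have h := hB (fun i => ((g⁻¹ : GL (Fin n) F) : Matrix (Fin n) (Fin n) F) i (π l))
    (fun i => ((g⁻¹ : GL (Fin n) F) : Matrix (Fin n) (Fin n) F) i l)
  rw [hcol, hcol, ← hNdef] at h
  have e1 : ∀ a : Fin n, (fun i => ((g⁻¹ : GL (Fin n) F) : Matrix (Fin n) (Fin n) F) i a * d a) =
      d a • (fun i => ((g⁻¹ : GL (Fin n) F) : Matrix (Fin n) (Fin n) F) i a) := by
    intro a
    ext i
    simp [mul_comm]
  rw [e1, e1, hb.smul_left, hb.smul_right, ← hNdef] at h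
  have h' : d (π l) * d l * N (π l) l = μ * N (π l) l := by
    rw [← h]
    ring
  exact mul_right_cancel₀ (hπ l) h'

end Cfsg.Agent.Lib.Helper57.Oq
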