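import Cfsg.Agent.Lib.Helper43.PiX2PLANE0
import Cfsg.Agent.Lib.Helper62.PiX2STEP
import Cfsg.Agent.Lib.Helper5.PiX2NOFIX

/-!
Project PE (S5988, helper96): piece X2EX (helper57).

An isometry `T` with `T * T = -1` of a nondegenerate symmetric space (`2 ≠ 0`) has invariant
nondegenerate subspaces of every even dimension: peel invariant nondegenerate planes
`span {v, T v}` from `⊤` (`Helper43.Pi.plane_basic`, `Helper62.Pi.sq_neg_step`).
-/

set_option autoImplicit false
set_option linter.unusedSectionVars false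
set_option linter.unusedVariables false

namespace Cfsg.Agent.Lib.Helper57.Pe

universe u

section Abstract

open Module Cfsg.Agent.Lib.Helper96.Sp Cfsg.Agent.Lib.Helper96.BG Cfsg.Agent.Lib.Helper96.Hy
  Cfsg.Agent.Lib.Helper96.Pi Cfsg.Agent.Lib.Helper47

variable {F : Type u} [Field F] [Fintype F] {V : Type u} [AddCommGroup V] [Module F V]
  [FiniteDimensional F V] {B : LinearMap.BilinForm F V}

/-- A nonzero nondegenerate subspace has a nonsingular vector (`2 ≠ 0`). -/
theorem x2ex_nonsing (hS : B.IsSymm) (h2 : (2 : F) ≠ 0) (W : Submodule F V) (hW : ND B W)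
    (hW0 : W ≠ ⊥) : ∃ v ∈ W, B v v ≠ 0 := by
  by_contra hcon
  push Not at hcon
  apply hW0
  rw [Submodule.eq_bot_iff]
  intro u hu
  apply hW u hu
  intro w hw
  have h1 := hcon (u + w) (W.add_mem hu hw)
  simp only [map_add, LinearMap.add_apply] at h1
  rw [hcon u hu, hcon w hw, hS.eq w u] at h1
  have h3 : (2 : F) * B u w = 0 := by linear_combination h1
  exact (mul_eq_zero.mp h3).resolve_left h2

/-- Peeling `t` planes from `⊤`. -/
theorem x2ex_peel (hS : B.IsSymm) (h2 : (2 : F) ≠ 0) (hN : ND B ⊤)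
    (T : Module.End F V) (hT : Isom B T) (hTT : T * T = -1) (t : ℕ)
    (ht : 2 * t ≤ finrank F V) :
    ∃ W : Submodule F V, ND B W ∧ W.map T ≤ W ∧ finrank F W + 2 * t = finrank F V := by
  induction t with
  | zero => exact ⟨⊤, hN, le_top, by simp⟩
  | succ t ih =>
    obtain ⟨W, hW, hWT, hfin⟩ := ih (by omega)
    have hW0 : W ≠ ⊥ := by
      intro h
      rw [h, finrank_bot] at hfin
      omega
    obtain ⟨v, hvW, hv⟩ := x2ex_nonsing hS h2 W hW hW0
    have hP := Cfsg.Agent.Lib.Helper43.Pi.plane_basic hS h2 T hT hTT v hv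
    obtain ⟨h1, h3, h4, -, -⟩ :=
      Cfsg.Agent.Lib.Helper62.Pi.sq_neg_step hS h2 hN T hT hTT W hW hWT v hvW hv hP
    exact ⟨_, h1, h3, by omega⟩

-- PIECE X2EX
theorem exists_inv_nd_sq_neg (hS : B.IsSymm) (h2 : (2 : F) ≠ 0) (hN : ND B ⊤)
    (T : Module.End F V) (hT : Isom B T) (hTT : T * T = -1) (j : ℕ)
    (hj : 2 * j ≤ finrank F V) :
    ∃ W : Submodule F V, ND B W ∧ W.map T ≤ W ∧ finrank F W = 2 * j := by
  have hev : Even (finrank F V) := by
    have h := Cfsg.Agent.Lib.Helper5.Pi.even_of_inv_sq_neg hS h2 T hT hTT ⊤ hN le_top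
    rwa [finrank_top] at h
  obtain ⟨N, hNn⟩ := hev
  obtain ⟨W, hW, hWT, hfin⟩ := x2ex_peel hS h2 hN T hT hTT (N - j) (by omega)
  exact ⟨W, hW, hWT, by omega⟩

end Abstract

end Cfsg.Agent.Lib.Helper57.Pe
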