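import Cfsg.Agent.Lib.Helper64.PiCONA

/-!
Project PM (S5991, helper96): piece MCONB (helper57).

`x = fromBlocks X 0 0 1` with `X` from `Cfsg.Agent.Lib.Helper64.Pi.exists_unip_A`; `Y` is the
range of the embedding of the last two coordinates.
-/

set_option autoImplicit false
set_option linter.unusedSectionVars false
set_option linter.unusedVariables false

namespace Cfsg.Agent.Lib.Helper57.Pm

open Module

universe u

section Concrete

open Matrix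
open scoped MatrixGroups

variable {F : Type u} [Field F] [Fintype F]

/-- The embedding of the last two coordinates. -/
def mconbEmb (e : ℕ) (F : Type u) [Field F] :
    (Fin 2 → F) →ₗ[F] ((Fin e ⊕ Fin e) ⊕ Fin 2 → F) where
  toFun w := Sum.elim 0 w
  map_add' w w' := by
    funext i
    cases i with
    | inl i => simp
    | inr i => simp
  map_smul' c w := by
    funext i
    cases i with
    | inl i => simp
    | inr i => simp

-- PIECE MCONB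
theorem exists_unip_minus_B (h2 : (2 : F) ≠ 0) (e : ℕ) (he : Even e) (he1 : 1 ≤ e) (a b : F) :
    ∃ x : GL ((Fin e ⊕ Fin e) ⊕ Fin 2) F,
      (∀ v, Cfsg.quadFormMinus e F a b
          ((x : Matrix ((Fin e ⊕ Fin e) ⊕ Fin 2) ((Fin e ⊕ Fin e) ⊕ Fin 2) F) *ᵥ v)
        = Cfsg.quadFormMinus e F a b v) ∧
      (∀ z : F, (x : Matrix ((Fin e ⊕ Fin e) ⊕ Fin 2) ((Fin e ⊕ Fin e) ⊕ Fin 2) F)
        ≠ z • (1 : Matrix ((Fin e ⊕ Fin e) ⊕ Fin 2) ((Fin e ⊕ Fin e) ⊕ Fin 2) F)) ∧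
      (Matrix.toLin' (x : Matrix ((Fin e ⊕ Fin e) ⊕ Fin 2) ((Fin e ⊕ Fin e) ⊕ Fin 2) F) - 1)
        * (Matrix.toLin' (x : Matrix ((Fin e ⊕ Fin e) ⊕ Fin 2) ((Fin e ⊕ Fin e) ⊕ Fin 2) F) - 1)
        = 0 ∧
      ∃ Y : Submodule F ((Fin e ⊕ Fin e) ⊕ Fin 2 → F), finrank F Y ≤ 2 ∧
        LinearMap.ker
            (Matrix.toLin' (x : Matrix ((Fin e ⊕ Fin e) ⊕ Fin 2) ((Fin e ⊕ Fin e) ⊕ Fin 2) F) - 1)
          ≤ LinearMap.range
            (Matrix.toLin' (x : Matrix ((Fin e ⊕ Fin e) ⊕ Fin 2) ((Fin e ⊕ Fin e) ⊕ Fin 2) F) - 1)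
            ⊔ Y := by
  obtain ⟨X, hXQ, hXne, hXN, hXker⟩ := Cfsg.Agent.Lib.Helper64.Pi.exists_unip_A h2 e he he1
  obtain ⟨X0, hX0⟩ : ∃ X0 : Matrix (Fin e ⊕ Fin e) (Fin e ⊕ Fin e) F,
      X0 = (X : Matrix (Fin e ⊕ Fin e) (Fin e ⊕ Fin e) F) := ⟨_, rfl⟩
  obtain ⟨X1, hX1⟩ : ∃ X1 : Matrix (Fin e ⊕ Fin e) (Fin e ⊕ Fin e) F,
      X1 = ((X⁻¹ : GL (Fin e ⊕ Fin e) F) : Matrix (Fin e ⊕ Fin e) (Fin e ⊕ Fin e) F) := ⟨_, rfl⟩
  have h01 : X0 * X1 = 1 := by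
    rw [hX0, hX1, ← Units.val_mul, mul_inv_cancel]; rfl
  have h10 : X1 * X0 = 1 := by
    rw [hX0, hX1, ← Units.val_mul, inv_mul_cancel]; rfl
  rw [← hX0] at hXQ hXne hXN hXker
  obtain ⟨M, hM⟩ : ∃ M : Matrix ((Fin e ⊕ Fin e) ⊕ Fin 2) ((Fin e ⊕ Fin e) ⊕ Fin 2) F,
      M = Matrix.fromBlocks X0 0 0 1 := ⟨_, rfl⟩
  have hMinv1 : M * Matrix.fromBlocks X1 0 0 1 = 1 := by
    rw [hM, Matrix.fromBlocks_multiply, ← Matrix.fromBlocks_one]
    simp [h01]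
  have hMinv2 : Matrix.fromBlocks X1 0 0 1 * M = 1 := by
    rw [hM, Matrix.fromBlocks_multiply, ← Matrix.fromBlocks_one]
    simp [h10]
  have hMv : ∀ v : (Fin e ⊕ Fin e) ⊕ Fin 2 → F, M *ᵥ v =
      Sum.elim (X0 *ᵥ (v ∘ Sum.inl)) (v ∘ Sum.inr) := by
    intro v
    rw [hM, Matrix.fromBlocks_mulVec]
    simp
  have hNv : ∀ v : (Fin e ⊕ Fin e) ⊕ Fin 2 → F, (Matrix.toLin' M - 1) v =
      Sum.elim ((Matrix.toLin' X0 - 1) (v ∘ Sum.inl)) 0 := by
    intro v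
    rw [LinearMap.sub_apply, Matrix.toLin'_apply, hMv]
    funext i
    cases i with
    | inl i => simp [LinearMap.sub_apply, Matrix.toLin'_apply]
    | inr i => simp
  refine ⟨⟨M, Matrix.fromBlocks X1 0 0 1, hMinv1, hMinv2⟩, ?_, ?_, ?_, ?_⟩
  · intro v
    show Cfsg.quadFormMinus e F a b (M *ᵥ v) = Cfsg.quadFormMinus e F a b v
    rw [hMv]
    have h1 := hXQ (v ∘ Sum.inl)
    unfold Cfsg.quadFormPlus at h1
    unfold Cfsg.quadFormMinus
    simp only [Sum.elim_inl, Sum.elim_inr, Function.comp_apply] at h1 ⊢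
    rw [h1]
  · intro z hz
    have hz' : M = z • (1 : Matrix ((Fin e ⊕ Fin e) ⊕ Fin 2) ((Fin e ⊕ Fin e) ⊕ Fin 2) F) := hz
    apply hXne z
    ext i k
    have h1 := congrFun (congrFun hz' (Sum.inl i)) (Sum.inl k)
    simpa [hM, Matrix.one_apply] using h1
  · show (Matrix.toLin' M - 1) * (Matrix.toLin' M - 1) = 0
    apply LinearMap.ext
    intro v
    rw [Module.End.mul_apply, hNv, hNv]
    have h1 : (Sum.elim ((Matrix.toLin' X0 - 1) (v ∘ Sum.inl)) (0 : Fin 2 → F)) ∘ Sum.inl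
        = (Matrix.toLin' X0 - 1) (v ∘ Sum.inl) := by
      funext k; simp
    rw [h1]
    have h2' : (Matrix.toLin' X0 - 1) ((Matrix.toLin' X0 - 1) (v ∘ Sum.inl)) = 0 := by
      rw [← Module.End.mul_apply, hXN]; rfl
    rw [h2']
    funext i
    cases i with
    | inl i => rfl
    | inr i => rfl
  · refine ⟨LinearMap.range (mconbEmb e F), ?_, ?_⟩
    · calc finrank F (LinearMap.range (mconbEmb e F)) ≤ finrank F (Fin 2 → F) :=
            LinearMap.finrank_range_le _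
        _ = 2 := by simp
    · show LinearMap.ker (Matrix.toLin' M - 1) ≤ LinearMap.range (Matrix.toLin' M - 1) ⊔ _
      intro v hv
      rw [LinearMap.mem_ker, hNv] at hv
      have hv1 : (Matrix.toLin' X0 - 1) (v ∘ Sum.inl) = 0 := by
        funext i
        have h1 := congrFun hv (Sum.inl i)
        simpa using h1
      obtain ⟨u, hu⟩ := hXker (LinearMap.mem_ker.mpr hv1)
      refine Submodule.mem_sup.mpr ⟨(Matrix.toLin' M - 1) (Sum.elim u 0), ⟨_, rfl⟩,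
        mconbEmb e F (v ∘ Sum.inr), ⟨_, rfl⟩, ?_⟩
      rw [hNv]
      have h1 : (Sum.elim u (0 : Fin 2 → F)) ∘ Sum.inl = u := by
        funext k; simp
      rw [h1, hu]
      funext i
      cases i with
      | inl i => simp [mconbEmb]
      | inr i => simp [mconbEmb]

end Concrete

end Cfsg.Agent.Lib.Helper57.Pm
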