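import Mathlib
import Cfsg.Agent.Lib.Helper72.S3Defs

/-! S4305 pieces REG6 and REG6C (job of helper72): regular-orbit norm argument for an abelian
`R ≤ MulAut V` normalised by `f`, `t`.  helper57. -/

set_option autoImplicit false

namespace Cfsg.Agent.Lib.Helper57.S3F

open Cfsg.Agent.Lib.Helper72.S3F

universe u

section Aux

variable {V : Type u} [CommGroup V]

/-- an element fixed by a generating set is fixed by the closure -/
theorem reg6_fix_closure {S : Set (MulAut V)} {w : V} (h : ∀ g ∈ S, g w = w) :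
    ∀ b ∈ Subgroup.closure S, b w = w := by
  intro b hb
  induction hb using Subgroup.closure_induction with
  | mem g hg => exact h g hg
  | one => rfl
  | mul x y _ _ hx hy =>
    show x (y w) = w
    rw [hy, hx]
  | inv x _ hx =>
    have h1 : x⁻¹ (x w) = w := MulAut.inv_apply_self _ x w
    rw [hx] at h1
    exact h1

/-- the partial norm `∏_{u ∈ R} (u⁻¹ * (a * u * a⁻¹)) (a v)` -/
noncomputable def WW (R : Subgroup (MulAut V)) [Fintype R] (a : MulAut V) (v : V) : V :=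
  ∏ u : R, ((u : MulAut V)⁻¹ * (a * (u : MulAut V) * a⁻¹)) (a v)

theorem WW_one (R : Subgroup (MulAut V)) [Fintype R] (v : V) :
    WW R 1 v = v ^ Nat.card R := by
  unfold WW
  have h : ∀ u : R, ((u : MulAut V)⁻¹ * (1 * (u : MulAut V) * 1⁻¹)) ((1 : MulAut V) v) = v := by
    intro u
    have e : (u : MulAut V)⁻¹ * (1 * (u : MulAut V) * 1⁻¹) = 1 := by group
    rw [e]
    rfl
  rw [Finset.prod_congr rfl (fun u _ => h u), Finset.prod_const, Finset.card_univ,
    Nat.card_eq_fintype_card]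

theorem WW_gen_fixed (R : Subgroup (MulAut V)) [Fintype R] (hc : Comm R) (a : MulAut V)
    (ha : ∀ x ∈ R, a * x * a⁻¹ ∈ R) (v : V) (u₀ : MulAut V) (hu₀ : u₀ ∈ R) :
    (u₀⁻¹ * (a * u₀ * a⁻¹)) (WW R a v) = WW R a v := by
  unfold WW
  rw [map_prod]
  have key : ∀ u : R, (u₀⁻¹ * (a * u₀ * a⁻¹))
      (((u : MulAut V)⁻¹ * (a * (u : MulAut V) * a⁻¹)) (a v)) =
      ((((⟨u₀, hu₀⟩ : R) * u : R) : MulAut V)⁻¹ *
        (a * (((⟨u₀, hu₀⟩ : R) * u : R) : MulAut V) * a⁻¹)) (a v) := by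
    intro u
    have h1 : (a * u₀ * a⁻¹) * (u : MulAut V)⁻¹ = (u : MulAut V)⁻¹ * (a * u₀ * a⁻¹) :=
      hc _ (ha u₀ hu₀) _ (R.inv_mem u.2)
    have h2 : (u : MulAut V) * u₀ = u₀ * (u : MulAut V) := hc _ u.2 _ hu₀
    have e : u₀⁻¹ * (a * u₀ * a⁻¹) * ((u : MulAut V)⁻¹ * (a * (u : MulAut V) * a⁻¹)) =
        (u₀ * (u : MulAut V))⁻¹ * (a * (u₀ * (u : MulAut V)) * a⁻¹) := by
      calc u₀⁻¹ * (a * u₀ * a⁻¹) * ((u : MulAut V)⁻¹ * (a * (u : MulAut V) * a⁻¹))
          = u₀⁻¹ * ((a * u₀ * a⁻¹) * (u : MulAut V)⁻¹) * (a * (u : MulAut V) * a⁻¹) := by group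
        _ = u₀⁻¹ * ((u : MulAut V)⁻¹ * (a * u₀ * a⁻¹)) * (a * (u : MulAut V) * a⁻¹) := by rw [h1]
        _ = ((u : MulAut V) * u₀)⁻¹ * (a * (u₀ * (u : MulAut V)) * a⁻¹) := by group
        _ = (u₀ * (u : MulAut V))⁻¹ * (a * (u₀ * (u : MulAut V)) * a⁻¹) := by rw [h2]
    show (u₀⁻¹ * (a * u₀ * a⁻¹) * ((u : MulAut V)⁻¹ * (a * (u : MulAut V) * a⁻¹))) (a v) = _
    rw [e]
    rfl
  rw [Finset.prod_congr rfl (fun u _ => key u)]
  exact Fintype.prod_equiv (Equiv.mulLeft (⟨u₀, hu₀⟩ : R)) _ _ (fun u => rfl)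

theorem WW_mem_fix (R : Subgroup (MulAut V)) [Fintype R] (hc : Comm R) (a : MulAut V)
    (ha : ∀ x ∈ R, a * x * a⁻¹ ∈ R) (v : V) : WW R a v ∈ fix (cm R a) := by
  rw [mem_fix]
  apply reg6_fix_closure
  rintro g ⟨u, hu, rfl⟩
  exact WW_gen_fixed R hc a ha v u hu

/-- `fix (cm R (b a b⁻¹)) = b (fix (cm R a))`, the inclusion needed -/
theorem fix_conj (R : Subgroup (MulAut V)) (a b : MulAut V) (hb : ∀ x ∈ R, b * x * b⁻¹ ∈ R)
    (w : V) (hw : w ∈ fix (cm R (b * a * b⁻¹))) : b⁻¹ w ∈ fix (cm R a) := by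
  rw [mem_fix]
  apply reg6_fix_closure
  rintro g ⟨u, hu, rfl⟩
  have h1 : ((b * u * b⁻¹)⁻¹ * ((b * a * b⁻¹) * (b * u * b⁻¹) * (b * a * b⁻¹)⁻¹)) w = w :=
    hw _ (Subgroup.subset_closure ⟨b * u * b⁻¹, hb u hu, rfl⟩)
  have h2 : (b * u * b⁻¹)⁻¹ * ((b * a * b⁻¹) * (b * u * b⁻¹) * (b * a * b⁻¹)⁻¹) =
      b * (u⁻¹ * (a * u * a⁻¹)) * b⁻¹ := by group
  rw [h2] at h1
  have h3 : b ((u⁻¹ * (a * u * a⁻¹)) (b⁻¹ w)) = w := h1
  have h4 := congrArg (fun x => b⁻¹ x) h3
  simp only [MulAut.inv_apply_self] at h4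
  exact h4

theorem cm_sq_le (R : Subgroup (MulAut V)) (a : MulAut V) (ha : ∀ x ∈ R, a * x * a⁻¹ ∈ R) :
    cm R (a * a) ≤ cm R a := by
  unfold cm
  rw [Subgroup.closure_le]
  rintro g ⟨u, hu, rfl⟩
  have e : u⁻¹ * (a * a * u * (a * a)⁻¹) =
      (u⁻¹ * (a * u * a⁻¹)) * ((a * u * a⁻¹)⁻¹ * (a * (a * u * a⁻¹) * a⁻¹)) := by group
  rw [SetLike.mem_coe, e]
  exact Subgroup.mul_mem _ (Subgroup.subset_closure ⟨u, hu, rfl⟩)
    (Subgroup.subset_closure ⟨a * u * a⁻¹, ha u hu, rfl⟩)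

theorem fix_anti {B B' : Subgroup (MulAut V)} (h : B ≤ B') : fix B' ≤ fix B := by
  intro v hv b hb
  exact hv b (h hb)

theorem WW_term (a u : MulAut V) (v : V) :
    (u⁻¹ * (a * u * a⁻¹)) (a v) = u⁻¹ (a (u v)) := by
  show u⁻¹ (a (u (a⁻¹ (a v)))) = _
  rw [MulAut.inv_apply_self]

end Aux

theorem reg6 : Reg6Stmt.{u} := by
  intro V _ _ f t R hS3 hfpf hc hfR htR v
  classical
  let _ : Fintype R := Fintype.ofFinite R
  obtain ⟨hf3, ht2, htf⟩ := hS3
  -- relations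
  have hfff : f * f * f = 1 := by rw [← hf3, pow_succ, pow_succ, pow_one]
  have htt : t * t = 1 := by rw [← ht2, pow_two]
  have htf' : t * f = f * f * t := by
    have h1 : t * f = f⁻¹ * t := by rw [← htf]; group
    have h2 : f⁻¹ = f * f := by rw [eq_comm, ← mul_eq_one_iff_eq_inv]; exact hfff
    rw [h1, h2]
  have hfa : ∀ x : V, f (f (f x)) = x := fun x => by
    have := congrArg (fun g : MulAut V => g x) hfff
    exact this
  have hta : ∀ x : V, t (t x) = x := fun x => by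
    have := congrArg (fun g : MulAut V => g x) htt
    exact this
  have htfa : ∀ x : V, t (f x) = f (f (t x)) := fun x => by
    have := congrArg (fun g : MulAut V => g x) htf'
    exact this
  -- the full norm vanishes
  have hN : ∀ x : V, x * f x * f (f x) * t x * f (t x) * f (f (t x)) = 1 := by
    intro x
    apply hfpf
    · simp only [map_mul, hfa]
      ac_rfl
    · simp only [map_mul, htfa, hta, hfa]
      ac_rfl
  have hfinv : f⁻¹ = f * f := by
    rw [eq_comm, ← mul_eq_one_iff_eq_inv]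
    exact hfff
  -- the six partial norms multiply to one
  have hprod : WW R 1 v * WW R f v * WW R (f * f) v * WW R t v * WW R (f * t) v *
      WW R (f * f * t) v = 1 := by
    unfold WW
    rw [← Finset.prod_mul_distrib, ← Finset.prod_mul_distrib, ← Finset.prod_mul_distrib,
      ← Finset.prod_mul_distrib, ← Finset.prod_mul_distrib]
    apply Finset.prod_eq_one
    intro u _
    have h1 := hN ((u : MulAut V) v)
    have h2 := congrArg (fun x => (u : MulAut V)⁻¹ x) h1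
    simp only [map_mul, map_one] at h2
    rw [WW_term, WW_term, WW_term, WW_term, WW_term, WW_term]
    exact h2
  rw [WW_one] at hprod
  -- normalisers
  have hffR : ∀ x ∈ R, (f * f) * x * (f * f)⁻¹ ∈ R := fun x hx => by
    have h1 := hfR _ (hfR x hx)
    have e : (f * f) * x * (f * f)⁻¹ = f * (f * x * f⁻¹) * f⁻¹ := by group
    rw [e]
    exact h1
  have hftR : ∀ x ∈ R, (f * t) * x * (f * t)⁻¹ ∈ R := fun x hx => by
    have h1 := hfR _ (htR x hx)
    have e : (f * t) * x * (f * t)⁻¹ = f * (t * x * t⁻¹) * f⁻¹ := by group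
    rw [e]
    exact h1
  have hfftR : ∀ x ∈ R, (f * f * t) * x * (f * f * t)⁻¹ ∈ R := fun x hx => by
    have h1 := hffR _ (htR x hx)
    have e : (f * f * t) * x * (f * f * t)⁻¹ = (f * f) * (t * x * t⁻¹) * (f * f)⁻¹ := by group
    rw [e]
    exact h1
  -- relations between the six elements
  have e1 : f * t * f⁻¹ = f * f * t := by
    calc f * t * f⁻¹ = f * (t * f) * f := by rw [hfinv]; group
      _ = f * (f * f * t) * f := by rw [htf']
      _ = (f * f * f) * (t * f) := by group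
      _ = f * f * t := by rw [hfff, one_mul, htf']
  have e2 : f * (f * t * f⁻¹) * f⁻¹ = f * t := by
    calc f * (f * t * f⁻¹) * f⁻¹ = f * (f * f * t) * f⁻¹ := by rw [e1]
      _ = (f * f * f) * t * f⁻¹ := by group
      _ = (t * f) * f := by rw [hfff, one_mul, hfinv]; group
      _ = (f * f * t) * f := by rw [htf']
      _ = f * f * (t * f) := by group
      _ = f * f * (f * f * t) := by rw [htf']
      _ = (f * f * f) * (f * t) := by group
      _ = f * t := by rw [hfff, one_mul]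
  -- memberships
  have m1 : WW R f v ∈ fix (cm R f) := WW_mem_fix R hc f hfR v
  have m2 : WW R (f * f) v ∈ fix (cm R f) := by
    have h1 : WW R (f * f) v ∈ fix (cm R (f * f)) := WW_mem_fix R hc (f * f) hffR v
    have h2 : cm R f ≤ cm R (f * f) := by
      have h3 := cm_sq_le R (f * f) hffR
      have e : (f * f) * (f * f) = f := by
        calc (f * f) * (f * f) = (f * f * f) * f := by group
          _ = f := by rw [hfff, one_mul]
      rwa [e] at h3
    exact fix_anti h2 h1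
  have m3 : WW R t v ∈ fix (cm R t) := WW_mem_fix R hc t htR v
  have m4 : f⁻¹ (WW R (f * f * t) v) ∈ fix (cm R t) := by
    apply fix_conj R t f hfR
    rw [e1]
    exact WW_mem_fix R hc (f * f * t) hfftR v
  have m5 : f⁻¹ (f⁻¹ (WW R (f * t) v)) ∈ fix (cm R t) := by
    apply fix_conj R t f hfR
    apply fix_conj R (f * t * f⁻¹) f hfR
    rw [e2]
    exact WW_mem_fix R hc (f * t) hftR v
  refine ⟨(WW R f v * WW R (f * f) v)⁻¹, (fix _).inv_mem ((fix _).mul_mem m1 m2),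
    (WW R t v)⁻¹, (fix _).inv_mem m3, (f⁻¹ (WW R (f * f * t) v))⁻¹, (fix _).inv_mem m4,
    (f⁻¹ (f⁻¹ (WW R (f * t) v)))⁻¹, (fix _).inv_mem m5, ?_⟩
  simp only [map_inv, MulAut.apply_inv_self]
  generalize WW R f v = x1 at hprod ⊢
  generalize WW R (f * f) v = x2 at hprod ⊢
  generalize WW R t v = x3 at hprod ⊢
  generalize WW R (f * t) v = x4 at hprod ⊢
  generalize WW R (f * f * t) v = x5 at hprod ⊢
  generalize v ^ Nat.card R = y at hprod ⊢
  have h5 : y = (x1 * x2 * x3 * x4 * x5)⁻¹ := by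
    apply eq_inv_of_mul_eq_one_left
    rw [← hprod]
    simp only [mul_assoc]
  rw [h5]
  simp only [mul_inv]
  exact mul_right_comm _ _ _

theorem reg6c (h : Reg6Stmt.{u}) : Reg6cStmt.{u} := by
  intro V _ _ f t R hS3 hfpf hc hfR htR hcop v
  obtain ⟨a, ha, w₀, hw₀, w₁, hw₁, w₂, hw₂, hv⟩ :=
    h V f t R hS3 hfpf hc hfR htR ((powCoprime hcop.symm).symm v)
  refine ⟨a, ha, w₀, hw₀, w₁, hw₁, w₂, hw₂, ?_⟩
  rw [← hv]
  exact ((powCoprime hcop.symm).apply_symm_apply v).symm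

end Cfsg.Agent.Lib.Helper57.S3F
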