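import Mathlib

/-! S6002 round 2 piece SM-DN (job of helper98): normalise an anticommuting pair that is not of
quaternion type to a pair of involutions.  helper57. -/

set_option autoImplicit false

namespace Cfsg.Agent.Lib.Helper98.SM

open Matrix Polynomial

theorem dnorm {F : Type*} [Field F] (R : Subgroup (GL (Fin 2 ⊕ Fin 2) F))
    (hsq : ∀ g ∈ R, g * g = 1 ∨ g * g = -1) (g h : GL (Fin 2 ⊕ Fin 2) F) (hg : g ∈ R)
    (hh : h ∈ R) (hgh : g * h = -(h * g)) (hnq : ¬ (g * g = -1 ∧ h * h = -1)) :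
    ∃ g' h' : GL (Fin 2 ⊕ Fin 2) F, g' ∈ R ∧ h' ∈ R ∧ g' * g' = 1 ∧ h' * h' = 1 ∧
      g' * h' = -(h' * g') ∧
      (∀ x : GL (Fin 2 ⊕ Fin 2) F, x * g = g * x → x * h = h * x →
        x * g' = g' * x ∧ x * h' = h' * x) ∧
      (∀ K : Subgroup (GL (Fin 2 ⊕ Fin 2) F), g' ∈ K → h' ∈ K → g ∈ K ∧ h ∈ K) := by
  have hhg : h * g = -(g * h) := by rw [hgh, neg_neg]
  have hsq' : ∀ a b : GL (Fin 2 ⊕ Fin 2) F, (g * g = a) → (h * h = b) →
      (g * h) * (g * h) = -(a * b) := by
    intro a b ha hb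
    calc (g * h) * (g * h) = g * (h * g) * h := by simp only [mul_assoc]
      _ = -(g * g * (h * h)) := by rw [hhg]; simp only [mul_neg, neg_mul, mul_assoc]
      _ = -(a * b) := by rw [ha, hb]
  rcases hsq g hg with hg1 | hg1
  · rcases hsq h hh with hh1 | hh1
    · exact ⟨g, h, hg, hh, hg1, hh1, hgh, fun x h1 h2 => ⟨h1, h2⟩, fun K h1 h2 => ⟨h1, h2⟩⟩
    · refine ⟨g, g * h, hg, R.mul_mem hg hh, hg1, ?_, ?_, ?_, ?_⟩
      · rw [hsq' 1 (-1) hg1 hh1]
        simp
      · have h3 : (g * h) * g = -h := by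
          calc (g * h) * g = g * (h * g) := by rw [mul_assoc]
            _ = -((g * g) * h) := by rw [hhg, mul_neg, mul_assoc]
            _ = -h := by rw [hg1, one_mul]
        calc g * (g * h) = (g * g) * h := by rw [mul_assoc]
          _ = h := by rw [hg1, one_mul]
          _ = -((g * h) * g) := by rw [h3, neg_neg]
      · intro x h1 h2
        refine ⟨h1, ?_⟩
        rw [← mul_assoc, h1, mul_assoc, h2, mul_assoc]
      · intro K h1 h2
        refine ⟨h1, ?_⟩
        have e : h = g⁻¹ * (g * h) := by group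
        rw [e]
        exact K.mul_mem (K.inv_mem h1) h2
  · rcases hsq h hh with hh1 | hh1
    · refine ⟨g * h, h, R.mul_mem hg hh, hh, ?_, hh1, ?_, ?_, ?_⟩
      · rw [hsq' (-1) 1 hg1 hh1]
        simp
      · have h3 : h * (g * h) = -g := by
          calc h * (g * h) = (h * g) * h := by rw [mul_assoc]
            _ = -(g * (h * h)) := by rw [hhg, neg_mul, mul_assoc]
            _ = -g := by rw [hh1, mul_one]
        calc (g * h) * h = g * (h * h) := by rw [mul_assoc]
          _ = g := by rw [hh1, mul_one]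
          _ = -(h * (g * h)) := by rw [h3, neg_neg]
      · intro x h1 h2
        refine ⟨?_, h2⟩
        rw [← mul_assoc, h1, mul_assoc, h2, mul_assoc]
      · intro K h1 h2
        refine ⟨?_, h2⟩
        have e : g = (g * h) * h⁻¹ := by group
        rw [e]
        exact K.mul_mem h1 (K.inv_mem h2)
    · exact absurd ⟨hg1, hh1⟩ hnq

end Cfsg.Agent.Lib.Helper98.SM
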