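import Mathlib
import Cfsg.Agent.Lib.Helper41.CritSub

/-!
# 2-groups of symplectic type and exponent dividing 4 (helper57)

`symp_struct`: in a finite 2-group `P` all of whose characteristic abelian subgroups are cyclic
and with `q ^ 4 = 1` for all `q`, every commutator is `1` or the central involution `z`, and the
only central elements of square `1` are `1` and `z`.

The proof uses Thompson's critical subgroup (`Helper41.exists_critical`) and a counting argument
for the commutator pairing.
-/

set_option autoImplicit false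

namespace Cfsg.Agent.Lib.Helper57.Symp

open scoped commutatorElement

section dual

variable {D : Type*} [Group D]

theorem comm_mul_eq (a b : D) : ⁅a, b⁆ * b = a * b * a⁻¹ := by
  simp [commutatorElement_def]

theorem conj_eq_or {z : D} (hc : ∀ a b : D, ⁅a, b⁆ = 1 ∨ ⁅a, b⁆ = z) (a b : D) :
    a * b * a⁻¹ = b ∨ a * b * a⁻¹ = z * b := by
  rcases hc a b with h | h
  · left; rw [← comm_mul_eq, h, one_mul]
  · right; rw [← comm_mul_eq, h]

theorem conj_eq_iff_comm (a b : D) : a * b * a⁻¹ = b ↔ a * b = b * a := by
  constructor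
  · intro h
    calc a * b = a * b * a⁻¹ * a := by group
      _ = b * a := by rw [h]
  · intro h
    rw [h]; group

theorem conj_mul (x a b : D) : x * (a * b) * x⁻¹ = (x * a * x⁻¹) * (x * b * x⁻¹) := by group

theorem conj_conj (x y a : D) : (x * y) * a * (x * y)⁻¹ = x * (y * a * y⁻¹) * x⁻¹ := by group

/-- In a finite cyclic group there is at most one element of order two. -/
theorem unique_involution {H : Type*} [Group H] [Finite H] [IsCyclic H] (x y : H)
    (hx : orderOf x = 2) (hy : orderOf y = 2) : x = y := by
  classical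
  letI := Fintype.ofFinite H
  have hd : 2 ∣ Fintype.card H := by
    rw [← hx]; exact orderOf_dvd_card
  have h1 := IsCyclic.card_orderOf_eq_totient (α := H) hd
  rw [Nat.totient_two] at h1
  have hxm : x ∈ Finset.univ.filter (fun a : H => orderOf a = 2) := by simp [hx]
  have hym : y ∈ Finset.univ.filter (fun a : H => orderOf a = 2) := by simp [hy]
  exact Finset.card_le_one.mp h1.le x hxm y hym

variable [Finite D]

/-- Centralizing one more element costs at most a factor two. -/
theorem card_le_two_mul {z : D} (hz2 : z * z = 1) (hzc : ∀ d : D, d * z = z * d)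
    (hc : ∀ a b : D, ⁅a, b⁆ = 1 ∨ ⁅a, b⁆ = z) (K : Subgroup D) (h : D) :
    Nat.card K ≤ 2 * Nat.card (K ⊓ Subgroup.centralizer {h} : Subgroup D) := by
  set H' : Subgroup K := (Subgroup.centralizer {h}).subgroupOf K with hH'
  have hmem : ∀ b : K, b ∈ H' ↔ (b : D) * h = h * (b : D) := by
    intro b
    rw [hH', Subgroup.mem_subgroupOf, Subgroup.mem_centralizer_singleton_iff]
  have hidx : H'.index ≤ 2 := by
    by_cases htop : H' = ⊤
    · rw [htop, Subgroup.index_top]; norm_num
    · have hex : ∃ a : K, a ∉ H' := by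
        by_contra hcon
        push Not at hcon
        exact htop (eq_top_iff.mpr fun a _ => hcon a)
      obtain ⟨a, ha⟩ := hex
      have h2 : H'.index = 2 := by
        rw [Subgroup.index_eq_two_iff]
        refine ⟨a, fun b => ?_⟩
        by_cases hb : b ∈ H'
        · refine Or.inr ⟨hb, fun hba => ha ?_⟩
          have := H'.mul_mem (H'.inv_mem hb) hba
          simpa using this
        · refine Or.inl ⟨?_, hb⟩
          have ha' : (a : D) * h * (a : D)⁻¹ = z * h := by
            rcases conj_eq_or hc (a : D) h with h1 | h1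
            · exact absurd ((hmem a).mpr ((conj_eq_iff_comm _ _).mp h1)) ha
            · exact h1
          have hb' : (b : D) * h * (b : D)⁻¹ = z * h := by
            rcases conj_eq_or hc (b : D) h with h1 | h1
            · exact absurd ((hmem b).mpr ((conj_eq_iff_comm _ _).mp h1)) hb
            · exact h1
          rw [hmem]
          apply (conj_eq_iff_comm _ _).mp
          have hba : ((b * a : K) : D) = (b : D) * (a : D) := rfl
          rw [hba]
          calc (b : D) * (a : D) * h * ((b : D) * (a : D))⁻¹
              = (b : D) * ((a : D) * h * (a : D)⁻¹) * (b : D)⁻¹ := by group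
            _ = (b : D) * (z * h) * (b : D)⁻¹ := by rw [ha']
            _ = ((b : D) * z) * h * (b : D)⁻¹ := by group
            _ = z * ((b : D) * h * (b : D)⁻¹) := by rw [hzc]; group
            _ = z * (z * h) := by rw [hb']
            _ = h := by rw [← mul_assoc, hz2, one_mul]
      exact h2.le
  have hcard : Nat.card H' * H'.index = Nat.card K := Subgroup.card_mul_index H'
  have hle : Nat.card H' ≤ Nat.card (K ⊓ Subgroup.centralizer {h} : Subgroup D) := by
    have hmem2 : ∀ x : H', ((x : K) : D) ∈ (K ⊓ Subgroup.centralizer {h} : Subgroup D) := by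
      intro x
      refine Subgroup.mem_inf.mpr ⟨(x : K).2, ?_⟩
      rw [Subgroup.mem_centralizer_singleton_iff]
      exact (hmem x).mp x.2
    apply Nat.card_le_card_of_injective (fun x : H' => (⟨((x : K) : D), hmem2 x⟩ :
      (K ⊓ Subgroup.centralizer {h} : Subgroup D)))
    intro x y hxy
    have := congrArg (fun y : (K ⊓ Subgroup.centralizer {h} : Subgroup D) => (y : D)) hxy
    exact Subtype.ext (Subtype.ext this)
  calc Nat.card K = Nat.card H' * H'.index := hcard.symm
    _ ≤ Nat.card H' * 2 := Nat.mul_le_mul_left _ hidx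
    _ ≤ 2 * Nat.card (K ⊓ Subgroup.centralizer {h} : Subgroup D) := by
        rw [Nat.mul_comm]; exact Nat.mul_le_mul_left _ hle

/-- `|Z(D)| |D| ≤ |K| |C(K)|` for subgroups containing the centre. -/
theorem card_mul_card_centralizer {z : D} (hz2 : z * z = 1) (hzc : ∀ d : D, d * z = z * d)
    (hc : ∀ a b : D, ⁅a, b⁆ = 1 ∨ ⁅a, b⁆ = z) :
    ∀ n : ℕ, ∀ K : Subgroup D, Nat.card K = n → Subgroup.center D ≤ K →
      Nat.card (Subgroup.center D) * Nat.card D ≤
        Nat.card K * Nat.card (Subgroup.centralizer (K : Set D)) := by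
  intro n
  induction n using Nat.strong_induction_on with
  | _ n ih =>
    intro K hKn hZK
    by_cases hK : K = Subgroup.center D
    · rw [hK]
      have : Subgroup.centralizer ((Subgroup.center D : Subgroup D) : Set D) = ⊤ :=
        Subgroup.centralizer_eq_top_iff_subset.mpr (le_refl _)
      rw [this, Subgroup.card_top]
    · have hlt : Subgroup.center D < K := lt_of_le_of_ne hZK (Ne.symm hK)
      obtain ⟨K1, -, hmax⟩ := Finite.exists_le_maximal
        (p := fun K1 : Subgroup D => Subgroup.center D ≤ K1 ∧ K1 < K) (a := Subgroup.center D)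
        ⟨le_refl _, hlt⟩
      obtain ⟨hZK1, hK1K⟩ := hmax.prop
      obtain ⟨h, hhK, hhK1⟩ := SetLike.exists_of_lt hK1K
      have hle : K1 ⊔ Subgroup.zpowers h ≤ K :=
        sup_le hK1K.le ((Subgroup.zpowers_le).mpr hhK)
      have hsup : K1 ⊔ Subgroup.zpowers h = K := by
        by_contra hne
        have hlt' : K1 ⊔ Subgroup.zpowers h < K := lt_of_le_of_ne hle hne
        have := hmax.le_of_ge ⟨le_trans hZK1 le_sup_left, hlt'⟩ le_sup_left
        exact hhK1 (this (Subgroup.mem_sup_right (Subgroup.mem_zpowers h)))
      have hcard : 2 * Nat.card K1 ≤ Nat.card K := by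
        obtain ⟨m, hm⟩ := Subgroup.card_dvd_of_le hK1K.le
        have hK1pos : 0 < Nat.card K1 := Nat.card_pos
        have hm1 : m ≠ 1 := by
          intro h1
          rw [h1, Nat.mul_one] at hm
          exact hK1K.ne (Subgroup.eq_of_le_of_card_ge hK1K.le (le_of_eq hm))
        have hm0 : m ≠ 0 := by
          intro h0
          rw [h0, Nat.mul_zero] at hm
          have : 0 < Nat.card K := Nat.card_pos
          omega
        have : 2 ≤ m := by omega
        rw [hm, Nat.mul_comm]
        exact Nat.mul_le_mul_left _ this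
      have hcent : (Subgroup.centralizer (K1 : Set D) ⊓ Subgroup.centralizer {h} : Subgroup D) ≤
          Subgroup.centralizer (K : Set D) := by
        intro u hu
        obtain ⟨hu1, hu2⟩ := Subgroup.mem_inf.mp hu
        have hK1u : K1 ≤ Subgroup.centralizer {u} := by
          intro k hk
          rw [Subgroup.mem_centralizer_singleton_iff]
          exact (Subgroup.mem_centralizer_iff.mp hu1 k hk)
        have hhu : Subgroup.zpowers h ≤ Subgroup.centralizer {u} := by
          rw [Subgroup.zpowers_le, Subgroup.mem_centralizer_singleton_iff]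
          exact (Subgroup.mem_centralizer_singleton_iff.mp hu2).symm
        have hKu : K ≤ Subgroup.centralizer {u} := by
          rw [← hsup]; exact sup_le hK1u hhu
        rw [Subgroup.mem_centralizer_iff]
        intro k hk
        exact (Subgroup.mem_centralizer_singleton_iff.mp (hKu hk))
      have hlt2 : Nat.card K1 < n := by
        rw [← hKn]
        have hK1pos : 0 < Nat.card K1 := Nat.card_pos
        omega
      have hIH := ih (Nat.card K1) hlt2 K1 rfl hZK1
      have hA := card_le_two_mul hz2 hzc hc (Subgroup.centralizer (K1 : Set D)) h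
      have hB : Nat.card (Subgroup.centralizer (K1 : Set D) ⊓ Subgroup.centralizer {h} :
          Subgroup D) ≤ Nat.card (Subgroup.centralizer (K : Set D)) :=
        Subgroup.card_le_of_le hcent
      calc Nat.card (Subgroup.center D) * Nat.card D
          ≤ Nat.card K1 * Nat.card (Subgroup.centralizer (K1 : Set D)) := hIH
        _ ≤ Nat.card K1 * (2 * Nat.card (Subgroup.centralizer (K : Set D))) :=
            Nat.mul_le_mul_left _ (le_trans hA (Nat.mul_le_mul_left _ hB))
        _ = (2 * Nat.card K1) * Nat.card (Subgroup.centralizer (K : Set D)) := by ring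
        _ ≤ Nat.card K * Nat.card (Subgroup.centralizer (K : Set D)) :=
            Nat.mul_le_mul_right _ hcard

/-- A proper subgroup containing the centre is centralized by a noncentral element. -/
theorem exists_centralizing {z : D} (hz2 : z * z = 1) (hzc : ∀ d : D, d * z = z * d)
    (hc : ∀ a b : D, ⁅a, b⁆ = 1 ∨ ⁅a, b⁆ = z) (H : Subgroup D)
    (hZH : Subgroup.center D ≤ H) (hH : H ≠ ⊤) :
    ∃ u : D, u ∈ Subgroup.centralizer (H : Set D) ∧ u ∉ Subgroup.center D := by
  by_contra hcon
  push Not at hcon
  have h1 := card_mul_card_centralizer hz2 hzc hc (Nat.card H) H rfl hZH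
  have h3 : Nat.card (Subgroup.centralizer (H : Set D)) ≤ Nat.card (Subgroup.center D) :=
    Subgroup.card_le_of_le hcon
  have h4 : Nat.card H < Nat.card D :=
    lt_of_le_of_ne (Subgroup.card_le_card_group H)
      (fun h => hH ((Subgroup.card_eq_iff_eq_top H).mp h))
  have hZpos : 0 < Nat.card (Subgroup.center D) := Nat.card_pos
  have h5 : Nat.card H * Nat.card (Subgroup.centralizer (H : Set D)) ≤
      Nat.card H * Nat.card (Subgroup.center D) := Nat.mul_le_mul_left _ h3
  have h6 : Nat.card H * Nat.card (Subgroup.center D) <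
      Nat.card D * Nat.card (Subgroup.center D) := Nat.mul_lt_mul_of_pos_right h4 hZpos
  have h7 : Nat.card (Subgroup.center D) * Nat.card D =
      Nat.card D * Nat.card (Subgroup.center D) := Nat.mul_comm _ _
  omega

end dual

section struct

variable {P : Type*} [Group P] [Finite P]

/-- **Structure of symplectic-type 2-groups of exponent dividing 4**: all commutators are `1`
or the central involution, and the central elements of square `1` are `1` and `z`. -/
theorem symp_struct (hP : IsPGroup 2 P)
    (hchar : ∀ A : Subgroup P, A.Characteristic → IsMulCommutative A → IsCyclic A)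
    (h4 : ∀ q : P, q ^ 4 = 1) (z : P) (hz : orderOf z = 2) (hzc : z ∈ Subgroup.center P) :
    (∀ a b : P, ⁅a, b⁆ = 1 ∨ ⁅a, b⁆ = z) ∧
      (∀ t ∈ Subgroup.center P, t ^ 2 = 1 → t = 1 ∨ t = z) := by
  have : Fact (Nat.Prime 2) := ⟨Nat.prime_two⟩
  obtain ⟨C, M, hCinv, hMinv, hMC, hCM, hCC, hcomm, hsq, -⟩ :=
    Cfsg.Agent.Lib.Helper41.exists_critical hP (⊤ : Subgroup (MulAut P)) le_top
  have hz2 : z * z = 1 := by rw [← pow_two, ← hz]; exact pow_orderOf_eq_one z
  have hzcomm : ∀ d : P, d * z = z * d := fun d => Subgroup.mem_center_iff.mp hzc d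
  have hzinv : z⁻¹ = z := inv_eq_of_mul_eq_one_left hz2
  have hMchar : M.Characteristic := by
    rw [Subgroup.characteristic_iff_map_le]
    intro ϕ
    rintro _ ⟨x, hx, rfl⟩
    exact hMinv ϕ (Subgroup.mem_top _) x hx
  have hMcomm : IsMulCommutative M := ⟨⟨fun a b => Subtype.ext
    (Subgroup.mem_centralizer_iff.mp (hCM (hMC b.2)) a a.2)⟩⟩
  have hMcyc : IsCyclic M := hchar M hMchar hMcomm
  have hzM : z ∈ M := hCC (by
    rw [Subgroup.mem_centralizer_iff]; intro c _; exact hzcomm c)
  have key1 : ∀ m ∈ M, m ^ 2 = 1 → m = 1 ∨ m = z := by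
    intro m hm hm2
    by_cases h1 : m = 1
    · exact Or.inl h1
    · right
      have ho : orderOf m = 2 := orderOf_eq_prime hm2 h1
      have h5 := unique_involution (H := M) ⟨m, hm⟩ ⟨z, hzM⟩
        (by rw [Subgroup.orderOf_mk]; exact ho) (by rw [Subgroup.orderOf_mk]; exact hz)
      exact congrArg Subtype.val h5
  have key2 : ∀ c ∈ C, c ^ 2 = 1 ∨ c ^ 2 = z := by
    intro c hc
    apply key1 _ (hsq c hc)
    rw [← pow_mul]; exact h4 c
  have hCn : ∀ y : P, ∀ c ∈ C, y * c * y⁻¹ ∈ C := by
    intro y c hc
    have := hCinv (MulAut.conj y) (Subgroup.mem_top _) c hc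
    simpa [MulAut.conj_apply] using this
  have key3 : ∀ c ∈ C, ∀ y : P, ⁅c, y⁆ = 1 ∨ ⁅c, y⁆ = z := by
    intro c hc y
    apply key1 _ (hcomm c hc y)
    have hc'C : y * c * y⁻¹ ∈ C := hCn y c hc
    have hm : ⁅c, y⁆ = c * (y * c * y⁻¹)⁻¹ := by rw [commutatorElement_def]; group
    have hmM : c * (y * c * y⁻¹)⁻¹ ∈ M := hm ▸ hcomm c hc y
    have hmc : Commute (c * (y * c * y⁻¹)⁻¹) (y * c * y⁻¹) :=
      Subgroup.mem_centralizer_iff.mp (hCM hc'C) _ hmM
    have hc'2 : (y * c * y⁻¹) ^ 2 = c ^ 2 := by
      rw [conj_pow]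
      rcases key2 c hc with h | h
      · rw [h]; group
      · rw [h, hzcomm y]; group
    have h1 : c = (c * (y * c * y⁻¹)⁻¹) * (y * c * y⁻¹) := by group
    have h2 : c ^ 2 = (c * (y * c * y⁻¹)⁻¹) ^ 2 * c ^ 2 := by
      calc c ^ 2 = ((c * (y * c * y⁻¹)⁻¹) * (y * c * y⁻¹)) ^ 2 := by rw [← h1]
        _ = (c * (y * c * y⁻¹)⁻¹) ^ 2 * (y * c * y⁻¹) ^ 2 := hmc.mul_pow 2
        _ = (c * (y * c * y⁻¹)⁻¹) ^ 2 * c ^ 2 := by rw [hc'2]
    rw [hm]
    exact mul_right_cancel (h2.symm.trans (one_mul _).symm)
  -- the duality step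
  have key4 : ∀ x : P, (∀ m ∈ M, x * m = m * x) → x ∈ C := by
    intro x hx
    by_contra hxC
    have hzC : z ∈ C := hMC hzM
    have hcD : ∀ a b : C, ⁅a, b⁆ = 1 ∨ ⁅a, b⁆ = (⟨z, hzC⟩ : C) := by
      intro a b
      rcases key3 (a : P) a.2 (b : P) with h | h
      · left; exact Subtype.ext (by simpa [commutatorElement_def] using h)
      · right; exact Subtype.ext (by simpa [commutatorElement_def] using h)
    have hzC2 : (⟨z, hzC⟩ : C) * ⟨z, hzC⟩ = 1 := Subtype.ext hz2
    have hzCc : ∀ d : C, d * (⟨z, hzC⟩ : C) = ⟨z, hzC⟩ * d := fun d => Subtype.ext (hzcomm d)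
    set H : Subgroup C := (Subgroup.centralizer {x}).subgroupOf C with hH
    have hmemH : ∀ c : C, c ∈ H ↔ (c : P) * x = x * (c : P) := by
      intro c
      rw [hH, Subgroup.mem_subgroupOf, Subgroup.mem_centralizer_singleton_iff]
    have hZH : Subgroup.center C ≤ H := by
      intro c hc
      rw [hmemH]
      have hcM : (c : P) ∈ M := hCC (by
        rw [Subgroup.mem_centralizer_iff]
        intro d hd
        exact congrArg Subtype.val (Subgroup.mem_center_iff.mp hc ⟨d, hd⟩))
      exact (hx _ hcM).symm
    have hHtop : H ≠ ⊤ := by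
      intro htop
      apply hxC
      apply hMC
      apply hCC
      rw [Subgroup.mem_centralizer_iff]
      intro c hc
      have : (⟨c, hc⟩ : C) ∈ H := htop ▸ Subgroup.mem_top _
      exact (hmemH _).mp this
    obtain ⟨u, huH, huZ⟩ := exists_centralizing hzC2 hzCc hcD H hZH hHtop
    have huH' : ∀ c : C, c ∈ H → (c : P) * (u : P) = (u : P) * (c : P) := by
      intro c hc
      exact congrArg Subtype.val (Subgroup.mem_centralizer_iff.mp huH c hc)
    -- the two commutator maps agree
    have hagree : ∀ c ∈ C, ⁅c, x⁆ = ⁅c, (u : P)⁆ := by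
      intro c hc
      have h1 : ⁅c, x⁆ = 1 ↔ ⁅c, (u : P)⁆ = 1 := by
        constructor
        · intro h
          rw [commutatorElement_eq_one_iff_mul_comm] at h ⊢
          exact huH' ⟨c, hc⟩ ((hmemH _).mpr h)
        · intro h
          by_contra hcx
          have hcx' : c * x * c⁻¹ = z * x := by
            rcases key3 c hc x with h' | h'
            · exact absurd h' hcx
            · rw [← comm_mul_eq, h']
          have hcu : c * (u : P) = (u : P) * c := commutatorElement_eq_one_iff_mul_comm.mp h
          apply huZ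
          rw [Subgroup.mem_center_iff]
          intro d
          apply Subtype.ext
          show (d : P) * (u : P) = (u : P) * (d : P)
          by_cases hd : d ∈ H
          · exact huH' d hd
          · have hdx : (d : P) * x * (d : P)⁻¹ = z * x := by
              rcases key3 (d : P) d.2 x with h' | h'
              · exact absurd ((hmemH d).mpr (commutatorElement_eq_one_iff_mul_comm.mp h')) hd
              · rw [← comm_mul_eq, h']
            have hcd : (⟨c, hc⟩⁻¹ * d : C) ∈ H := by
              rw [hmemH]
              apply (conj_eq_iff_comm _ _).mp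
              show (c⁻¹ * (d : P)) * x * (c⁻¹ * (d : P))⁻¹ = x
              calc (c⁻¹ * (d : P)) * x * (c⁻¹ * (d : P))⁻¹
                  = c⁻¹ * ((d : P) * x * (d : P)⁻¹) * c := by group
                _ = c⁻¹ * (z * x) * c := by rw [hdx]
                _ = c⁻¹ * (c * x * c⁻¹) * c := by rw [hcx']
                _ = x := by group
            have h3 := huH' _ hcd
            have h4 : (c⁻¹ * (d : P)) * (u : P) = (u : P) * (c⁻¹ * (d : P)) := h3
            calc (d : P) * (u : P) = c * ((c⁻¹ * (d : P)) * (u : P)) := by group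
              _ = c * ((u : P) * (c⁻¹ * (d : P))) := by rw [h4]
              _ = (c * (u : P)) * c⁻¹ * (d : P) := by group
              _ = ((u : P) * c) * c⁻¹ * (d : P) := by rw [hcu]
              _ = (u : P) * (d : P) := by group
      rcases key3 c hc x with h | h
      · rw [h, h1.mp h]
      · rcases key3 c hc (u : P) with h' | h'
        · exact (h1.mpr h').trans h'.symm
        · rw [h, h']
    have hux : (u : P)⁻¹ * x ∈ M := by
      apply hCC
      rw [Subgroup.mem_centralizer_iff]
      intro c hc
      have h1 := hagree c⁻¹ (C.inv_mem hc)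
      rw [commutatorElement_def, commutatorElement_def] at h1
      simp only [inv_inv] at h1
      -- h1 : c⁻¹ * x * c * x⁻¹ = c⁻¹ * u * c * u⁻¹
      have h2 : x * c * x⁻¹ = (u : P) * c * (u : P)⁻¹ := by
        have := congrArg (fun t => c * t) h1
        simpa [mul_assoc] using this
      calc c * ((u : P)⁻¹ * x) = (u : P)⁻¹ * ((u : P) * c * (u : P)⁻¹) * x := by group
        _ = (u : P)⁻¹ * (x * c * x⁻¹) * x := by rw [h2]
        _ = (u : P)⁻¹ * x * c := by group
    apply hxC
    have : x = (u : P) * ((u : P)⁻¹ * x) := by group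
    rw [this]
    exact C.mul_mem u.2 (hMC hux)
  refine ⟨?_, ?_⟩
  · intro a b
    by_cases ha : a ∈ C
    · exact key3 a ha b
    by_cases hb : b ∈ C
    · rcases key3 b hb a with h | h
      · left; rw [← commutatorElement_inv, h, inv_one]
      · right; rw [← commutatorElement_inv, h, hzinv]
    -- neither in C
    obtain ⟨g, hg⟩ := IsCyclic.exists_generator (α := M)
    have hall : ∀ y : P, y * (g : P) = (g : P) * y → ∀ m ∈ M, y * m = m * y := by
      intro y hy m hm
      obtain ⟨k, hk⟩ := Subgroup.mem_zpowers_iff.mp (hg ⟨m, hm⟩)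
      have hk' : (g : P) ^ k = m := by
        have := congrArg Subtype.val hk
        simpa using this
      rw [← hk']
      exact ((show Commute y (g : P) from hy).zpow_right k)
    have hga : ⁅(g : P), a⁆ = z := by
      rcases key3 (g : P) (hMC g.2) a with h | h
      · exfalso
        apply ha
        apply key4
        apply hall
        exact (commutatorElement_eq_one_iff_mul_comm.mp h).symm
      · exact h
    have hgb : ⁅(g : P), b⁆ = z := by
      rcases key3 (g : P) (hMC g.2) b with h | h
      · exfalso
        apply hb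
        apply key4
        apply hall
        exact (commutatorElement_eq_one_iff_mul_comm.mp h).symm
      · exact h
    have hga' : (g : P) * a * (g : P)⁻¹ = z * a := by rw [← comm_mul_eq, hga]
    have hgb' : (g : P) * b * (g : P)⁻¹ = z * b := by rw [← comm_mul_eq, hgb]
    have hcC : a⁻¹ * b ∈ C := by
      apply key4
      apply hall
      have h1 : (g : P) * (a⁻¹ * b) * (g : P)⁻¹ = a⁻¹ * b := by
        calc (g : P) * (a⁻¹ * b) * (g : P)⁻¹
            = ((g : P) * a * (g : P)⁻¹)⁻¹ * ((g : P) * b * (g : P)⁻¹) := by group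
          _ = (z * a)⁻¹ * (z * b) := by rw [hga', hgb']
          _ = a⁻¹ * b := by group
      exact ((conj_eq_iff_comm _ _).mp h1).symm
    have hab : ⁅a, b⁆ = a * ⁅a, a⁻¹ * b⁆ * a⁻¹ := by
      simp only [commutatorElement_def]; group
    rcases key3 (a⁻¹ * b) hcC a with h | h
    · left
      rw [hab, ← commutatorElement_inv, h]; group
    · right
      rw [hab, ← commutatorElement_inv, h, hzinv, hzcomm a]; group
  · intro t ht ht2
    apply key1 t _ ht2
    apply hCC
    rw [Subgroup.mem_centralizer_iff]
    intro c _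
    exact Subgroup.mem_center_iff.mp ht c

end struct

end Cfsg.Agent.Lib.Helper57.Symp
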