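import Mathlib
import Cfsg.Agent.Lib.Helper57.Symp
import Cfsg.Agent.Lib.Helper57.GlBasic

/-!
# Conjugates of the central involution inside a symplectic-type `O_2(C(z))` (helper57)

`main_abs`: let `Q ⊴ C_G(z)` be a 2-group containing its centralizer in `C_G(z)`, all of whose
commutators are `1` or `z` and whose central elements of square `1` are `1` and `z`.  If a
conjugate `z1 = g z g⁻¹ ≠ z` lies in `Q`, then `z ∈ g Q g⁻¹` and `⟨Q, g Q g⁻¹⟩` induces the full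
symmetric group on the non-identity elements of `⟨z, z1⟩`.
-/

set_option autoImplicit false

namespace Cfsg.Agent.Lib.Helper57.Symp

open Cfsg Cfsg.Agent.Lib
open Cfsg.Agent.Lib.Helper42 (IsSylIn)
open scoped commutatorElement

section main

variable {G : Type*} [Group G] [Finite G]

/-- Normalizers grow in finite 2-groups. -/
theorem exists_norm_not_mem {T S : Subgroup G} (hS : IsPGroup 2 S) (hTS : T ≤ S) (hne : T ≠ S) :
    ∃ s ∈ S, s ∉ T ∧ s ∈ Subgroup.normalizer (T : Set G) := by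
  have : Fact (Nat.Prime 2) := ⟨Nat.prime_two⟩
  haveI : Group.IsNilpotent ↥S := hS.isNilpotent
  have hlt : T.subgroupOf S < ⊤ := by
    rw [lt_top_iff_ne_top, Ne, Subgroup.subgroupOf_eq_top]
    intro h; exact hne (le_antisymm hTS h)
  have hnc := (Group.normalizerCondition_of_isNilpotent (G := ↥S)) (T.subgroupOf S) hlt
  obtain ⟨u', hu'N, hu'D⟩ := SetLike.exists_of_lt hnc
  refine ⟨(u' : G), u'.2, fun h => hu'D (Subgroup.mem_subgroupOf.mpr h), ?_⟩
  rw [Subgroup.mem_normalizer_iff] at hu'N ⊢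
  intro x
  constructor
  · intro hx
    have h1 := (hu'N ⟨x, hTS hx⟩).mp (Subgroup.mem_subgroupOf.mpr hx)
    exact Subgroup.mem_subgroupOf.mp h1
  · intro hx
    have hxP : x ∈ S := by
      have h1 : (u' : G)⁻¹ * ((u' : G) * x * (u' : G)⁻¹) * (u' : G) ∈ S :=
        S.mul_mem (S.mul_mem (S.inv_mem u'.2) (hTS hx)) u'.2
      have h2 : (u' : G)⁻¹ * ((u' : G) * x * (u' : G)⁻¹) * (u' : G) = x := by group
      rwa [h2] at h1
    have h1 := (hu'N ⟨x, hxP⟩).mpr (Subgroup.mem_subgroupOf.mpr hx)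
    exact Subgroup.mem_subgroupOf.mp h1

theorem conj_sq_one {x y : G} (hy : y * y = 1) : (x * y * x⁻¹) * (x * y * x⁻¹) = 1 := by
  calc (x * y * x⁻¹) * (x * y * x⁻¹) = x * (y * y) * x⁻¹ := by group
    _ = 1 := by rw [hy]; group

theorem conj_ne_one {x y : G} (hy : y ≠ 1) : x * y * x⁻¹ ≠ 1 := by
  intro h
  apply hy
  have h2 : y = x⁻¹ * (x * y * x⁻¹) * x := by group
  rw [h2, h]; group

theorem inv_conj_of_comm {x y : G} (h : x * y = y * x) : x⁻¹ * y * x = y := by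
  rw [mul_assoc, ← h]; group

theorem main_abs (z : G) (hz : orderOf z = 2) (Q : Subgroup G)
    (hQC : Q ≤ Subgroup.centralizer ({z} : Set G))
    (hQn : ∀ c ∈ Subgroup.centralizer ({z} : Set G), ∀ q ∈ Q, c * q * c⁻¹ ∈ Q)
    (hzQ : z ∈ Q)
    (hself : ∀ c ∈ Subgroup.centralizer ({z} : Set G), (∀ q ∈ Q, c * q = q * c) → c ∈ Q)
    (hQ2 : IsPGroup 2 Q)
    (hcomm : ∀ a ∈ Q, ∀ b ∈ Q, ⁅a, b⁆ = 1 ∨ ⁅a, b⁆ = z)
    (hcen : ∀ t ∈ Q, (∀ q ∈ Q, t * q = q * t) → t * t = 1 → t = 1 ∨ t = z)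
    (g : G) (hne : g * z * g⁻¹ ≠ z) (hin : g * z * g⁻¹ ∈ Q) :
    z ∈ Q.map (MulAut.conj g).toMonoidHom ∧
      ∀ u ∈ Subgroup.closure ({z, g * z * g⁻¹} : Set G),
        ∀ v ∈ Subgroup.closure ({z, g * z * g⁻¹} : Set G),
        u ≠ 1 → v ≠ 1 → u ≠ v →
          ∃ x ∈ Q ⊔ Q.map (MulAut.conj g).toMonoidHom,
            x * z * x⁻¹ = u ∧ x * (g * z * g⁻¹) * x⁻¹ = v := by
  have : Fact (Nat.Prime 2) := ⟨Nat.prime_two⟩
  have hCz : ∀ c : G, c ∈ Subgroup.centralizer ({z} : Set G) ↔ c * z = z * c :=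
    fun c => Subgroup.mem_centralizer_singleton_iff
  have hzz : z * z = 1 := by rw [← pow_two, ← hz]; exact pow_orderOf_eq_one z
  have hz_ne : z ≠ 1 := by
    intro h; rw [h, orderOf_one] at hz; norm_num at hz
  have hzinv : z⁻¹ = z := inv_eq_of_mul_eq_one_left hzz
  obtain ⟨z1, hz1def⟩ : ∃ z1, z1 = g * z * g⁻¹ := ⟨_, rfl⟩
  rw [← hz1def] at hne hin ⊢
  have hz1z1 : z1 * z1 = 1 := by rw [hz1def]; exact conj_sq_one hzz
  have hz1_ne : z1 ≠ 1 := by rw [hz1def]; exact conj_ne_one hz_ne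
  have hz1inv : z1⁻¹ = z1 := inv_eq_of_mul_eq_one_left hz1z1
  have hz1z : z1 * z = z * z1 := (hCz z1).mp (hQC hin)
  have hginv : g⁻¹ * z1 * g = z := by rw [hz1def]; group
  have hmemQ1 : ∀ x : G, x ∈ Q.map (MulAut.conj g).toMonoidHom ↔ g⁻¹ * x * g ∈ Q := by
    intro x
    constructor
    · rintro ⟨y, hy, rfl⟩
      have : g⁻¹ * ((MulAut.conj g).toMonoidHom y) * g = y := by
        simp [MulAut.conj_apply, mul_assoc]
      rw [this]; exact hy
    · intro h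
      refine ⟨g⁻¹ * x * g, h, ?_⟩
      simp [MulAut.conj_apply, mul_assoc]
  -- the four-group relations
  have e1 : z * (z * z1) = z1 := by rw [← mul_assoc, hzz, one_mul]
  have e2 : z1 * (z * z1) = z := by rw [← mul_assoc, hz1z, mul_assoc, hz1z1, mul_one]
  have e4 : z * z1 * z1 = z := by rw [mul_assoc, hz1z1, mul_one]
  -- (N): noncentral involutions of Q are moved by z
  have hN : ∀ t ∈ Q, t * t = 1 → t ≠ 1 → t ≠ z → ∃ q ∈ Q, q * t * q⁻¹ = z * t := by
    intro t ht ht2 ht1 htz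
    have hex : ∃ q ∈ Q, t * q ≠ q * t := by
      by_contra hcon
      push Not at hcon
      rcases hcen t ht hcon ht2 with h | h
      · exact ht1 h
      · exact htz h
    obtain ⟨q, hq, hqt⟩ := hex
    refine ⟨q, hq, ?_⟩
    rcases hcomm q hq t ht with h | h
    · exact absurd (commutatorElement_eq_one_iff_mul_comm.mp h).symm hqt
    · rw [← comm_mul_eq, h]
  obtain ⟨q0, hq0Q, hq0⟩ := hN z1 hin hz1z1 hz1_ne hne
  have hq0z : q0 * z = z * q0 := (hCz q0).mp (hQC hq0Q)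
  have hq0z' : q0 * z * q0⁻¹ = z := (conj_eq_iff_comm _ _).mpr hq0z
  have hq0zz1 : q0 * (z * z1) * q0⁻¹ = z1 := by rw [conj_mul, hq0z', hq0, e1]
  have hq0i : q0⁻¹ * (z * z1) * q0 = z1 := by
    have h1 : q0⁻¹ * (q0 * z1 * q0⁻¹) * q0 = z1 := by group
    rw [hq0] at h1; exact h1
  have hq0i' : q0⁻¹ * z1 * q0 = z * z1 := by
    have h1 : q0⁻¹ * (q0 * (z * z1) * q0⁻¹) * q0 = z * z1 := by group
    rw [hq0zz1] at h1; exact h1
  -- P = C_Q(z1)
  obtain ⟨P, hPdef⟩ : ∃ P : Subgroup G, P = Q ⊓ Subgroup.centralizer ({z1} : Set G) := ⟨_, rfl⟩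
  have hPmem : ∀ q : G, q ∈ P ↔ q ∈ Q ∧ q * z1 = z1 * q := by
    intro q
    rw [hPdef, Subgroup.mem_inf, Subgroup.mem_centralizer_singleton_iff]
  have hz1P : z1 ∈ P := (hPmem z1).mpr ⟨hin, rfl⟩
  have hPQ : P ≤ Q := fun q hq => ((hPmem q).mp hq).1
  have hf2 : ∀ q ∈ Q, q ∈ P ∨ q0⁻¹ * q ∈ P := by
    intro q hq
    rcases hcomm q hq z1 hin with h | h
    · left
      exact (hPmem q).mpr ⟨hq, commutatorElement_eq_one_iff_mul_comm.mp h⟩
    · right
      have hq' : q * z1 * q⁻¹ = z * z1 := by rw [← comm_mul_eq, h]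
      refine (hPmem _).mpr ⟨Q.mul_mem (Q.inv_mem hq0Q) hq, ?_⟩
      apply (conj_eq_iff_comm _ _).mp
      calc q0⁻¹ * q * z1 * (q0⁻¹ * q)⁻¹ = q0⁻¹ * (q * z1 * q⁻¹) * q0 := by group
        _ = z1 := by rw [hq', hq0i]
  have hf3 : ∀ p ∈ P, q0 * p * q0⁻¹ ∈ P := by
    intro p hp
    obtain ⟨hpQ, hpz1⟩ := (hPmem p).mp hp
    have hpz : p * z = z * p := (hCz p).mp (hQC hpQ)
    refine (hPmem _).mpr ⟨Q.mul_mem (Q.mul_mem hq0Q hpQ) (Q.inv_mem hq0Q), ?_⟩
    apply (conj_eq_iff_comm _ _).mp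
    have h1 : p * (z * z1) * p⁻¹ = z * z1 := by
      rw [conj_mul, (conj_eq_iff_comm _ _).mpr hpz, (conj_eq_iff_comm _ _).mpr hpz1]
    calc q0 * p * q0⁻¹ * z1 * (q0 * p * q0⁻¹)⁻¹
        = q0 * (p * (q0⁻¹ * z1 * q0) * p⁻¹) * q0⁻¹ := by group
      _ = z1 := by rw [hq0i', h1, hq0zz1]
  have hf4 : q0 * q0 ∈ P := by
    refine (hPmem _).mpr ⟨Q.mul_mem hq0Q hq0Q, ?_⟩
    apply (conj_eq_iff_comm _ _).mp
    calc q0 * q0 * z1 * (q0 * q0)⁻¹ = q0 * (q0 * z1 * q0⁻¹) * q0⁻¹ := by group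
      _ = z1 := by rw [hq0, hq0zz1]
  -- Sylow subgroups
  obtain ⟨A, hAdef⟩ : ∃ A : Subgroup G, A = Subgroup.centralizer ({z} : Set G) ⊓
      Subgroup.centralizer ({z1} : Set G) := ⟨_, rfl⟩
  have hAmem : ∀ x : G, x ∈ A ↔ x * z = z * x ∧ x * z1 = z1 * x := by
    intro x
    rw [hAdef, Subgroup.mem_inf, Subgroup.mem_centralizer_singleton_iff,
      Subgroup.mem_centralizer_singleton_iff]
  have hAz1 : A ≤ Subgroup.centralizer ({z1} : Set G) := by rw [hAdef]; exact inf_le_right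
  obtain ⟨T, hT⟩ := Helper42.exists_isSylIn 2 A
  obtain ⟨S1, hS1, hTS1⟩ := Gl.exists_isSylIn_ge hT.2.1 (hT.1.trans hAz1)
  have hPA : P ≤ A := by
    intro p hp
    obtain ⟨hpQ, hpz1⟩ := (hPmem p).mp hp
    exact (hAmem p).mpr ⟨(hCz p).mp (hQC hpQ), hpz1⟩
  have hAnP : A ≤ Subgroup.normalizer (P : Set G) := by
    apply Gl.le_norm
    intro a ha x hx
    obtain ⟨haz, haz1⟩ := (hAmem a).mp ha
    obtain ⟨hxQ, hxz1⟩ := (hPmem x).mp hx
    refine (hPmem _).mpr ⟨hQn a ((hCz a).mpr haz) x hxQ, ?_⟩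
    apply (conj_eq_iff_comm _ _).mp
    calc a * x * a⁻¹ * z1 * (a * x * a⁻¹)⁻¹ = a * (x * (a⁻¹ * z1 * a) * x⁻¹) * a⁻¹ := by group
      _ = z1 := by
          rw [inv_conj_of_comm haz1, (conj_eq_iff_comm _ _).mpr hxz1,
            (conj_eq_iff_comm _ _).mpr haz1]
  have hPT : P ≤ T := hT.normal_le hPA (hQ2.to_le hPQ) hAnP
  have hzP : z ∈ P := (hPmem z).mpr ⟨hzQ, hz1z.symm⟩
  have hzT : z ∈ T := hPT hzP
  -- T is not a Sylow subgroup of C(z1)
  have hTne : T ≠ S1 := by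
    intro hTS
    have hS1A : S1 ≤ A := hTS ▸ hT.1
    have hQ1C : Q.map (MulAut.conj g).toMonoidHom ≤ Subgroup.centralizer ({z1} : Set G) := by
      intro x hx
      rw [hmemQ1] at hx
      rw [Subgroup.mem_centralizer_singleton_iff]
      have h1 := (hCz _).mp (hQC hx)
      calc x * z1 = g * ((g⁻¹ * x * g) * z) * g⁻¹ := by rw [hz1def]; group
        _ = g * (z * (g⁻¹ * x * g)) * g⁻¹ := by rw [h1]
        _ = z1 * x := by rw [hz1def]; group
    have hQ1n : Subgroup.centralizer ({z1} : Set G) ≤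
        Subgroup.normalizer ((Q.map (MulAut.conj g).toMonoidHom : Subgroup G) : Set G) := by
      apply Gl.le_norm
      intro c hc x hx
      rw [hmemQ1] at hx ⊢
      have hc' : g⁻¹ * c * g ∈ Subgroup.centralizer ({z} : Set G) := by
        rw [hCz]
        have h1 := Subgroup.mem_centralizer_singleton_iff.mp hc
        calc g⁻¹ * c * g * z = g⁻¹ * (c * z1) * g := by rw [hz1def]; group
          _ = g⁻¹ * (z1 * c) * g := by rw [h1]
          _ = z * (g⁻¹ * c * g) := by rw [hz1def]; group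
      have h3 := hQn _ hc' _ hx
      have h2 : g⁻¹ * (c * x * c⁻¹) * g = (g⁻¹ * c * g) * (g⁻¹ * x * g) * (g⁻¹ * c * g)⁻¹ := by
        group
      rw [h2]; exact h3
    have hQ1S1 : Q.map (MulAut.conj g).toMonoidHom ≤ S1 :=
      hS1.normal_le hQ1C (hQ2.map _) hQ1n
    have htC : g⁻¹ * z * g ∈ Subgroup.centralizer ({z} : Set G) := by
      rw [hCz]
      calc g⁻¹ * z * g * z = g⁻¹ * (z * z1) * g := by rw [hz1def]; group
        _ = g⁻¹ * (z1 * z) * g := by rw [hz1z]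
        _ = z * (g⁻¹ * z * g) := by rw [hz1def]; group
    have htc : ∀ q ∈ Q, g⁻¹ * z * g * q = q * (g⁻¹ * z * g) := by
      intro q hq
      have hx : g * q * g⁻¹ ∈ Q.map (MulAut.conj g).toMonoidHom := by
        rw [hmemQ1]
        have h5 : g⁻¹ * (g * q * g⁻¹) * g = q := by group
        rw [h5]; exact hq
      have h1 := ((hAmem _).mp (hS1A (hQ1S1 hx))).1
      calc g⁻¹ * z * g * q = g⁻¹ * (z * (g * q * g⁻¹)) * g := by group
        _ = g⁻¹ * ((g * q * g⁻¹) * z) * g := by rw [h1]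
        _ = q * (g⁻¹ * z * g) := by group
    have ht : g⁻¹ * z * g ∈ Q := hself _ htC htc
    have ht2 : (g⁻¹ * z * g) * (g⁻¹ * z * g) = 1 := by
      have := conj_sq_one (x := g⁻¹) hzz
      rwa [inv_inv] at this
    have hzg : z = g * (g⁻¹ * z * g) * g⁻¹ := by group
    rcases hcen _ ht htc ht2 with h | h
    · apply hz_ne
      rw [hzg, h]; group
    · apply hne
      rw [h] at hzg
      rw [hz1def]; exact hzg.symm
  obtain ⟨s1, hs1S, hs1T, hs1N⟩ := exists_norm_not_mem hS1.2.1 hTS1 hTne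
  have hs1z1 : s1 * z1 = z1 * s1 := Subgroup.mem_centralizer_singleton_iff.mp (hS1.1 hs1S)
  have hs1z1' : s1 * z1 * s1⁻¹ = z1 := (conj_eq_iff_comm _ _).mpr hs1z1
  have hs1z : s1 * z ≠ z * s1 := by
    intro h
    apply hs1T
    have hsA : s1 ∈ A := (hAmem _).mpr ⟨h, hs1z1⟩
    have h2 : IsPGroup 2 (Subgroup.zpowers s1) :=
      Gl.isPGroup_zpowers (Gl.two_elt_of_mem hS1.2.1 hs1S)
    have h3 : IsPGroup 2 (Subgroup.zpowers s1 ⊔ T : Subgroup G) :=
      IsPGroup.to_sup_of_normal_right' h2 hT.2.1 (by rw [Subgroup.zpowers_le]; exact hs1N)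
    have h4 : T = Subgroup.zpowers s1 ⊔ T :=
      hT.eq_of_le (sup_le (by rw [Subgroup.zpowers_le]; exact hsA) hT.1) h3 le_sup_right
    rw [h4]
    exact Subgroup.mem_sup_left (Subgroup.mem_zpowers s1)
  -- the element y = s1 z s1⁻¹
  obtain ⟨y, hy⟩ : ∃ y, y = s1 * z * s1⁻¹ := ⟨_, rfl⟩
  have hy_ne_z : y ≠ z := by
    intro h
    rw [hy] at h
    exact hs1z ((conj_eq_iff_comm _ _).mp h)
  have hyy : y * y = 1 := by rw [hy]; exact conj_sq_one hzz
  have hy_ne1 : y ≠ 1 := by rw [hy]; exact conj_ne_one hz_ne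
  have hyinv : y⁻¹ = y := inv_eq_of_mul_eq_one_left hyy
  have hyT : y ∈ T := by rw [hy]; exact Gl.nconj hs1N hzT
  have hy_ne_z1 : y ≠ z1 := by
    intro h
    apply hne
    have h2 : s1 * z * s1⁻¹ = s1 * z1 * s1⁻¹ := by rw [hs1z1', ← hy]; exact h
    exact (mul_left_cancel (mul_right_cancel h2)).symm
  have hyT_comm : ∀ t ∈ T, y * t = t * y := by
    intro t ht
    have ht' : s1⁻¹ * t * s1 ∈ T := Gl.nconj' hs1N ht
    have h1 := ((hAmem _).mp (hT.1 ht')).1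
    rw [hy]
    calc s1 * z * s1⁻¹ * t = s1 * (z * (s1⁻¹ * t * s1)) * s1⁻¹ := by group
      _ = s1 * ((s1⁻¹ * t * s1) * z) * s1⁻¹ := by rw [h1]
      _ = t * (s1 * z * s1⁻¹) := by group
  have hyz : y * z = z * y := ((hAmem y).mp (hT.1 hyT)).1
  have hyz1 : y * z1 = z1 * y := ((hAmem y).mp (hT.1 hyT)).2
  have hyC : y ∈ Subgroup.centralizer ({z} : Set G) := (hCz y).mpr hyz
  have hyP : ∀ p ∈ P, y * p = p * y := fun p hp => hyT_comm p (hPT hp)
  -- y lies in Q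
  obtain ⟨a, ha⟩ : ∃ a, a = q0⁻¹ * (y * q0 * y⁻¹) := ⟨_, rfl⟩
  have haQ : a ∈ Q := by
    rw [ha]; exact Q.mul_mem (Q.inv_mem hq0Q) (hQn y hyC q0 hq0Q)
  have hyq0 : y * q0 * y⁻¹ = q0 * a := by rw [ha]; group
  have ha1 : ∀ p ∈ P, a * p = p * a := by
    intro p hp
    have hp' := hf3 p hp
    have h1 : y⁻¹ * p * y = p := inv_conj_of_comm (hyP p hp)
    have h2 := hyP _ hp'
    rw [ha]
    calc q0⁻¹ * (y * q0 * y⁻¹) * p = q0⁻¹ * y * q0 * (y⁻¹ * p * y) * y⁻¹ := by group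
      _ = q0⁻¹ * (y * (q0 * p * q0⁻¹)) * q0 * y⁻¹ := by rw [h1]; group
      _ = q0⁻¹ * ((q0 * p * q0⁻¹) * y) * q0 * y⁻¹ := by rw [h2]
      _ = p * (q0⁻¹ * (y * q0 * y⁻¹)) := by group
  have haP : a ∈ P := (hPmem a).mpr ⟨haQ, ha1 z1 hz1P⟩
  have hya : y * a * y⁻¹ = a := (conj_eq_iff_comm _ _).mpr (hyP a haP)
  have haa : a * a = 1 := by
    have h3 : y * (y * q0 * y⁻¹) * y⁻¹ = q0 := by
      calc y * (y * q0 * y⁻¹) * y⁻¹ = (y * y) * q0 * (y * y)⁻¹ := by group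
        _ = q0 := by rw [hyy]; group
    rw [hyq0, conj_mul, hyq0, hya] at h3
    -- h3 : q0 * a * a = q0
    have h4 : q0 * (a * a) = q0 * 1 := by rw [← mul_assoc, h3, mul_one]
    exact mul_left_cancel h4
  have hainv : a⁻¹ = a := inv_eq_of_mul_eq_one_left haa
  have haq0 : a * q0 = q0 * a := by
    have h5 : y * (q0 * q0) * y⁻¹ = q0 * q0 := (conj_eq_iff_comm _ _).mpr (hyP _ hf4)
    rw [conj_mul, hyq0] at h5
    -- h5 : q0 * a * (q0 * a) = q0 * q0
    have h6 : q0 * (a * q0 * a) = q0 * q0 := by rw [← h5]; group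
    have h7 : a * q0 * a = q0 := mul_left_cancel h6
    calc a * q0 = a * q0 * (a * a) := by rw [haa, mul_one]
      _ = (a * q0 * a) * a := by group
      _ = q0 * a := by rw [h7]
  have hcentral : ∀ w : G, (∀ p ∈ P, w * p = p * w) → w * q0 = q0 * w →
      ∀ q ∈ Q, w * q = q * w := by
    intro w hwP hwq0 q hq
    rcases hf2 q hq with h | h
    · exact hwP q h
    · have h1 := hwP _ h
      calc w * q = w * q0 * (q0⁻¹ * q) := by group
        _ = q0 * (w * (q0⁻¹ * q)) := by rw [hwq0]; group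
        _ = q0 * ((q0⁻¹ * q) * w) := by rw [h1]
        _ = q * w := by group
  have hyQ : y ∈ Q := by
    rcases hcen a haQ (hcentral a ha1 haq0) haa with h | h
    · apply hself y hyC
      apply hcentral y hyP
      rw [h, mul_one] at hyq0
      exact (conj_eq_iff_comm _ _).mp hyq0
    · have hw : y * z1 ∈ Q := by
        apply hself
        · exact Subgroup.mul_mem _ hyC (hQC hin)
        · apply hcentral
          · intro p hp
            have h1 := hyP p hp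
            have h2 : z1 * p = p * z1 := (((hPmem p).mp hp).2).symm
            calc y * z1 * p = y * (z1 * p) := by group
              _ = y * (p * z1) := by rw [h2]
              _ = (y * p) * z1 := by group
              _ = p * (y * z1) := by rw [h1]; group
          · apply (conj_eq_iff_comm _ _).mp
            have h1 : z1 * q0 * z1⁻¹ = q0 * z := by
              calc z1 * q0 * z1⁻¹ = q0 * (q0⁻¹ * z1 * q0) * z1⁻¹ := by group
                _ = q0 * (z * z1) * z1⁻¹ := by rw [hq0i']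
                _ = q0 * z := by group
            calc y * z1 * q0 * (y * z1)⁻¹ = y * (z1 * q0 * z1⁻¹) * y⁻¹ := by group
              _ = y * (q0 * z) * y⁻¹ := by rw [h1]
              _ = (y * q0 * y⁻¹) * (y * z * y⁻¹) := by group
              _ = q0 * a * z := by rw [hyq0, (conj_eq_iff_comm _ _).mpr hyz]
              _ = q0 := by rw [h, mul_assoc, hzz, mul_one]
      have h3 : y = y * z1 * z1⁻¹ := by group
      rw [h3]
      exact Q.mul_mem hw (Q.inv_mem hin)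
  -- y = z * z1
  have hy_eq : y = z * z1 := by
    rcases hcomm q0 hq0Q y hyQ with h | h
    · exfalso
      have h1 : y * q0 = q0 * y := (commutatorElement_eq_one_iff_mul_comm.mp h).symm
      rcases hcen y hyQ (hcentral y hyP h1) hyy with h2 | h2
      · exact hy_ne1 h2
      · exact hy_ne_z h2
    · have hq0y : q0 * y * q0⁻¹ = z * y := by rw [← comm_mul_eq, h]
      have hwc : ∀ q ∈ Q, y * z1 * q = q * (y * z1) := by
        apply hcentral
        · intro p hp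
          have h1 := hyP p hp
          have h2 : z1 * p = p * z1 := (((hPmem p).mp hp).2).symm
          calc y * z1 * p = y * (z1 * p) := by group
            _ = y * (p * z1) := by rw [h2]
            _ = (y * p) * z1 := by group
            _ = p * (y * z1) := by rw [h1]; group
        · have h5 : q0 * (y * z1) * q0⁻¹ = y * z1 := by
            rw [conj_mul, hq0y, hq0]
            calc z * y * (z * z1) = (z * y) * z * z1 := by group
              _ = (y * z) * z * z1 := by rw [hyz]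
              _ = y * (z * z) * z1 := by group
              _ = y * z1 := by rw [hzz, mul_one]
          exact ((conj_eq_iff_comm _ _).mp h5).symm
      have hw2 : (y * z1) * (y * z1) = 1 := by
        calc (y * z1) * (y * z1) = y * (z1 * y) * z1 := by group
          _ = y * (y * z1) * z1 := by rw [hyz1]
          _ = (y * y) * (z1 * z1) := by group
          _ = 1 := by rw [hyy, hz1z1, mul_one]
      rcases hcen _ (Q.mul_mem hyQ hin) hwc hw2 with h2 | h2
      · exfalso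
        apply hy_ne_z1
        have h3 : y = y * z1 * z1 := by rw [mul_assoc, hz1z1, mul_one]
        rw [h3, h2, one_mul]
      · have h3 : y = y * z1 * z1 := by rw [mul_assoc, hz1z1, mul_one]
        rw [h3, h2]
  have hs1z' : s1 * z * s1⁻¹ = z * z1 := by rw [← hy]; exact hy_eq
  -- the 3-cycle
  have hρz : (q0 * s1) * z * (q0 * s1)⁻¹ = z1 := by rw [conj_conj, hs1z', hq0zz1]
  have hρz1 : (q0 * s1) * z1 * (q0 * s1)⁻¹ = z * z1 := by rw [conj_conj, hs1z1', hq0]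
  have hcC : g⁻¹ * (q0 * s1) ∈ Subgroup.centralizer ({z} : Set G) := by
    rw [hCz]
    apply (conj_eq_iff_comm _ _).mp
    calc g⁻¹ * (q0 * s1) * z * (g⁻¹ * (q0 * s1))⁻¹
        = g⁻¹ * ((q0 * s1) * z * (q0 * s1)⁻¹) * g := by group
      _ = z := by rw [hρz, hginv]
  have hzz1Q1 : z * z1 ∈ Q.map (MulAut.conj g).toMonoidHom := by
    rw [hmemQ1]
    have h1 := hQn _ hcC z1 hin
    have h2 : g⁻¹ * (q0 * s1) * z1 * (g⁻¹ * (q0 * s1))⁻¹ =
        g⁻¹ * ((q0 * s1) * z1 * (q0 * s1)⁻¹) * g := by group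
    rw [h2, hρz1] at h1
    exact h1
  have hz1Q1 : z1 ∈ Q.map (MulAut.conj g).toMonoidHom := by
    rw [hmemQ1, hginv]; exact hzQ
  have hzQ1 : z ∈ Q.map (MulAut.conj g).toMonoidHom := by
    have := Subgroup.mul_mem _ hzz1Q1 hz1Q1
    rwa [e4] at this
  refine ⟨hzQ1, ?_⟩
  -- the element q1 of Q^g
  have htQ : g⁻¹ * z * g ∈ Q := (hmemQ1 z).mp hzQ1
  have ht2 : (g⁻¹ * z * g) * (g⁻¹ * z * g) = 1 := by
    have := conj_sq_one (x := g⁻¹) hzz
    rwa [inv_inv] at this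
  have ht1 : g⁻¹ * z * g ≠ 1 := by
    have := conj_ne_one (x := g⁻¹) hz_ne
    rwa [inv_inv] at this
  have htz : g⁻¹ * z * g ≠ z := by
    intro h
    apply hne
    have hzg : z = g * (g⁻¹ * z * g) * g⁻¹ := by group
    rw [h] at hzg
    rw [hz1def]; exact hzg.symm
  obtain ⟨q, hqQ, hq⟩ := hN _ htQ ht2 ht1 htz
  have hqz : q * z * q⁻¹ = z := (conj_eq_iff_comm _ _).mpr ((hCz q).mp (hQC hqQ))
  have hq1Q1 : g * q * g⁻¹ ∈ Q.map (MulAut.conj g).toMonoidHom := by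
    rw [hmemQ1]
    have h5 : g⁻¹ * (g * q * g⁻¹) * g = q := by group
    rw [h5]; exact hqQ
  have hq1z : (g * q * g⁻¹) * z * (g * q * g⁻¹)⁻¹ = z * z1 := by
    calc (g * q * g⁻¹) * z * (g * q * g⁻¹)⁻¹ = g * (q * (g⁻¹ * z * g) * q⁻¹) * g⁻¹ := by group
      _ = g * (z * (g⁻¹ * z * g)) * g⁻¹ := by rw [hq]
      _ = (g * z * g⁻¹) * z := by group
      _ = z * z1 := by rw [← hz1def, hz1z]
  have hq1z1 : (g * q * g⁻¹) * z1 * (g * q * g⁻¹)⁻¹ = z1 := by
    calc (g * q * g⁻¹) * z1 * (g * q * g⁻¹)⁻¹ = g * (q * (g⁻¹ * z1 * g) * q⁻¹) * g⁻¹ := by group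
      _ = g * z * g⁻¹ := by rw [hginv, hqz]
      _ = z1 := hz1def.symm
  obtain ⟨q1, hq1def⟩ : ∃ q1, q1 = g * q * g⁻¹ := ⟨_, rfl⟩
  rw [← hq1def] at hq1Q1 hq1z hq1z1
  have hq1zz1 : q1 * (z * z1) * q1⁻¹ = z := by rw [conj_mul, hq1z, hq1z1, e4]
  have A1 : (q0 * q1) * z * (q0 * q1)⁻¹ = z1 := by rw [conj_conj, hq1z, hq0zz1]
  have A2 : (q0 * q1) * z1 * (q0 * q1)⁻¹ = z * z1 := by rw [conj_conj, hq1z1, hq0]
  have B1 : (q1 * q0) * z * (q1 * q0)⁻¹ = z * z1 := by rw [conj_conj, hq0z', hq1z]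
  have B2 : (q1 * q0) * z1 * (q1 * q0)⁻¹ = z := by rw [conj_conj, hq0, hq1zz1]
  have C1 : (q0 * q1 * q0) * z * (q0 * q1 * q0)⁻¹ = z1 := by
    rw [mul_assoc q0 q1 q0, conj_conj, B1, hq0zz1]
  have C2 : (q0 * q1 * q0) * z1 * (q0 * q1 * q0)⁻¹ = z := by
    rw [mul_assoc q0 q1 q0, conj_conj, B2, hq0z']
  have hq0X : q0 ∈ Q ⊔ Q.map (MulAut.conj g).toMonoidHom := Subgroup.mem_sup_left hq0Q
  have hq1X : q1 ∈ Q ⊔ Q.map (MulAut.conj g).toMonoidHom := Subgroup.mem_sup_right hq1Q1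
  -- the elements of the four-group
  have hV : ∀ w ∈ Subgroup.closure ({z, z1} : Set G), w = 1 ∨ w = z ∨ w = z1 ∨ w = z * z1 := by
    intro w hw
    induction hw using Subgroup.closure_induction with
    | mem x hx =>
      rcases hx with rfl | hx
      · exact Or.inr (Or.inl rfl)
      · rw [Set.mem_singleton_iff] at hx
        exact Or.inr (Or.inr (Or.inl hx))
    | one => exact Or.inl rfl
    | mul x y _ _ hx hy =>
      rcases hx with rfl | rfl | rfl | rfl <;> rcases hy with rfl | rfl | rfl | rfl <;>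
        simp [hzz, hz1z1, hz1z, e1, e2, e4, mul_assoc]
    | inv x _ hx =>
      rcases hx with rfl | rfl | rfl | rfl <;> simp [hzinv, hz1inv, hz1z]
  intro u hu v hv hu1 hv1 huv
  rcases hV u hu with rfl | rfl | rfl | rfl
  · exact absurd rfl hu1
  · rcases hV v hv with rfl | rfl | rfl | rfl
    · exact absurd rfl hv1
    · exact absurd rfl huv
    · exact ⟨1, Subgroup.one_mem _, by simp, by simp⟩
    · exact ⟨q0, hq0X, hq0z', hq0⟩
  · rcases hV v hv with rfl | rfl | rfl | rfl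
    · exact absurd rfl hv1
    · exact ⟨q0 * q1 * q0, Subgroup.mul_mem _ (Subgroup.mul_mem _ hq0X hq1X) hq0X, C1, C2⟩
    · exact absurd rfl huv
    · exact ⟨q0 * q1, Subgroup.mul_mem _ hq0X hq1X, A1, A2⟩
  · rcases hV v hv with rfl | rfl | rfl | rfl
    · exact absurd rfl hv1
    · exact ⟨q1 * q0, Subgroup.mul_mem _ hq1X hq0X, B1, B2⟩
    · exact ⟨q1, hq1X, hq1z, hq1z1⟩
    · exact absurd rfl huv

end main

end Cfsg.Agent.Lib.Helper57.Symp
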