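import Mathlib
import Cfsg.Agent.Lib.Helper47.PrimeOrd

/-!
S5980 piece TD2-CYCDEG (poster helper98): a monic divisor of `X ^ r - 1` not vanishing at `1`
and of degree below the order of `q` mod `r` is `1`.
-/

set_option autoImplicit false

namespace Cfsg.Agent.Lib.Helper98.TD2

open Matrix Polynomial
open scoped Kronecker

theorem c2_of_lt_order {F : Type*} [Field F] [Fintype F] {p q : ℕ} [Fact p.Prime] [CharP F p]
    (hq : Fintype.card F = q) {r : ℕ} (hr : r.Prime) (hrp : r ≠ p) (β : ℕ)
    (hβ : β < orderOf (q : ZMod r)) :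
    ∀ g : F[X], g.Monic → g ∣ X ^ r - 1 → g.eval 1 ≠ 0 → g.natDegree ≤ β → g = 1 := by
  classical
  intro g hg hdvd h1 hdeg
  by_contra hne
  have hnu : ¬ IsUnit g := fun hu => hne (hg.eq_one_of_isUnit hu)
  obtain ⟨f, hfirr, hfg⟩ := WfDvdMonoid.exists_irreducible_factor hnu hg.ne_zero
  have hf'irr : Irreducible (normalize f) := (associated_normalize f).irreducible hfirr
  have hf'mon : (normalize f).Monic := Polynomial.monic_normalize hfirr.ne_zero
  have hf'g : normalize f ∣ g := (normalize_dvd_iff).mpr hfg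
  have hf'X : normalize f ∣ X ^ r - 1 := hf'g.trans hdvd
  have : Fact r.Prime := ⟨hr⟩
  rw [← Polynomial.cyclotomic_prime_mul_X_sub_one F r] at hf'X
  rcases hf'irr.prime.dvd_or_dvd hf'X with h | h
  · have hcyc : Cfsg.Agent.Lib.Helper47.IsCycFactor r (normalize f) := ⟨hf'mon, hf'irr, h⟩
    have hd := Cfsg.Agent.Lib.Helper47.IsCycFactor.natDegree_eq hq hr hrp hcyc
    have hle : (normalize f).natDegree ≤ g.natDegree :=
      Polynomial.natDegree_le_of_dvd hf'g hg.ne_zero
    omega
  · -- `normalize f ∣ X - 1` forces `X - 1 ∣ g`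
    have hirr1 : Irreducible (X - 1 : F[X]) := by
      have := irreducible_X_sub_C (1 : F)
      simpa using this
    have hassoc : Associated (normalize f) (X - 1 : F[X]) :=
      hf'irr.associated_of_dvd hirr1 h
    have hX1 : (X - 1 : F[X]) ∣ g := hassoc.symm.dvd.trans hf'g
    have : (X - C (1 : F)) ∣ g := by simpa using hX1
    rw [Polynomial.dvd_iff_isRoot] at this
    exact h1 this

end Cfsg.Agent.Lib.Helper98.TD2
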