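import Cfsg.Agent.Lib.Helper22.TGDefs
import Cfsg.Agent.Lib.Helper81.BrConj
import Cfsg.Prelude.Def_Blocks
import Cfsg.Agent.Lib.Helper79.Prin
import Cfsg.Agent.Lib.Helper33.KleinPair

/-! Piece TGC-SMT (job of helper33, S4442): Brauer's second main theorem summed over the blocks
of `C = C_G(P)` inducing `B`.  helper57. -/

set_option autoImplicit false

namespace Cfsg.Agent.Lib.Helper57.TGC

open Cfsg Cfsg.Agent.Lib.Helper22.TG Cfsg.Agent.Lib.Helper81
open Cfsg.Agent.Lib.Helper4 Cfsg.Agent.Lib.Helper21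
open scoped ComplexConjugate

/-- A sum over all irreducible characters, grouped by blocks, when the block sums outside a set
`S` of blocks vanish. -/
theorem sum_eq_finsum_blocks {K : Type*} [Group K] [Fintype (IrrCharacter K)] {p : ℕ}
    [Fact p.Prime] {M : Ideal AlgInt} (hM : IsPModular p M) (f : IrrCharacter K → ℂ)
    (S : Set (Set (IrrCharacter K))) (hS : ∀ b ∈ S, IsPBlock M b)
    (hf : ∀ b : Set (IrrCharacter K), IsPBlock M b → b ∉ S → ∑ᶠ ψ ∈ b, f ψ = 0) :
    ∑ ψ : IrrCharacter K, f ψ = ∑ᶠ b ∈ S, ∑ᶠ ψ ∈ b, f ψ := by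
  classical
  rw [← Finset.sum_fiberwise_of_maps_to (s := Finset.univ)
    (t := Finset.univ.image (fun ψ : IrrCharacter K => blockOf M (ψ : K → ℂ)))
    (g := fun ψ : IrrCharacter K => blockOf M (ψ : K → ℂ))
    (fun ψ _ => Finset.mem_image_of_mem _ (Finset.mem_univ ψ))]
  have hin : ∀ b : Set (IrrCharacter K), IsPBlock M b →
      ∑ ψ ∈ Finset.univ.filter (fun ψ : IrrCharacter K => blockOf M (ψ : K → ℂ) = b), f ψ =
      ∑ᶠ ψ ∈ b, f ψ := by
    intro b hb
    rw [Cfsg.Agent.Lib.Helper79.finsum_mem_eq_sum_filter_univ]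
    refine Finset.sum_congr ?_ fun _ _ => rfl
    ext ψ
    simp only [Finset.mem_filter, Finset.mem_univ, true_and]
    constructor
    · intro h
      rw [← h]
      exact Cfsg.Agent.Lib.Helper79.mem_blockOf_self hM ψ
    · intro h
      exact (Cfsg.Agent.Lib.Helper79.blockOf_eq_of_mem hM hb h).symm
  symm
  rw [finsum_mem_eq_sum_of_inter_support_eq (t := Finset.univ.image
    (fun ψ : IrrCharacter K => blockOf M (ψ : K → ℂ)))]
  · refine Finset.sum_congr rfl ?_
    intro b hb
    rw [Finset.mem_image] at hb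
    obtain ⟨ψ, -, rfl⟩ := hb
    rw [hin _ (Cfsg.Agent.Lib.Helper79.isPBlock_blockOf ψ)]
  · ext c
    simp only [Set.mem_inter_iff, Function.mem_support, Finset.coe_image,
      Finset.coe_univ, Set.image_univ, Set.mem_range]
    constructor
    · rintro ⟨hc, hne⟩
      obtain ⟨ψ, hψ⟩ := hS c hc
      exact ⟨⟨ψ, hψ.symm⟩, hne⟩
    · rintro ⟨⟨ψ, rfl⟩, hne⟩
      refine ⟨?_, hne⟩
      by_contra hnot
      exact hne (hf _ (Cfsg.Agent.Lib.Helper79.isPBlock_blockOf ψ) hnot)

/-- the second main theorem, summed over the blocks of (a copy `H` of) `C_G(u)` inducing `B` -/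
theorem smt_gen {G : Type*} [Group G] [Finite G] (p : ℕ) [Fact p.Prime] (M : Ideal AlgInt)
    (hM : IsPModular p M) (u : G) (hu : ∃ k : ℕ, orderOf u = p ^ k)
    (B : Set (IrrCharacter G)) (hB : IsPBlock M B) (χ : IrrCharacter G) (hχ : χ ∈ B)
    (H : Subgroup G) (hH : H = Subgroup.centralizer ({u} : Set G)) (s : H)
    (hs : ¬ p ∣ orderOf s) :
    (χ : G → ℂ) (u * (s : G)) =
      ∑ᶠ c ∈ {c : Set (IrrCharacter H) | IsInducedBlock M H c B},
        blockPart c (fun x : H => (χ : G → ℂ) (u * (x : G))) s := by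
  subst hH
  classical
  letI : Fintype (Subgroup.centralizer ({u} : Set G)) := Fintype.ofFinite _
  haveI := irr_finite (G := Subgroup.centralizer ({u} : Set G))
  letI := Fintype.ofFinite (IrrCharacter (Subgroup.centralizer ({u} : Set G)))
  set ϑ : Subgroup.centralizer ({u} : Set G) → ℂ := fun c => (χ : G → ℂ) (u * (c : G)) with hϑ
  have hcf : IsClassFunction _ ϑ := Cfsg.Agent.Lib.Helper79.isClassFunction_twist χ u
  have hexp := congrFun (classFunction_expansion ϑ hcf) s
  simp only [Finset.sum_apply, Pi.smul_apply, smul_eq_mul] at hexp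
  show ϑ s = ∑ᶠ c ∈ {c : Set (IrrCharacter (Subgroup.centralizer ({u} : Set G))) |
      IsInducedBlock M (Subgroup.centralizer ({u} : Set G)) c B},
    ∑ᶠ ψ ∈ c, classInner ϑ (ψ : _ → ℂ) * (ψ : _ → ℂ) s
  rw [hexp]
  apply sum_eq_finsum_blocks hM
  · intro b hb
    exact hb.1
  · intro b hb hnot
    exact Cfsg.Agent.S0923.result p M hM u hu B hB χ hχ b hb hnot s hs

variable {G : Type*} [Group G] [Fintype G] (p : ℕ) [Fact p.Prime] (M : Ideal AlgInt)

/-- PIECE TGC-SMT : second main theorem, summed over the blocks of `C` inducing `B`. -/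
theorem smt_sum (hM : IsPModular p M) (P : Sylow p G) (hP : Nat.card P = p)
    (B : Set (IrrCharacter G)) (hB : IsPBlock M B)
    (z : G) (hz : z ∈ (P : Subgroup G)) (hz1 : z ≠ 1)
    (χ : IrrCharacter G) (hχ : χ ∈ B) (t : ℕ) (ht : ¬ p ∣ t)
    (s : Subgroup.centralizer ((P : Subgroup G) : Set G)) (hs : ¬ p ∣ orderOf s) :
    (χ : G → ℂ) (z ^ t * (s : G)) =
      ∑ᶠ c ∈ {c : Set (IrrCharacter (Subgroup.centralizer ((P : Subgroup G) : Set G))) |
          IsInducedBlock M (Subgroup.centralizer ((P : Subgroup G) : Set G)) c B},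
        blockPart c (fun x : Subgroup.centralizer ((P : Subgroup G) : Set G) =>
          (χ : G → ℂ) (z ^ t * (x : G))) s := by
  have hp : p.Prime := Fact.out
  have hzo : orderOf z = p := by
    have h1 : orderOf z ∣ p := by
      have h2 := Subgroup.orderOf_dvd_natCard (P : Subgroup G) hz
      rwa [hP] at h2
    rcases (Nat.dvd_prime hp).mp h1 with h | h
    · exact absurd (orderOf_eq_one_iff.mp h) hz1
    · exact h
  have hcop : (orderOf z).Coprime t := by
    rw [hzo]
    exact (Nat.Prime.coprime_iff_not_dvd hp).mpr ht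
  have huo : orderOf (z ^ t) = p := by
    rw [Nat.Coprime.orderOf_pow hcop, hzo]
  have hu : ∃ k : ℕ, orderOf (z ^ t) = p ^ k := ⟨1, by rw [huo, pow_one]⟩
  have hzP : Subgroup.zpowers (z ^ t) = (P : Subgroup G) := by
    apply Subgroup.eq_of_le_of_card_ge
    · rw [Subgroup.zpowers_le]
      exact pow_mem hz t
    · rw [Nat.card_zpowers, huo]
      exact le_of_eq hP
  have hH : Subgroup.centralizer ((P : Subgroup G) : Set G) =
      Subgroup.centralizer ({z ^ t} : Set G) := by
    rw [Cfsg.Agent.Lib.Helper33.Klein.centralizer_singleton_eq, hzP]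
  exact smt_gen p M hM (z ^ t) hu B hB χ hχ _ hH s hs

end Cfsg.Agent.Lib.Helper57.TGC
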