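import Mathlib
import Cfsg.Prelude.Def_GeometricClasses
import Cfsg.Agent.Lib.Helper97.Transv
import Cfsg.Agent.Lib.Helper97.TransvM
import Cfsg.Agent.Lib.Helper71.TP0
import Cfsg.Agent.Lib.Helper71.TP1

/-! S5637 piece F1 (job of helper71), core: `stab_le` relative to the pieces A (`NN_InR_form`),
B1 (`stab_form`) and DET (`det_of_InR`), which enter as hypotheses.  helper57. -/

set_option autoImplicit false

namespace Cfsg.Agent.Lib.Helper57.TPF1

open Matrix Cfsg.Agent.Lib.Helper71.TP Cfsg.Agent.Lib.Helper97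
open scoped Kronecker

variable {a b : ℕ} {F : Type*} [Field F]

/-- (0) if `x` maps the fibre into itself, so does `x⁻¹`. -/
theorem inv_stab (x : GL (Fin a × Fin b) F) (w : Fin b → F)
    (hst : ∀ v ∈ fib (a := a) w, act x v ∈ fib (a := a) w) :
    ∀ v ∈ fib (a := a) w, act x⁻¹ v ∈ fib (a := a) w := by
  have hmaps : ∀ v ∈ fib (a := a) w, Matrix.toLin' x.1 v ∈ fib (a := a) w := by
    intro v hv
    rw [Matrix.toLin'_apply]
    exact hst v hv
  let f : ↥(fib (a := a) w) →ₗ[F] ↥(fib (a := a) w) := (Matrix.toLin' x.1).restrict hmaps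
  have hinj : Function.Injective f := by
    intro v v' h
    apply Subtype.ext
    have h1 := congrArg Subtype.val h
    simp only [f, LinearMap.coe_restrict_apply, Matrix.toLin'_apply] at h1
    exact act_injective x h1
  have hsurj : Function.Surjective f := LinearMap.surjective_of_injective hinj
  intro v hv
  obtain ⟨v', hv'⟩ := hsurj ⟨v, hv⟩
  have h1 : act x v'.1 = v := by
    have h2 := congrArg Subtype.val hv'
    simpa only [f, LinearMap.coe_restrict_apply, Matrix.toLin'_apply] using h2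
  rw [← h1, act_inv_act]
  exact v'.2

/-- (1) the conjugate of a root element by a stabiliser of the fibre is again of root shape. -/
theorem conj_rel
    (hA : ∀ g : GL (Fin a × Fin b) F, g ∈ NN a b F → ∀ w : Fin b → F, w ≠ 0 → InR g w →
      ∃ ψ : Fin b → F, ψ ⬝ᵥ w = 0 ∧ g.1 = 1 + kv 1 w ψ)
    (M : Subgroup (GL (Fin a × Fin b) F)) (hNM : NN a b F ≤ M) (hD : HD M)
    (y : GL (Fin a × Fin b) F) (hy : y ∈ M) (w : Fin b → F) (hw : w ≠ 0)
    (hst : ∀ v ∈ fib (a := a) w, act y v ∈ fib (a := a) w)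
    (hst' : ∀ v ∈ fib (a := a) w, act y⁻¹ v ∈ fib (a := a) w)
    (ψ : Fin b → F) (h : ψ ⬝ᵥ w = 0) :
    ∃ ψ' : Fin b → F, ψ' ⬝ᵥ w = 0 ∧ y.1 * kv 1 w ψ = kv 1 w ψ' * y.1 := by
  obtain ⟨z, hz⟩ : ∃ z : GL (Fin a × Fin b) F, z = y * rootG w ψ h * y⁻¹ := ⟨_, rfl⟩
  have hzM : z ∈ M := by
    rw [hz]
    exact M.mul_mem (M.mul_mem hy (hNM (rootG_mem_NN w ψ h))) (M.inv_mem hy)
  have hzact : ∀ v, act z v = v + act y (pt (ctr ψ (act y⁻¹ v)) w) := by
    intro v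
    rw [hz, act_mul, act_mul, act_rootG, act_add, act_act_inv]
  have hR : InR z w := by
    constructor
    · intro v
      have h1 := hzact v
      rw [act_def] at h1
      rw [h1, add_sub_cancel_left]
      exact hst _ (pt_mem_fib _ _)
    · intro v hv
      have h1 := hzact v
      obtain ⟨u, hu⟩ := mem_fib.mp (hst' v hv)
      rw [hu, ctr_pt, h, zero_smul, pt_zero_left, act_zero, add_zero] at h1
      exact h1
  have hzN : z ∈ NN a b F := hD w hw z hzM hR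
  obtain ⟨ψ', hψ', hz1⟩ := hA z hzN w hw hR
  refine ⟨ψ', hψ', ?_⟩
  have h2 : z * y = y * rootG w ψ h := by
    rw [hz, inv_mul_cancel_right]
  have h3 := congrArg Units.val h2
  rw [Units.val_mul, Units.val_mul, hz1, rootG_val, Matrix.add_mul, Matrix.mul_add,
    Matrix.one_mul, Matrix.mul_one] at h3
  exact (add_left_cancel h3).symm

/-- F1 relative to the pieces A, B1, DET. -/
theorem stab_le_of
    (hA : ∀ g : GL (Fin a × Fin b) F, g ∈ NN a b F → ∀ w : Fin b → F, w ≠ 0 → InR g w →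
      ∃ ψ : Fin b → F, ψ ⬝ᵥ w = 0 ∧ g.1 = 1 + kv 1 w ψ)
    (hB1 : ∀ (x : GL (Fin a × Fin b) F) (w : Fin b → F), w ≠ 0 →
      (∀ v ∈ fib (a := a) w, act x v ∈ fib (a := a) w) →
      (∀ ψ : Fin b → F, ψ ⬝ᵥ w = 0 →
        ∃ ψ' : Fin b → F, ψ' ⬝ᵥ w = 0 ∧ x.1 * kv 1 w ψ = kv 1 w ψ' * x.1) →
      (∀ ψ' : Fin b → F, ψ' ⬝ᵥ w = 0 →
        ∃ ψ : Fin b → F, ψ ⬝ᵥ w = 0 ∧ x.1 * kv 1 w ψ = kv 1 w ψ' * x.1) →
      ∃ (ξ : GL (Fin a) F) (γ : GL (Fin b) F) (r : GL (Fin a × Fin b) F),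
        InR r w ∧ x = kronG ξ γ * r)
    (hDET : ∀ (r : GL (Fin a × Fin b) F) (w : Fin b → F), w ≠ 0 → InR r w → r.1.det = 1)
    (M : Subgroup (GL (Fin a × Fin b) F)) (hNM : NN a b F ≤ M)
    (hM : M ≤ Cfsg.Geo.specialLinear (Fin a × Fin b) F) (hD : HD M)
    (x : GL (Fin a × Fin b) F) (hx : x ∈ M) (w : Fin b → F) (hw : w ≠ 0)
    (hst : ∀ v ∈ fib (a := a) w, act x v ∈ fib (a := a) w) : x ∈ NN a b F := by
  have hst' := inv_stab x w hst
  have hstinv : ∀ v ∈ fib (a := a) w, act (x⁻¹)⁻¹ v ∈ fib (a := a) w := by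
    rw [inv_inv]; exact hst
  have h1 : ∀ ψ : Fin b → F, ψ ⬝ᵥ w = 0 →
      ∃ ψ' : Fin b → F, ψ' ⬝ᵥ w = 0 ∧ x.1 * kv 1 w ψ = kv 1 w ψ' * x.1 :=
    fun ψ h => conj_rel hA M hNM hD x hx w hw hst hst' ψ h
  have h2 : ∀ ψ' : Fin b → F, ψ' ⬝ᵥ w = 0 →
      ∃ ψ : Fin b → F, ψ ⬝ᵥ w = 0 ∧ x.1 * kv 1 w ψ = kv 1 w ψ' * x.1 := by
    intro ψ' h
    obtain ⟨ψ, hψ, hrel⟩ := conj_rel hA M hNM hD x⁻¹ (M.inv_mem hx) w hw hst' hstinv ψ' h
    refine ⟨ψ, hψ, ?_⟩
    have e1 : x.1 * (x⁻¹ : GL (Fin a × Fin b) F).1 = 1 := by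
      rw [← Units.val_mul, mul_inv_cancel, Units.val_one]
    have e2 : (x⁻¹ : GL (Fin a × Fin b) F).1 * x.1 = 1 := by
      rw [← Units.val_mul, inv_mul_cancel, Units.val_one]
    calc x.1 * kv 1 w ψ = x.1 * (kv 1 w ψ * (x⁻¹ : GL (Fin a × Fin b) F).1) * x.1 := by
          rw [Matrix.mul_assoc, Matrix.mul_assoc, e2, Matrix.mul_one]
      _ = x.1 * ((x⁻¹ : GL (Fin a × Fin b) F).1 * kv 1 w ψ') * x.1 := by rw [hrel]
      _ = kv 1 w ψ' * x.1 := by
          rw [← Matrix.mul_assoc x.1, e1, Matrix.one_mul]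
  obtain ⟨ξ, γ, r, hR, hxr⟩ := hB1 x w hw hst h1 h2
  have hdr : r.1.det = 1 := hDET r w hw hR
  have hdx : x.1.det = 1 := (mem_specialLinear_iff x).mp (hM hx)
  have hdk : (kronG ξ γ).1.det = 1 := by
    have h3 := congrArg (fun g : GL (Fin a × Fin b) F => g.1.det) hxr
    simp only [Units.val_mul, Matrix.det_mul] at h3
    rw [hdx, hdr, mul_one] at h3
    exact h3.symm
  have hkN : kronG ξ γ ∈ NN a b F := by
    apply kronG_mem_NN
    rw [← det_kronG]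
    exact hdk
  have hrM : r ∈ M := by
    have h4 : r = (kronG ξ γ)⁻¹ * x := by
      rw [hxr, inv_mul_cancel_left]
    rw [h4]
    exact M.mul_mem (M.inv_mem (hNM hkN)) hx
  have hrN : r ∈ NN a b F := hD w hw r hrM hR
  rw [hxr]
  exact (NN a b F).mul_mem hkN hrN

end Cfsg.Agent.Lib.Helper57.TPF1
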