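import Mathlib
import Cfsg.Prelude.Def_GeometricClasses
import Cfsg.Agent.Lib.Helper97.Transv
import Cfsg.Agent.Lib.Helper97.TransvM
import Cfsg.Agent.Lib.Helper71.TP0
import Cfsg.Agent.Lib.Helper71.TP1
import Cfsg.Agent.Lib.Helper92.TPA
import Cfsg.Agent.Lib.Helper14.TPB1
import Cfsg.Agent.Lib.Helper68.TPDET
import Cfsg.Agent.Lib.Helper57.TPF1a

/-! S5637 piece F1 (job of helper71): under (D) the stabiliser in `M` of a fibre lies in `NN`.
helper57. -/

set_option autoImplicit false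

namespace Cfsg.Agent.Lib.Helper57.TPF1

open Matrix Cfsg.Agent.Lib.Helper71.TP Cfsg.Agent.Lib.Helper97
open scoped Kronecker

variable {a b : ℕ} {F : Type*} [Field F]

/-- F1 -/
theorem stab_le (ha : 1 ≤ a) (M : Subgroup (GL (Fin a × Fin b) F)) (hNM : NN a b F ≤ M)
    (hM : M ≤ Cfsg.Geo.specialLinear (Fin a × Fin b) F) (hD : HD M)
    (x : GL (Fin a × Fin b) F) (hx : x ∈ M) (w : Fin b → F) (hw : w ≠ 0)
    (hst : ∀ v ∈ fib (a := a) w, act x v ∈ fib (a := a) w) : x ∈ NN a b F :=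
  stab_le_of
    (fun g hg w hw hR => Cfsg.Agent.Lib.Helper92.TPA.NN_InR_form ha g hg w hw hR)
    (fun x w hw hst h1 h2 => Cfsg.Agent.Lib.Helper14.TPB1.stab_form ha x w hw hst h1 h2)
    Cfsg.Agent.Lib.Helper68.TPDET.det_of_InR M hNM hM hD x hx w hw hst

end Cfsg.Agent.Lib.Helper57.TPF1
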