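import Mathlib
import Cfsg.Prelude.Def_GeometricClasses
import Cfsg.Agent.Lib.Helper97.Transv
import Cfsg.Agent.Lib.Helper97.TransvM
import Cfsg.Agent.Lib.Helper71.TP0
import Cfsg.Agent.Lib.Helper71.TP1

/-! S5637 piece FIB (job of helper71): fibres `U ⊗ w` characterised by contractions, and their
dimension.  helper57. -/

set_option autoImplicit false

namespace Cfsg.Agent.Lib.Helper57.TPFIB

open Matrix Cfsg.Agent.Lib.Helper71.TP Cfsg.Agent.Lib.Helper97
open scoped Kronecker

variable {a b : ℕ} {F : Type*} [Field F]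

/-- L1 -/
theorem mem_fib_iff_ctr (w : Fin b → F) (hw : w ≠ 0) (v : Fin a × Fin b → F) :
    v ∈ fib (a := a) w ↔ ∀ ψ : Fin b → F, ψ ⬝ᵥ w = 0 → ctr ψ v = 0 := by
  classical
  constructor
  · intro hv ψ hψ
    obtain ⟨u, rfl⟩ := mem_fib.mp hv
    rw [ctr_pt, hψ, zero_smul]
  · intro h
    obtain ⟨j₀, hj₀⟩ := Function.ne_iff.mp hw
    rw [Pi.zero_apply] at hj₀
    refine mem_fib.mpr ⟨fun i => v (i, j₀) / w j₀, ?_⟩
    ext ⟨i, j⟩
    rw [pt_apply]
    show v (i, j) = v (i, j₀) / w j₀ * w j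
    have h0 : (w j₀ • Pi.single j (1 : F) - w j • Pi.single j₀ (1 : F)) ⬝ᵥ w = 0 := by
      simp only [sub_dotProduct, smul_dotProduct, single_dotProduct, one_mul, smul_eq_mul]
      ring
    have h1 := congrFun (h _ h0) i
    rw [ctr_apply] at h1
    simp only [Pi.sub_apply, Pi.smul_apply, smul_eq_mul, mul_sub, Finset.sum_sub_distrib,
      Pi.single_apply, mul_ite, mul_one, mul_zero, Finset.sum_ite_eq', Finset.mem_univ,
      if_true, Pi.zero_apply] at h1
    field_simp
    linear_combination h1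

/-- L2 -/
theorem finrank_fib (w : Fin b → F) (hw : w ≠ 0) : Module.finrank F ↥(fib (a := a) w) = a := by
  obtain ⟨j₀, hj₀⟩ := Function.ne_iff.mp hw
  rw [Pi.zero_apply] at hj₀
  have hinj : Function.Injective (ptL (a := a) w) := by
    rw [← LinearMap.ker_eq_bot, LinearMap.ker_eq_bot']
    intro u hu
    ext i
    have h1 := congrFun hu (i, j₀)
    simp only [ptL_apply, pt_apply, Pi.zero_apply] at h1
    rcases mul_eq_zero.mp h1 with h | h
    · exact h
    · exact absurd h hj₀
  show Module.finrank F ↥(LinearMap.range (ptL (a := a) w)) = a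
  rw [LinearMap.finrank_range_of_inj hinj, Module.finrank_fin_fun]

end Cfsg.Agent.Lib.Helper57.TPFIB
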